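import Mathlib
import Cfsg.Agent.H63.BG11Defs
import Cfsg.Agent.S1392
import Cfsg.Agent.S0025

/-!
# Bender–Glauberman §11, piece C (`excCore`)

The core of B&G 11.1: for an exceptional maximal subgroup `M` (Hypothesis 11.1, `A ≤ M`), `g ∉ M`
with `A ≤ g M g⁻¹`, no proper subgroup `H ≥ A` contains nontrivial `A`-invariant `q`-subgroups
`U₁ ≤ M_σ` and `U₂ ≤ g M_σ g⁻¹`.
-/

set_option autoImplicit false

namespace Cfsg.Agent.H98.BG11

open Cfsg Subgroup Cfsg.Agent.H58.BG10 Cfsg.Agent.H63.BG11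

universe u

variable {G : Type u} [Group G]

/-- A `q`-subgroup containing a subgroup of index prime to `q` equals it. -/
theorem eq_of_le_of_pgroup [Finite G] {q : ℕ} [Fact q.Prime] {Q R : Subgroup G}
    (hR : IsPGroup q R) (hQ : ¬ q ∣ Q.index) (hQR : Q ≤ R) : R = Q := by
  symm
  apply Subgroup.eq_of_le_of_card_ge hQR
  obtain ⟨b, hb⟩ := IsPGroup.iff_card.1 hR
  have h1 : Nat.card R ∣ Nat.card Q * Q.index := by
    rw [Subgroup.card_mul_index]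
    exact Subgroup.card_subgroup_dvd_card R
  have h2 : (Nat.card R).Coprime Q.index := by
    rw [hb]
    exact Nat.Coprime.pow_left _ ((Nat.Prime.coprime_iff_not_dvd Fact.out).2 hQ)
  exact Nat.le_of_dvd Nat.card_pos (h2.dvd_of_dvd_mul_right h1)

/-- Normal subgroups of `M`, mapped to `G`, are normalized by `M`. -/
theorem le_normalizer_map_subtype (M : Subgroup G) (N : Subgroup M) [hN : N.Normal] :
    M ≤ normalizer ((N.map M.subtype : Subgroup G) : Set G) := by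
  intro m hm
  rw [Subgroup.mem_normalizer_iff]
  intro x
  constructor
  · rintro ⟨n, hn, rfl⟩
    exact ⟨⟨m, hm⟩ * n * ⟨m, hm⟩⁻¹, hN.conj_mem n hn ⟨m, hm⟩, rfl⟩
  · rintro ⟨n, hn, hnx⟩
    refine ⟨⟨m, hm⟩⁻¹ * n * ⟨m, hm⟩, ?_, ?_⟩
    · have h1 := hN.conj_mem n hn ⟨m, hm⟩⁻¹
      rwa [inv_inv] at h1
    · have h1 : (n : G) = m * x * m⁻¹ := hnx
      show m⁻¹ * (n : G) * m = x
      rw [h1]
      group

/-- Conjugation transports normalizer containment. -/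
theorem map_conj_le_normalizer {K L : Subgroup G} (h : K ≤ normalizer (L : Set G)) (g : G) :
    K.map (MulAut.conj g).toMonoidHom ≤
      normalizer ((L.map (MulAut.conj g).toMonoidHom : Subgroup G) : Set G) := by
  rintro _ ⟨k, hk, rfl⟩
  have hkn := h hk
  rw [Subgroup.mem_normalizer_iff] at hkn ⊢
  intro x
  constructor
  · rintro ⟨l, hl, rfl⟩
    refine ⟨k * l * k⁻¹, (hkn l).1 hl, ?_⟩
    simp only [MulEquiv.coe_toMonoidHom, MulAut.conj_apply]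
    group
  · rintro ⟨l, hl, hlx⟩
    have e : k * (k⁻¹ * l * k) * k⁻¹ = l := by group
    refine ⟨k⁻¹ * l * k, (hkn (k⁻¹ * l * k)).2 (by rw [e]; exact hl), ?_⟩
    simp only [MulEquiv.coe_toMonoidHom, MulAut.conj_apply] at hlx ⊢
    have h1 : x = (g * k * g⁻¹)⁻¹ * (g * l * g⁻¹) * (g * k * g⁻¹) := by
      rw [hlx]
      group
    rw [h1]
    group

theorem excCore [Finite G] (hG : IsMinSimpleOddOrder G) (h350 : St1350 G) (hF : StExcFacts G) :
    StExcCore G := by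
  intro M A A₀ p _ hE g hgM hAg q _ U₁ U₂ H hU₁ hU₂ hq₁ hq₂ hne₁ hne₂ hAU₁ hAU₂ hHtop hAH hU₁H hU₂H
  have hfacts := hF M A A₀ p hE
  obtain ⟨⟨hσM, hσdvd, -⟩, ⟨-, hσidx⟩, -⟩ := h350 M hE.coatom
  have hqpr : q.Prime := Fact.out
  have hppr : p.Prime := Fact.out
  have hqdvd : q ∣ Nat.card (sigmaCore M) := by
    have h1 : Nat.card U₁ ∣ Nat.card (sigmaCore M) := Subgroup.card_dvd_of_le hU₁
    obtain ⟨b, hb⟩ := IsPGroup.iff_card.1 hq₁
    have hb0 : b ≠ 0 := by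
      rintro rfl
      rw [pow_zero] at hb
      exact hne₁ (Subgroup.card_eq_one.1 hb)
    exact (dvd_pow_self q hb0).trans (hb ▸ h1)
  have hqσ : q ∈ sigma M := hσdvd q hqpr hqdvd
  have hqp : q ≠ p := fun h => hE.nsig (h ▸ hqσ)
  have hcop : (Nat.card A).Coprime (Nat.card (sigmaCore M)) := by
    rw [hE.card]
    apply Nat.Coprime.pow_left
    rw [Nat.Prime.coprime_iff_not_dvd hppr]
    intro h
    exact hE.nsig (hσdvd p hppr h)
  have hsolvA : Group.IsSolvable A := by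
    have hpA : IsPGroup p A := IsPGroup.of_card hE.card
    have := hpA.isNilpotent
    infer_instance
  have hMnorm : M ≤ normalizer (sigmaCore M : Set G) :=
    le_normalizer_map_subtype M (piCore (sigma M) M)
  obtain ⟨P₁, hU₁P, hAP₁⟩ := Cfsg.Agent.S0025.result A (sigmaCore M) (hE.le.trans hMnorm) hcop
    (Or.inl hsolvA) q U₁ hU₁ hq₁ hAU₁
  have hcard_g : Nat.card ((sigmaCore M).map (MulAut.conj g).toMonoidHom)
      = Nat.card (sigmaCore M) := Subgroup.card_map_of_injective (MulAut.conj g).injective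
  obtain ⟨P₂, hU₂P, hAP₂⟩ := Cfsg.Agent.S0025.result A
    ((sigmaCore M).map (MulAut.conj g).toMonoidHom)
    (hAg.trans (map_conj_le_normalizer hMnorm g)) (by rw [hcard_g]; exact hcop)
    (Or.inl hsolvA) q U₂ hU₂ hq₂ hAU₂
  obtain ⟨Q₁, hQ₁⟩ : ∃ Q₁ : Subgroup G,
      Q₁ = (P₁ : Subgroup (sigmaCore M)).map (sigmaCore M).subtype := ⟨_, rfl⟩
  obtain ⟨Q₂, hQ₂⟩ : ∃ Q₂ : Subgroup G,
      Q₂ = (P₂ : Subgroup ((sigmaCore M).map (MulAut.conj g).toMonoidHom)).map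
        ((sigmaCore M).map (MulAut.conj g).toMonoidHom).subtype := ⟨_, rfl⟩
  rw [← hQ₁] at hU₁P hAP₁
  rw [← hQ₂] at hU₂P hAP₂
  have hQ₁p : IsPGroup q Q₁ := by rw [hQ₁]; exact P₁.isPGroup'.map _
  have hQ₂p : IsPGroup q Q₂ := by rw [hQ₂]; exact P₂.isPGroup'.map _
  have hQ₁i : ¬ q ∣ Q₁.index := by
    rw [hQ₁, Subgroup.index_map_subtype]
    intro h
    rcases (Nat.Prime.dvd_mul hqpr).1 h with h | h
    · exact P₁.not_dvd_index h
    · exact hσidx q hqpr hqσ h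
  have hQ₂i : ¬ q ∣ Q₂.index := by
    rw [hQ₂, Subgroup.index_map_subtype,
      Subgroup.index_map_of_bijective (f := (MulAut.conj g).toMonoidHom) (MulAut.conj g).bijective]
    intro h
    rcases (Nat.Prime.dvd_mul hqpr).1 h with h | h
    · exact P₂.not_dvd_index h
    · exact hσidx q hqpr hqσ h
  have hmax : ∀ Q : Subgroup G, IsPGroup q Q → ¬ q ∣ Q.index → A ≤ normalizer (Q : Set G) →
      Q ∈ maxInvSubgroups ⊤ A {q} := by
    intro Q hQp hQi hAQ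
    refine ⟨⟨le_top, ?_, hAQ⟩, ?_⟩
    · intro r hr hrd
      obtain ⟨b, hb⟩ := IsPGroup.iff_card.1 hQp
      rw [hb] at hrd
      exact (Nat.prime_dvd_prime_iff_eq hr hqpr).1 (hr.dvd_of_dvd_pow hrd)
    · rintro R ⟨-, hRπ, -⟩ hQR
      have hRp : IsPGroup q R := by
        apply IsPGroup.of_card (n := (Nat.card R).primeFactorsList.length)
        exact Nat.eq_prime_pow_of_unique_prime_dvd Nat.card_pos.ne'
          (fun {d} hd hdd => hRπ d hd hdd)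
      exact eq_of_le_of_pgroup hRp hQi hQR
  have hqA : ¬ q ∣ Nat.card A := by
    rw [hE.card]
    intro h
    exact hqp ((Nat.prime_dvd_prime_iff_eq hqpr hppr).1 (hqpr.dvd_of_dvd_pow h))
  have hH₁ : H ⊓ Q₁ ≠ ⊥ := by
    intro h
    apply hne₁
    rw [eq_bot_iff, ← h]
    exact le_inf hU₁H hU₁P
  have hH₂ : H ⊓ Q₂ ≠ ⊥ := by
    intro h
    apply hne₂
    rw [eq_bot_iff, ← h]
    exact le_inf hU₂H hU₂P
  obtain ⟨k, hk, hkQ⟩ := Cfsg.Agent.S1392.result hG A hfacts.th q hqpr hqA Q₁ Q₂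
    (hmax Q₁ hQ₁p hQ₁i hAP₁) (hmax Q₂ hQ₂p hQ₂i hAP₂) H hHtop hAH hH₁ hH₂
  have hkM : k ∈ M := hfacts.cent (Subgroup.map_subtype_le _ hk)
  have hQ₁M : Q₁ ≤ M := by
    rw [hQ₁]
    exact (Subgroup.map_subtype_le _).trans hσM
  have hQ₂M : Q₂ ≤ M := by
    rw [hkQ]
    rintro _ ⟨y, hy, rfl⟩
    exact M.mul_mem (M.mul_mem hkM (hQ₁M hy)) (M.inv_mem hkM)
  have hQ₂g : Q₂ ≤ (sigmaCore M).map (MulAut.conj g).toMonoidHom := by
    rw [hQ₂]
    exact Subgroup.map_subtype_le _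
  obtain ⟨-, -, P, hPN⟩ := hqσ
  have hconj : ∀ Q : Subgroup G, Q ≤ M → IsPGroup q Q → ¬ q ∣ Q.index →
      ∃ m ∈ M, Q = ((P : Subgroup M).map M.subtype).map (MulAut.conj m).toMonoidHom := by
    intro Q hQM hQp hQi
    obtain ⟨S, hS⟩ := (hQp.comap_subtype (K := M)).exists_le_sylow
    obtain ⟨m, hm⟩ := MulAction.exists_smul_eq M P S
    refine ⟨m, m.2, ?_⟩
    symm
    apply eq_of_le_of_pgroup ((P.isPGroup'.map _).map _) hQi
    intro x hx
    have h1 : (⟨x, hQM hx⟩ : M) ∈ (S : Subgroup M) := hS (show (⟨x, hQM hx⟩ : M) ∈ Q.comap M.subtype from hx)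
    rw [← hm, Sylow.coe_subgroup_smul, Subgroup.mem_smul_pointwise_iff_exists] at h1
    obtain ⟨y, hy, hyx⟩ := h1
    refine ⟨(y : G), ⟨y, hy, rfl⟩, ?_⟩
    have h2 := congrArg Subtype.val hyx
    simpa [MulAut.smul_def] using h2
  have hQ₃M : Q₂.map (MulAut.conj g⁻¹).toMonoidHom ≤ M := by
    rintro _ ⟨x, hx, rfl⟩
    obtain ⟨y, hy, rfl⟩ := hQ₂g hx
    have h1 : (MulAut.conj g⁻¹).toMonoidHom ((MulAut.conj g).toMonoidHom y) = y := by
      simp only [MulEquiv.coe_toMonoidHom, MulAut.conj_apply]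
      group
    rw [h1]
    exact hσM hy
  have hQ₃p : IsPGroup q (Q₂.map (MulAut.conj g⁻¹).toMonoidHom) := hQ₂p.map _
  have hQ₃i : ¬ q ∣ (Q₂.map (MulAut.conj g⁻¹).toMonoidHom).index := by
    rw [Subgroup.index_map_of_bijective (f := (MulAut.conj g⁻¹).toMonoidHom)
      (MulAut.conj g⁻¹).bijective]
    exact hQ₂i
  obtain ⟨a, haM, ha⟩ := hconj Q₂ hQ₂M hQ₂p hQ₂i
  obtain ⟨b, hbM, hb⟩ := hconj _ hQ₃M hQ₃p hQ₃i
  have hn : b⁻¹ * g⁻¹ * a ∈ normalizer (((P : Subgroup M).map M.subtype : Subgroup G) : Set G) := by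
    rw [Subgroup.mem_normalizer_iff]
    intro x
    constructor
    · intro hx
      have h1 : a * x * a⁻¹ ∈ Q₂ := by
        rw [ha]
        exact ⟨x, hx, rfl⟩
      have h2 : g⁻¹ * (a * x * a⁻¹) * g⁻¹⁻¹ ∈ Q₂.map (MulAut.conj g⁻¹).toMonoidHom :=
        ⟨_, h1, rfl⟩
      rw [hb] at h2
      obtain ⟨y, hy, hy2⟩ := h2
      have h3 : b * y * b⁻¹ = g⁻¹ * (a * x * a⁻¹) * g⁻¹⁻¹ := hy2
      have h5 : b⁻¹ * g⁻¹ * a * x * (b⁻¹ * g⁻¹ * a)⁻¹ = y := by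
        have h4 : y = b⁻¹ * (b * y * b⁻¹) * b := by group
        rw [h4, h3]
        group
      rw [h5]
      exact hy
    · intro hx
      have h1 : b * (b⁻¹ * g⁻¹ * a * x * (b⁻¹ * g⁻¹ * a)⁻¹) * b⁻¹ ∈
          Q₂.map (MulAut.conj g⁻¹).toMonoidHom := by
        rw [hb]
        exact ⟨_, hx, rfl⟩
      obtain ⟨z, hz, hz2⟩ := h1
      rw [ha] at hz
      obtain ⟨w, hw, rfl⟩ := hz
      have h3 : g⁻¹ * (a * w * a⁻¹) * g⁻¹⁻¹ = b * (b⁻¹ * g⁻¹ * a * x * (b⁻¹ * g⁻¹ * a)⁻¹) * b⁻¹ :=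
        hz2
      have h5 : x = w := by
        have h4 : w = a⁻¹ * g * (g⁻¹ * (a * w * a⁻¹) * g⁻¹⁻¹) * g⁻¹ * a := by group
        rw [h4, h3]
        group
      rw [h5]
      exact hw
  have hnM := hPN hn
  apply hgM
  have h6 : g = a * (b⁻¹ * g⁻¹ * a)⁻¹ * b⁻¹ := by group
  rw [h6]
  exact M.mul_mem (M.mul_mem haM (M.inv_mem hnM)) (M.inv_mem hbM)

end Cfsg.Agent.H98.BG11
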