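import Cfsg.Agent.H23.StbDefs

/-!
# S2125-DIAG (helper98, for helper23): for a unimodular Cartan matrix, `H` realises every family of scalars
on the fundamental root subgroups.
-/

set_option autoImplicit false

namespace Cfsg.Agent.H98.Stb

open Cfsg.Lie Cfsg.Agent.H23 Cfsg.Agent.H23.Stb

universe u

variable {D : ChevalleyDatum} {F : Type u} [Field F] {z : ℕ → ℕ → ℤ}

/-- Conjugation of a root element by a product of `h_r(t)`'s. -/
theorem hList_conj (hS : Sem D F z) (L : List (ℕ × F)) (hL : ∀ p ∈ L, p.1 < D.nroots ∧ p.2 ≠ 0)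
    (s : ℕ) (hs : s < D.nroots) (u : F) :
    (L.map fun p => hU hS p.1 p.2).prod * xU hS s u * ((L.map fun p => hU hS p.1 p.2).prod)⁻¹ =
      xU hS s ((L.map fun p => p.2 ^ z p.1 s).prod * u) := by
  induction L generalizing u with
  | nil => simp
  | cons p L ih =>
    have hp := hL p (List.mem_cons_self ..)
    have ih' := ih (fun q hq => hL q (List.mem_cons_of_mem _ hq))
    simp only [List.map_cons, List.prod_cons, mul_inv_rev]
    calc hU hS p.1 p.2 * (L.map fun p => hU hS p.1 p.2).prod * xU hS s u *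
          (((L.map fun p => hU hS p.1 p.2).prod)⁻¹ * (hU hS p.1 p.2)⁻¹)
        = hU hS p.1 p.2 * ((L.map fun p => hU hS p.1 p.2).prod * xU hS s u *
          ((L.map fun p => hU hS p.1 p.2).prod)⁻¹) * (hU hS p.1 p.2)⁻¹ := by group
      _ = xU hS s (p.2 ^ z p.1 s * ((L.map fun p => p.2 ^ z p.1 s).prod * u)) := by
          rw [ih' u, hU_conj hS p.1 hp.1 p.2 hp.2 s hs]
      _ = _ := by rw [mul_assoc]

/-- **S2125-DIAG**. -/
theorem diag : StDiag.{u} := by
  intro D F _ z η hP Ai hA1 _ hneg c hc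
  have hS := hP.sem
  have hT := hP.tab
  let cu : Fin D.rank → Fˣ := fun k => Units.mk0 (c k) (hc k k.2)
  let A : Fin D.rank → Fin D.rank → ℤ := fun i j => z (D.simple j) (D.simple i)
  let tu : Fin D.rank → Fˣ := powHom Ai cu
  have htu : powHom A tu = cu := by
    show powHom A (powHom Ai cu) = cu
    rw [powHom_comp, powHom_congr _ _ hA1, powHom_idZ]
  let L : List (ℕ × F) := (List.finRange D.rank).map fun j : Fin D.rank => (D.simple j, ((tu j : Fˣ) : F))
  have hL : ∀ p ∈ L, p.1 < D.nroots ∧ p.2 ≠ 0 := by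
    intro p hp
    obtain ⟨j, -, rfl⟩ := List.mem_map.mp hp
    exact ⟨hT.simple_lt j j.2, (tu j).ne_zero⟩
  have key : ∀ s : ℕ, (L.map fun p => p.2 ^ z p.1 s).prod =
      ((∏ j, tu j ^ z (D.simple j) s : Fˣ) : F) := by
    intro s
    rw [Units.coe_prod, Fin.prod_univ_def]
    simp only [L, List.map_map]
    apply congrArg List.prod
    apply List.map_congr_left
    intro j _
    simp only [Function.comp_apply, Units.val_zpow_eq_zpow_val]
  refine ⟨(L.map fun p => hU hS p.1 p.2).prod, ?_, ?_⟩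
  · apply Subgroup.list_prod_mem
    intro g hg
    obtain ⟨p, hp, rfl⟩ := List.mem_map.mp hg
    exact hU_mem_diag hS p.1 (hL p hp).1 p.2 (hL p hp).2
  · intro i hi t
    have h1 : (∏ j, tu j ^ z (D.simple j) (D.simple i) : Fˣ) = cu ⟨i, hi⟩ := congrFun htu ⟨i, hi⟩
    constructor
    · rw [hList_conj hS L hL _ (hT.simple_lt i hi), key, h1]
      rfl
    · rw [hList_conj hS L hL _ (hT.neg_lt _ (hT.simple_lt i hi)), key]
      have h2 : (∏ j, tu j ^ z (D.simple j) (D.neg (D.simple i)) : Fˣ) = (cu ⟨i, hi⟩)⁻¹ := by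
        rw [← h1, ← Finset.prod_inv_distrib]
        apply Finset.prod_congr rfl
        intro j _
        rw [hneg i hi j j.2, zpow_neg]
      rw [h2]
      rfl

end Cfsg.Agent.H98.Stb
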