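import Cfsg.Agent.H42.UnDefs
import Cfsg.Agent.H50.GraphAutUBase

set_option autoImplicit false

/-!
Piece UN-INVEX of the team project S5954 (helper42): elements of `SU_n(q)`, `n` even, `q` odd,
with `x ^ 2 = ν ^ 2` a scalar, `ν` of norm `-1`.
-/

namespace Cfsg.Agent.H98.Un

open Matrix Cfsg.Agent.H42.Un
open scoped Kronecker

universe u

theorem exists_lam {F : Type u} [Field F] [Fintype F] (q : ℕ) (hF : Fintype.card F = q ^ 2)
    (hodd : Odd q) (n : ℕ) (hn0 : 0 < n)
    (hcond : q % 4 = 1 ∨ padicValNat 2 (q + 1) < padicValNat 2 n) :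
    ∃ lam ν : F, lam ^ (q + 1) = 1 ∧ (-lam) ^ (n / 2) = 1 ∧ ν * ν = lam ∧ ν ^ (q + 1) = -1 := by
  classical
  obtain ⟨a, m, hm, hqa⟩ := Nat.exists_eq_two_pow_mul_odd (n := q + 1) (by omega)
  have hm0 : m ≠ 0 := by
    rintro rfl
    simp at hm
  have ha1 : 1 ≤ a := by
    by_contra h
    have h0 : a = 0 := by omega
    subst h0
    rw [pow_zero, one_mul] at hqa
    rcases hodd with ⟨c, hc⟩
    rcases hm with ⟨d, hd⟩
    omega
  have h2a : 2 ^ a = 2 * 2 ^ (a - 1) := by
    rw [← pow_succ']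
    congr 1
    omega
  have hval : padicValNat 2 (q + 1) = a := by
    have hmd : ¬ 2 ∣ m := by
      rcases hm with ⟨d, hd⟩
      omega
    rw [hqa, padicValNat.mul (by positivity) hm0, padicValNat.prime_pow,
      padicValNat.eq_zero_of_not_dvd hmd, add_zero]
  have hchar : ringChar F ≠ 2 := by
    intro h
    have h1 := FiniteField.even_card_iff_char_two.mp h
    rw [hF] at h1
    have h2 : Odd (q ^ 2) := hodd.pow
    rcases h2 with ⟨c, hc⟩
    omega
  obtain ⟨g₀, hg₀⟩ := FiniteField.exists_nonsquare hchar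
  have hg0 : g₀ ≠ 0 := by
    rintro rfl
    exact hg₀ ⟨0, (mul_zero 0).symm⟩
  have hgN : g₀ ^ (Fintype.card F / 2) = -1 := by
    rcases FiniteField.pow_dichotomy hchar hg0 with h | h
    · exact absurd ((FiniteField.isSquare_iff hchar hg0).mpr h) hg₀
    · exact h
  have hN : Fintype.card F / 2 = 2 ^ (a - 1) * (m * (q - 1)) := by
    rw [hF]
    have h1 : q ^ 2 = 2 * (2 ^ (a - 1) * (m * (q - 1))) + 1 := by
      have h3 : q ^ 2 = (q + 1) * (q - 1) + 1 := by
        obtain ⟨c, hc⟩ : ∃ c, q = c + 1 := ⟨q - 1, by have := hodd.pos; omega⟩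
        subst hc
        simp only [Nat.add_sub_cancel]
        ring
      rw [h3, hqa, h2a]
      ring
    rw [h1]
    omega
  obtain ⟨lam, hlam⟩ : ∃ lam : F, lam = g₀ ^ (m * (q - 1)) := ⟨_, rfl⟩
  have hl1 : lam ^ (2 ^ (a - 1)) = -1 := by
    rw [hlam, ← pow_mul, mul_comm, ← hN]
    exact hgN
  have hhalf : (q + 1) / 2 = 2 ^ (a - 1) * m := by
    rw [hqa, h2a, mul_assoc, Nat.mul_div_cancel_left _ (by norm_num : 0 < 2)]
  have hq1 : q + 1 = (q + 1) / 2 * 2 := by
    rcases hodd with ⟨c, hc⟩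
    omega
  have hl2 : lam ^ ((q + 1) / 2) = -1 := by
    rw [hhalf, pow_mul, hl1, hm.neg_one_pow]
  have hl3 : lam ^ (q + 1) = 1 := by
    rw [hq1, pow_mul, hl2]
    norm_num
  have hl4 : (-lam) ^ (n / 2) = 1 := by
    rcases hcond with h4 | hlt
    · have ha : a = 1 := by
        by_contra hne
        have h2 : 2 ≤ a := by omega
        have h4' : 2 ^ 2 ∣ q + 1 := by
          rw [hqa]
          exact Dvd.dvd.mul_right (pow_dvd_pow 2 h2) m
        norm_num at h4'
        omega
      rw [ha] at hl1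
      have h5 : lam = -1 := by simpa using hl1
      rw [h5, neg_neg, one_pow]
    · rw [hval] at hlt
      have hdvd : 2 ^ (a + 1) ∣ n :=
        (pow_dvd_pow 2 (by omega : a + 1 ≤ padicValNat 2 n)).trans pow_padicValNat_dvd
      obtain ⟨n', hn'⟩ := hdvd
      have hn2 : n / 2 = 2 ^ a * n' := by
        rw [hn', pow_succ, mul_comm (2 ^ a) 2, mul_assoc,
          Nat.mul_div_cancel_left _ (by norm_num : 0 < 2)]
      have hl5 : lam ^ (2 ^ a) = 1 := by
        rw [h2a, mul_comm, pow_mul, hl1]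
        norm_num
      have he : Even (2 ^ a * n') := by
        rw [h2a, mul_assoc]
        exact even_two_mul _
      rw [hn2, neg_pow, he.neg_one_pow, one_mul, pow_mul, hl5, one_pow]
  have hl0 : lam ≠ 0 := by
    intro h
    rw [h, zero_pow (by omega)] at hl3
    exact zero_ne_one hl3
  have hsq : IsSquare lam := by
    rw [FiniteField.isSquare_iff hchar hl0, hN, pow_mul, hl1]
    have he : Even (m * (q - 1)) := by
      apply Even.mul_left
      rcases hodd with ⟨c, hc⟩
      exact ⟨c, by omega⟩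
    exact he.neg_one_pow
  obtain ⟨ν, hν⟩ := hsq
  refine ⟨lam, ν, hl3, hl4, hν.symm, ?_⟩
  rw [hq1, mul_comm, pow_mul, sq, ← hν, hl2]

/-- The `2 × 2` block. -/
def blk {F : Type u} [Field F] (lam : F) : Matrix (Fin 2) (Fin 2) F := !![0, lam; 1, 0]

theorem blk_mul {F : Type u} [Field F] (lam : F) :
    blk lam * blk lam = lam • (1 : Matrix (Fin 2) (Fin 2) F) := by
  ext i j
  fin_cases i <;> fin_cases j <;> simp [blk, Matrix.mul_apply, Fin.sum_univ_two]

theorem blk_det {F : Type u} [Field F] (lam : F) : (blk lam).det = -lam := by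
  simp [blk, Matrix.det_fin_two_of]

theorem blk_unit {F : Type u} [Field F] (lam : F) (f : F →+* F) (h : lam * f lam = 1) :
    (blk lam)ᵀ * (blk lam).map f = 1 := by
  ext i j
  fin_cases i <;> fin_cases j <;> simp [blk, Matrix.mul_apply, Fin.sum_univ_two, h]

/-- The big matrix. -/
def big {F : Type u} [Field F] (lam : F) (h : ℕ) : Matrix (Fin 2 × Fin h) (Fin 2 × Fin h) F :=
  blk lam ⊗ₖ (1 : Matrix (Fin h) (Fin h) F)

theorem big_mul {F : Type u} [Field F] (lam : F) (h : ℕ) :
    big lam h * big lam h = lam • (1 : Matrix (Fin 2 × Fin h) (Fin 2 × Fin h) F) := by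
  unfold big
  rw [← Matrix.mul_kronecker_mul, blk_mul, Matrix.mul_one, Matrix.smul_kronecker,
    Matrix.one_kronecker_one]

theorem big_det {F : Type u} [Field F] (lam : F) (h : ℕ) : (big lam h).det = (-lam) ^ h := by
  unfold big
  rw [Matrix.det_kronecker, blk_det, Matrix.det_one]
  simp

theorem big_unit {F : Type u} [Field F] (lam : F) (h : ℕ) (f : F →+* F) (hl : lam * f lam = 1) :
    (big lam h)ᵀ * (big lam h).map f = 1 := by
  have h1 : (big lam h).map f = (blk lam).map f ⊗ₖ (1 : Matrix (Fin h) (Fin h) F) := by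
    ext ⟨i, j⟩ ⟨k, l⟩
    simp only [big, Matrix.map_apply, Matrix.kroneckerMap_apply, Matrix.one_apply]
    split_ifs <;> simp
  have h2 : (big lam h)ᵀ = (blk lam)ᵀ ⊗ₖ (1 : Matrix (Fin h) (Fin h) F) := by
    ext ⟨i, j⟩ ⟨k, l⟩
    simp only [big, Matrix.transpose_apply, Matrix.kroneckerMap_apply, Matrix.one_apply]
    by_cases hjl : j = l
    · subst hjl
      simp
    · simp [hjl, Ne.symm hjl]
  rw [h1, h2, ← Matrix.mul_kronecker_mul, blk_unit lam f hl, Matrix.mul_one,
    Matrix.one_kronecker_one]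

theorem uInvEx : StUInvEx.{u} := by
  intro F _ _ q hF hodd n hev hn0 hcond
  classical
  obtain ⟨lam, ν, hl3, hl4, hν, hν1⟩ := exists_lam q hF hodd n hn0 hcond
  obtain ⟨h, hh⟩ := hev
  have hn2 : n / 2 = h := by omega
  rw [hn2] at hl4
  have hcard : Fintype.card (Fin 2 × Fin h) = Fintype.card (Fin n) := by
    simp only [Fintype.card_prod, Fintype.card_fin]
    omega
  let e : Fin 2 × Fin h ≃ Fin n := Fintype.equivOfCardEq hcard
  let M : Matrix (Fin n) (Fin n) F := (big lam h).submatrix e.symm e.symm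
  have hdet : M.det = 1 := by
    show ((big lam h).submatrix e.symm e.symm).det = 1
    rw [Matrix.det_submatrix_equiv_self, big_det, hl4]
  have hMM : M * M = lam • (1 : Matrix (Fin n) (Fin n) F) := by
    show (big lam h).submatrix e.symm e.symm * (big lam h).submatrix e.symm e.symm = _
    rw [Matrix.submatrix_mul_equiv, big_mul]
    ext i j
    simp only [Matrix.submatrix_apply, Matrix.smul_apply, Matrix.one_apply,
      EmbeddingLike.apply_eq_iff_eq]
  have hfl : lam * (Cfsg.Agent.H50.GraphAutU.frobE hF : F →+* F) lam = 1 := by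
    show lam * Cfsg.Agent.H50.GraphAutU.frobE hF lam = 1
    rw [Cfsg.Agent.H50.GraphAutU.frobE_apply, ← pow_succ', hl3]
  have hU : Mᵀ * M.map (Cfsg.Agent.H50.GraphAutU.frobE hF) = 1 := by
    show ((big lam h).submatrix e.symm e.symm)ᵀ *
      ((big lam h).submatrix e.symm e.symm).map (Cfsg.Agent.H50.GraphAutU.frobE hF) = 1
    rw [Matrix.transpose_submatrix, ← Matrix.submatrix_map, Matrix.submatrix_mul_equiv]
    have h3 := big_unit lam h (Cfsg.Agent.H50.GraphAutU.frobE hF : F →+* F) hfl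
    have h4 : (big lam h).map (Cfsg.Agent.H50.GraphAutU.frobE hF) =
        (big lam h).map ((Cfsg.Agent.H50.GraphAutU.frobE hF : F →+* F)) := rfl
    rw [h4, h3, Matrix.submatrix_one_equiv]
  refine ⟨⟨M, hdet⟩, ν, ?_, hν1, ?_⟩
  · exact (Cfsg.Agent.H50.GraphAutU.mem_SU_iff hF _).2 hU
  · rw [hν]
    exact hMM

example : StUInvEx.{u} := uInvEx

end Cfsg.Agent.H98.Un
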