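import Cfsg.Agent.H95.OhDefs
import Cfsg.Agent.H7.OmegaCenter

/-!
# S5992-BRIDGE (helper98, for helper95): the polar form of `quadFormOdd d F` as a bilinear form, and the
translation of the notions of the frozen statements.
-/

set_option autoImplicit false

namespace Cfsg.Agent.H98.Oh

open Cfsg.Agent.H45 Cfsg.Agent.H42.Spd Cfsg.Agent.H42.Ti Cfsg.Agent.H14.Ot Cfsg.Agent.H95.Oh Module

universe u

/-- **S5992-BRIDGE**. -/
theorem bridge : StBridge.{u} := by
  intro F _ _ d h2
  have hQ : ∀ x, Cfsg.Agent.H7.qOdd d F x = Cfsg.quadFormOdd d F x :=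
    fun x => congrFun (Cfsg.Agent.H7.qOdd_coe d) x
  have hB : ∀ x y, QuadraticMap.polarBilin (Cfsg.Agent.H7.qOdd d F) x y =
      QuadraticMap.polar (Cfsg.quadFormOdd d F) x y := by
    intro x y
    rw [QuadraticMap.polarBilin_apply_apply, Cfsg.Agent.H7.qOdd_coe]
  have hsymm : ∀ x y, QuadraticMap.polarBilin (Cfsg.Agent.H7.qOdd d F) x y =
      QuadraticMap.polarBilin (Cfsg.Agent.H7.qOdd d F) y x := by
    intro x y
    rw [QuadraticMap.polarBilin_apply_apply, QuadraticMap.polarBilin_apply_apply,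
      QuadraticMap.polar_comm]
  have hself : ∀ x, QuadraticMap.polarBilin (Cfsg.Agent.H7.qOdd d F) x x =
      2 * Cfsg.quadFormOdd d F x := by
    intro x
    rw [QuadraticMap.polarBilin_apply_apply, QuadraticMap.polar_self, hQ, two_smul, two_mul]
  refine ⟨QuadraticMap.polarBilin (Cfsg.Agent.H7.qOdd d F), hB, hsymm, ?_, hself, ?_, ?_, ?_⟩
  · intro x hx
    exact (Cfsg.Agent.H7.qOdd_nondeg d h2).1 x hx
  · intro W
    constructor
    · intro hW
      rw [eq_bot_iff]
      rintro w ⟨hw1, hw2⟩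
      rw [Submodule.mem_bot]
      by_contra hne
      obtain ⟨⟨x, hx, hxw⟩, -⟩ := hW w hw1 hne
      apply hxw
      rw [← hB]
      exact hw2 x hx
    · intro hW w hw hne
      have h1 : w ∉ perp (QuadraticMap.polarBilin (Cfsg.Agent.H7.qOdd d F)) W := by
        intro h
        apply hne
        have h3 : w ∈ W ⊓ perp (QuadraticMap.polarBilin (Cfsg.Agent.H7.qOdd d F)) W := ⟨hw, h⟩
        rw [hW] at h3
        exact (Submodule.mem_bot F).mp h3
      have h2' : ∃ u ∈ W, QuadraticMap.polarBilin (Cfsg.Agent.H7.qOdd d F) u w ≠ 0 := by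
        by_contra hcon
        apply h1
        intro u hu
        by_contra hne'
        exact hcon ⟨u, hu, hne'⟩
      obtain ⟨u, hu, huw⟩ := h2'
      refine ⟨⟨u, hu, ?_⟩, ⟨u, hu, ?_⟩⟩
      · rwa [← hB]
      · rwa [← hB, hsymm]
  · intro W
    constructor
    · rintro ⟨U, hUW, hU, hdim⟩
      refine ⟨U, hUW, ?_, hdim⟩
      intro u hu v hv
      rw [hB, QuadraticMap.polar, hU u hu, hU v hv, hU (u + v) (U.add_mem hu hv)]
      simp
    · rintro ⟨U, hUW, hU, hdim⟩
      refine ⟨U, hUW, ?_, hdim⟩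
      intro w hw
      have h3 := hU w hw w hw
      rw [hself] at h3
      exact (mul_eq_zero.mp h3).resolve_left h2
  · intro g
    constructor
    · intro hg x y
      have hg' : ∀ u, Cfsg.quadFormOdd d F
          ((g : Matrix (Unit ⊕ (Fin d ⊕ Fin d)) (Unit ⊕ (Fin d ⊕ Fin d)) F).mulVec u) =
          Cfsg.quadFormOdd d F u := fun u => hg u u
      rw [hB, hB, Matrix.toLin'_apply, Matrix.toLin'_apply, QuadraticMap.polar, QuadraticMap.polar,
        ← Matrix.mulVec_add, hg', hg', hg']
    · intro hg u v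
      have h3 := hg u u
      rw [hself, hself, Matrix.toLin'_apply] at h3
      exact mul_left_cancel₀ h2 h3

end Cfsg.Agent.H98.Oh
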