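import Cfsg.Agent.H95.OhDefs
import Cfsg.Agent.H27.TqDiag

/-!
# S5992-ISO (helper98, for helper95): two nondegenerate subspaces of the same even dimension and the same
type are isometric.
-/

set_option autoImplicit false

namespace Cfsg.Agent.H98.Oh

open Cfsg.Agent.H45 Cfsg.Agent.H42.Spd Cfsg.Agent.H42.Ti Cfsg.Agent.H14.Ot Cfsg.Agent.H95.Oh Module

universe u v

/-- Coordinates on a subspace from an orthogonal family of nonsingular vectors of the right size. -/
theorem coord_of_family {F : Type u} [Field F] {V : Type v} [AddCommGroup V] [Module F V]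
    [FiniteDimensional F V] (B : V →ₗ[F] V →ₗ[F] F) (W : Submodule F V)
    (v : Fin (Module.finrank F W) → V) (hv : ∀ a, v a ∈ W)
    (horth : ∀ a b, a ≠ b → B (v a) (v b) = 0) (hne : ∀ a, B (v a) (v a) ≠ 0) :
    ∃ φ : (Fin (Module.finrank F W) → F) ≃ₗ[F] ↥W,
      ∀ w w', B (φ w : V) (φ w' : V) = ∑ l, B (v l) (v l) * w l * w' l := by
  classical
  have hc : ∀ (f : Fin (Module.finrank F W) → ↥W) (w : Fin (Module.finrank F W) → F),
      ((∑ i, w i • f i : ↥W) : V) = ∑ i, w i • (f i : V) := by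
    intro f w
    rw [Submodule.coe_sum]
    rfl
  have hli : LinearIndependent F (fun a => (⟨v a, hv a⟩ : ↥W)) := by
    rw [Fintype.linearIndependent_iff]
    intro g hg j
    have h1 : B (∑ i, g i • v i) (v j) = 0 := by
      rw [← hc (fun a => (⟨v a, hv a⟩ : ↥W)) g, hg]
      simp
    rw [map_sum, LinearMap.sum_apply, Finset.sum_eq_single j] at h1
    · simp only [map_smul, LinearMap.smul_apply, smul_eq_mul] at h1
      exact (mul_eq_zero.mp h1).resolve_right (hne j)
    · intro i _ hij
      simp only [map_smul, LinearMap.smul_apply, smul_eq_mul]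
      rw [horth i j hij, mul_zero]
    · intro h; exact absurd (Finset.mem_univ j) h
  obtain ⟨bas, hbas⟩ : ∃ bas : Module.Basis (Fin (Module.finrank F W)) F ↥W,
      ∀ i, (bas i : V) = v i := by
    have hsp := hli.span_eq_top_of_card_eq_finrank' (by simp)
    refine ⟨Module.Basis.mk hli (by rw [hsp]), ?_⟩
    intro i
    rw [Module.Basis.mk_apply]
  refine ⟨bas.equivFun.symm, ?_⟩
  intro w w'
  rw [Module.Basis.equivFun_symm_apply, Module.Basis.equivFun_symm_apply, hc, hc]
  simp only [hbas]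
  rw [map_sum]
  refine Finset.sum_congr rfl ?_
  intro l _
  rw [map_sum, LinearMap.sum_apply, Finset.sum_eq_single l]
  · simp only [map_smul, LinearMap.smul_apply, smul_eq_mul]
    ring
  · intro i _ hil
    simp only [map_smul, LinearMap.smul_apply, smul_eq_mul]
    rw [horth i l hil]; ring
  · intro h; exact absurd (Finset.mem_univ l) h

/-- The diagonal bilinear form. -/
def dform {F : Type u} [Field F] {n : ℕ} (a : Fin n → F) : (Fin n → F) →ₗ[F] (Fin n → F) →ₗ[F] F :=
  LinearMap.mk₂ F (fun w w' => ∑ l, a l * w l * w' l)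
    (fun w₁ w₂ w' => by simp only [Pi.add_apply, mul_add, add_mul, Finset.sum_add_distrib])
    (fun c w w' => by
      simp only [Pi.smul_apply, smul_eq_mul, Finset.mul_sum]
      exact Finset.sum_congr rfl (fun l _ => by ring))
    (fun w w₁ w₂ => by simp only [Pi.add_apply, mul_add, Finset.sum_add_distrib])
    (fun c w w' => by
      simp only [Pi.smul_apply, smul_eq_mul, Finset.mul_sum]
      exact Finset.sum_congr rfl (fun l _ => by ring))

theorem dform_apply {F : Type u} [Field F] {n : ℕ} (a : Fin n → F) (w w' : Fin n → F) :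
    dform a w w' = ∑ l, a l * w l * w' l := rfl

/-- A diagonal form with nonzero coefficients is isometric to one with coefficients `1, …, 1, α`. -/
theorem normalize {F : Type u} [Field F] [Fintype F] (h2 : (2 : F) ≠ 0) {n : ℕ} (a : Fin n → F)
    (ha : ∀ l, a l ≠ 0) :
    ∃ (e : (Fin n → F) ≃ₗ[F] (Fin n → F)) (α : Fin n → F), (∀ l, α l ≠ 0) ∧
      (∀ l : Fin n, (l : ℕ) + 1 < n → α l = 1) ∧
      ∀ w w', ∑ l, a l * (e w) l * (e w') l = ∑ l, α l * w l * w' l := by
  classical
  have hsym : ∀ u v, dform a u v = dform a v u := by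
    intro u v
    rw [dform_apply, dform_apply]
    exact Finset.sum_congr rfl (fun l _ => by ring)
  have hnd : ∀ u, (∀ v, dform a u v = 0) → u = 0 := by
    intro u hu
    funext l
    have h1 := hu (Pi.single l 1)
    rw [dform_apply, Finset.sum_eq_single l] at h1
    · simpa [ha l] using h1
    · intro i _ hil
      simp [Pi.single_apply, hil]
    · intro h; exact absurd (Finset.mem_univ l) h
  obtain ⟨n', e, α, hα, hα1, he⟩ :=
    Cfsg.Agent.H27.Tq.diag F (Fin n → F) (dform a) h2 hsym hnd 1 one_ne_zero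
  have hn : n' = n := by
    have h1 := e.finrank_eq
    simpa using h1
  subst hn
  exact ⟨e, α, hα, hα1, fun w w' => by rw [← dform_apply, he]⟩

/-- Normal form of a nondegenerate subspace. -/
theorem normal_form (hO : StOrtho.{u, v}) {F : Type u} [Field F] [Fintype F] {V : Type v}
    [AddCommGroup V] [Module F V] [FiniteDimensional F V] (B : V →ₗ[F] V →ₗ[F] F) (h2 : (2 : F) ≠ 0)
    (hsym : ∀ x y, B x y = B y x) (W : Submodule F V) (hW : W ⊓ perp B W = ⊥) (n : ℕ)
    (hn : Module.finrank F W = n) :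
    ∃ (φ : (Fin n → F) ≃ₗ[F] ↥W) (α : Fin n → F), (∀ l, α l ≠ 0) ∧
      (∀ l : Fin n, (l : ℕ) + 1 < n → α l = 1) ∧
      ∀ w w', B (φ w : V) (φ w' : V) = ∑ l, α l * w l * w' l := by
  subst hn
  obtain ⟨v, hv, horth, hne, -⟩ := hO F V B h2 hsym W hW
  obtain ⟨φ, hφ⟩ := coord_of_family B W v hv horth hne
  obtain ⟨e, α, hα, hα1, he⟩ := normalize h2 (fun l => B (v l) (v l)) hne
  refine ⟨e.trans φ, α, hα, hα1, ?_⟩
  intro w w'
  rw [LinearEquiv.trans_apply, LinearEquiv.trans_apply, hφ, he]

/-- The type of a subspace in normal form. -/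
theorem type_of_normal (hD : StDisc.{u, v}) {F : Type u} [Field F] [Fintype F] {V : Type v}
    [AddCommGroup V] [Module F V] [FiniteDimensional F V] (B : V →ₗ[F] V →ₗ[F] F) (h2 : (2 : F) ≠ 0)
    (hsym : ∀ x y, B x y = B y x) (W : Submodule F V) (t : ℕ)
    (φ : (Fin (2 * t) → F) ≃ₗ[F] ↥W) (α : Fin (2 * t) → F) (hα : ∀ l, α l ≠ 0)
    (hφ : ∀ w w', B (φ w : V) (φ w' : V) = ∑ l, α l * w l * w' l) :
    Plus B W ↔ IsSquare ((-1 : F) ^ t * ∏ l, α l) := by
  classical
  have hB : ∀ i j, B (φ (Pi.single i 1) : V) (φ (Pi.single j 1) : V) = if i = j then α i else 0 := by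
    intro i j
    rw [hφ, Finset.sum_eq_single i]
    · by_cases hij : i = j
      · subst hij; simp
      · simp [Pi.single_apply, hij]
    · intro l _ hli
      simp [Pi.single_apply, hli]
    · intro h; exact absurd (Finset.mem_univ i) h
  have hspan : Submodule.span F (Set.range fun l : Fin (2 * t) => (φ (Pi.single l 1) : V)) = W := by
    apply le_antisymm
    · rw [Submodule.span_le]
      rintro x ⟨l, rfl⟩
      exact (φ (Pi.single l 1)).2
    · intro x hx
      have h1 := LinearMap.pi_apply_eq_sum_univ (W.subtype ∘ₗ φ.toLinearMap) (φ.symm ⟨x, hx⟩)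
      simp only [LinearMap.coe_comp, Function.comp_apply, LinearEquiv.coe_coe,
        LinearEquiv.apply_symm_apply, Submodule.subtype_apply] at h1
      rw [h1]
      apply Submodule.sum_mem
      intro l _
      apply Submodule.smul_mem
      apply Submodule.subset_span
      refine ⟨l, ?_⟩
      show (φ (Pi.single l 1) : V) = (φ fun j => if l = j then 1 else 0 : V)
      congr 2
      funext j
      simp [Pi.single_apply, eq_comm]
  have h3 := hD F V B h2 hsym t (fun l : Fin (2 * t) => (φ (Pi.single l 1) : V))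
    (fun a b hab => by rw [hB, if_neg hab]) (fun a => by rw [hB, if_pos rfl]; exact hα a)
  rw [hspan] at h3
  rw [h3]
  have h4 : ∏ a, B (φ (Pi.single a 1) : V) (φ (Pi.single a 1) : V) = ∏ l, α l :=
    Finset.prod_congr rfl (fun a _ => by rw [hB, if_pos rfl])
  rw [h4]

/-- Nonzero elements of a finite field of odd characteristic in the same square class differ by a
square. -/
theorem sq_class {F : Type u} [Field F] [Fintype F] (h2 : (2 : F) ≠ 0) (x y : F) (hx : x ≠ 0)
    (hy : y ≠ 0) (h : IsSquare x ↔ IsSquare y) : ∃ s : F, s ≠ 0 ∧ y = s ^ 2 * x := by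
  classical
  have key : IsSquare (y / x) := by
    by_cases hsx : IsSquare x
    · obtain ⟨r, hr⟩ := hsx
      obtain ⟨r', hr'⟩ := h.mp ⟨r, hr⟩
      refine ⟨r' / r, ?_⟩
      rw [hr, hr']
      field_simp
    · have hsy : ¬ IsSquare y := fun hy' => hsx (h.mpr hy')
      have h1 : IsSquare (y * x) := by
        rw [← quadraticChar_one_iff_isSquare (mul_ne_zero hy hx), map_mul,
          quadraticChar_neg_one_iff_not_isSquare.mpr hsy,
          quadraticChar_neg_one_iff_not_isSquare.mpr hsx]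
        norm_num
      obtain ⟨r, hr⟩ := h1
      refine ⟨r / x, ?_⟩
      rw [div_mul_div_comm, ← hr, mul_div_mul_right _ _ hx]
  obtain ⟨s, hs⟩ := key
  have hs0 : s ≠ 0 := by
    rintro rfl
    rw [mul_zero] at hs
    exact (div_ne_zero hy hx) hs
  refine ⟨s, hs0, ?_⟩
  rw [pow_two, ← hs, div_mul_cancel₀ y hx]

/-- **S5992-ISO**. -/
theorem iso (hO : StOrtho.{u, v}) (hD : StDisc.{u, v}) : StIso.{u, v} := by
  intro F _ _ V _ _ _ B h2 hsym W W' hW hW' hdim heven htype
  classical
  obtain ⟨t, ht⟩ := heven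
  have hn : Module.finrank F W = 2 * t := by omega
  have hn' : Module.finrank F W' = 2 * t := by omega
  obtain ⟨φ, α, hα, hα1, hφ⟩ := normal_form hO B h2 hsym W hW (2 * t) hn
  obtain ⟨φ', α', hα', hα1', hφ'⟩ := normal_form hO B h2 hsym W' hW' (2 * t) hn'
  have hT := type_of_normal hD B h2 hsym W t φ α hα hφ
  have hT' := type_of_normal hD B h2 hsym W' t φ' α' hα' hφ'
  have hsq : IsSquare ((-1 : F) ^ t * ∏ l, α l) ↔ IsSquare ((-1 : F) ^ t * ∏ l, α' l) := by
    rw [← hT, ← hT']; exact htype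
  have hc : ((-1 : F) ^ t) ≠ 0 := pow_ne_zero _ (neg_ne_zero.mpr one_ne_zero)
  have hP : ∏ l, α l ≠ 0 := Finset.prod_ne_zero_iff.mpr (fun l _ => hα l)
  have hP' : ∏ l, α' l ≠ 0 := Finset.prod_ne_zero_iff.mpr (fun l _ => hα' l)
  obtain ⟨s, hs0, hs⟩ := sq_class h2 _ _ (mul_ne_zero hc hP) (mul_ne_zero hc hP') hsq
  have hs' : ∏ l, α' l = s ^ 2 * ∏ l, α l := by
    apply mul_left_cancel₀ hc
    rw [hs]; ring
  -- the scaling
  obtain ⟨σ, hσ0, hσ⟩ : ∃ σ : Fin (2 * t) → F, (∀ l, σ l ≠ 0) ∧ ∀ l, α' l = σ l ^ 2 * α l := by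
    refine ⟨fun l => if (l : ℕ) + 1 < 2 * t then 1 else s, ?_, ?_⟩
    · intro l
      by_cases hl : (l : ℕ) + 1 < 2 * t
      · simp [hl]
      · simp [hl, hs0]
    · intro l
      by_cases hl : (l : ℕ) + 1 < 2 * t
      · simp [hl, hα1 l hl, hα1' l hl]
      · simp only [hl, if_false]
        have hprod : ∀ β : Fin (2 * t) → F, (∀ k : Fin (2 * t), (k : ℕ) + 1 < 2 * t → β k = 1) →
            ∏ k, β k = β l := by
          intro β hβ
          apply Finset.prod_eq_single l
          · intro k _ hkl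
            apply hβ
            have h1 : (k : ℕ) ≠ (l : ℕ) := fun h => hkl (Fin.ext h)
            have h3 := k.isLt
            have h4 := l.isLt
            omega
          · intro h; exact absurd (Finset.mem_univ l) h
        rw [← hprod α hα1, ← hprod α' hα1', hs']
  -- the scaling equivalence
  let S : (Fin (2 * t) → F) ≃ₗ[F] (Fin (2 * t) → F) :=
    LinearEquiv.piCongrRight (fun l => LinearEquiv.smulOfNeZero F F (σ l)⁻¹ (inv_ne_zero (hσ0 l)))
  have hS : ∀ w l, S w l = (σ l)⁻¹ * w l := fun w l => rfl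
  refine ⟨φ.symm.trans (S.trans φ'), ?_⟩
  intro x y
  rw [LinearEquiv.trans_apply, LinearEquiv.trans_apply, LinearEquiv.trans_apply,
    LinearEquiv.trans_apply, hφ']
  have hx : B (x : V) (y : V) = ∑ l, α l * (φ.symm x) l * (φ.symm y) l := by
    rw [← hφ, LinearEquiv.apply_symm_apply, LinearEquiv.apply_symm_apply]
  rw [hx]
  apply Finset.sum_congr rfl
  intro l _
  rw [hS, hS, hσ l]
  have := hσ0 l
  field_simp

example (hO : StOrtho.{u, v}) (hD : StDisc.{u, v}) : StIso.{u, v} := iso hO hD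

end Cfsg.Agent.H98.Oh
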