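import Mathlib
import Cfsg.Agent.H86.Ev2Defs
import Cfsg.Agent.H49.Disc
import Cfsg.Agent.H49.MinusForm

/-!
# EV2-NOMINUS (helper98, for helper86)

An isometry of the standard minus space squaring to `-1` exists only if `n` is even and `-1` is
a nonsquare: the Gram determinant `(-1) ^ n * (4 b - a ^ 2)` must be a square (`StJGram`), while
`a ^ 2 - 4 b` is a nonsquare.
-/

set_option autoImplicit false

namespace Cfsg.Agent.H98.Ev2

open Cfsg.Agent.H86.Ev2 Cfsg.Agent.H49

universe u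

/-- The standard Gram matrix of the bundled minus form. -/
theorem gram_QMin (n : ℕ) (F : Type u) [Field F] (a b : F) :
    (Matrix.of fun i j : (Fin n ⊕ Fin n) ⊕ Fin 2 =>
      QuadraticMap.polar ⇑(QMin n F a b) (Pi.single i (1 : F)) (Pi.single j (1 : F)))
      = minusGram n F a b := by
  ext i j
  rw [Matrix.of_apply, QMin_coe, polar_quadFormMinus, Matrix.mulVec_single_one,
    single_dotProduct]
  simp

theorem noMinus (hG : StJGram.{u}) : StNoMinus.{u} := by
  intro F _ _ n a b h2 hab x hx hxx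
  have hN : ¬ IsSquare (a ^ 2 - 4 * b) := aniso_not_isSquare h2 hab
  have hd : a ^ 2 - 4 * b ≠ 0 := by
    intro h0
    exact hN ⟨0, by rw [h0]; ring⟩
  have hnd : ∀ v, (∀ y, QuadraticMap.polar ⇑(QMin n F a b) v y = 0) → v = 0 :=
    fun v hv => (QMin_nondeg n a b hd).1 v hv
  have h := hG F ((Fin n ⊕ Fin n) ⊕ Fin 2) (QMin n F a b) h2 hnd x hx hxx
  rw [gram_QMin, det_minusGram] at h
  have e : (-1 : F) ^ n * (4 * b - a ^ 2) = (-1) ^ (n + 1) * (a ^ 2 - 4 * b) := by ring
  rw [e, isSquare_mul_nonsquare_iff (pow_ne_zero _ (neg_ne_zero.mpr one_ne_zero)) hN] at h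
  rcases Nat.even_or_odd n with hn | hn
  · refine ⟨hn, ?_⟩
    have ho : Odd (n + 1) := hn.add_one
    rwa [ho.neg_one_pow] at h
  · exfalso
    have he : Even (n + 1) := hn.add_one
    rw [he.neg_one_pow] at h
    exact h ⟨1, by ring⟩

example (hG : Cfsg.Agent.H86.Ev2.StJGram.{u}) : Cfsg.Agent.H86.Ev2.StNoMinus.{u} := noMinus hG

end Cfsg.Agent.H98.Ev2

#print axioms Cfsg.Agent.H98.Ev2.noMinus
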