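import Mathlib
import Cfsg.Agent.H86.Ev2Defs
import Cfsg.Agent.H49.Disc
import Cfsg.Agent.H49.Plus

/-!
# EV2-NOPLUS (helper98, for helper86)

For `d` odd and `-1` a nonsquare, no isometry of the standard plus space squares to `-1`:
the Gram determinant of the hyperbolic form is `(-1) ^ d = -1`, which `StJGram` forces to be a
square.
-/

set_option autoImplicit false

namespace Cfsg.Agent.H98.Ev2

open Cfsg.Agent.H86.Ev2 Cfsg.Agent.H49

universe u

/-- The standard Gram matrix of the bundled plus form is the hyperbolic Gram matrix. -/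
theorem gram_QP (d : ℕ) (F : Type u) [Field F] :
    (Matrix.of fun i j : Fin d ⊕ Fin d =>
      QuadraticMap.polar ⇑(QP d F) (Pi.single i (1 : F)) (Pi.single j (1 : F))) = hypGram d F := by
  ext i j
  rw [Matrix.of_apply, QP_coe, polar_quadFormPlus, Matrix.mulVec_single_one, single_dotProduct]
  simp

theorem noPlus (hG : StJGram.{u}) : StNoPlus.{u} := by
  intro F _ _ d h2 hd hns x hx hxx
  have hnd : ∀ v, (∀ y, QuadraticMap.polar ⇑(QP d F) v y = 0) → v = 0 :=
    fun v hv => (QP_nondeg d F).1 v hv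
  have h := hG F (Fin d ⊕ Fin d) (QP d F) h2 hnd x hx hxx
  rw [gram_QP, det_hypGram, hd.neg_one_pow] at h
  exact hns h

example (hG : Cfsg.Agent.H86.Ev2.StJGram.{u}) : Cfsg.Agent.H86.Ev2.StNoPlus.{u} := noPlus hG

end Cfsg.Agent.H98.Ev2

#print axioms Cfsg.Agent.H98.Ev2.noPlus
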