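import Mathlib

/-!
# S5979, piece SQ: involutions are diagonalizable (char ≠ 2)

`exists_diagonalization_of_involution`, `det_involution`, `exists_tensor_form_of_sq`.
-/

set_option autoImplicit false
open scoped Kronecker

namespace Cfsg.Agent.H98.Ten

theorem exists_diagonalization_of_involution {F : Type*} [Field F] (h2 : (2 : F) ≠ 0) {n : ℕ}
    (y : Matrix (Fin n) (Fin n) F) (hy : y * y = 1) (ε : Fin n → F)
    (hε : ∀ k, ε k = 1 ∨ ε k = -1)
    (hcard : Nat.card {k : Fin n // ε k = -1}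
      = Module.finrank F (LinearMap.ker (Matrix.toLin' (y + 1)))) :
    ∃ Q : Matrix (Fin n) (Fin n) F, IsUnit Q.det ∧ y * Q = Q * Matrix.diagonal ε := by
  classical
  have hm : ∀ v : Fin n → F, v ∈ LinearMap.ker (Matrix.toLin' (y + 1)) ↔ y.mulVec v = -v := by
    intro v
    rw [LinearMap.mem_ker, Matrix.toLin'_apply, Matrix.add_mulVec, Matrix.one_mulVec,
      add_eq_zero_iff_eq_neg]
  have hp : ∀ v : Fin n → F, v ∈ LinearMap.ker (Matrix.toLin' (y - 1)) ↔ y.mulVec v = v := by
    intro v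
    rw [LinearMap.mem_ker, Matrix.toLin'_apply, Matrix.sub_mulVec, Matrix.one_mulVec,
      sub_eq_zero]
  have hyy : ∀ v : Fin n → F, y.mulVec (y.mulVec v) = v := by
    intro v
    rw [Matrix.mulVec_mulVec, hy, Matrix.one_mulVec]
  have hcompl : IsCompl (LinearMap.ker (Matrix.toLin' (y + 1)))
      (LinearMap.ker (Matrix.toLin' (y - 1))) := by
    constructor
    · rw [Submodule.disjoint_def]
      intro v h1 h3
      rw [hm] at h1
      rw [hp] at h3
      have h4 : (2 : F) • v = 0 := by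
        have : v = -v := h3.symm.trans h1
        rw [two_smul]
        nth_rewrite 1 [this]
        exact neg_add_cancel v
      exact (smul_eq_zero.1 h4).resolve_left h2
    · rw [codisjoint_iff, eq_top_iff]
      intro v _
      have hv : v = (2 : F)⁻¹ • (v - y.mulVec v) + (2 : F)⁻¹ • (v + y.mulVec v) := by
        rw [← smul_add, sub_add_add_cancel, ← two_smul F v, smul_smul, inv_mul_cancel₀ h2,
          one_smul]
      rw [hv]
      refine Submodule.add_mem_sup (Submodule.smul_mem _ _ ?_) (Submodule.smul_mem _ _ ?_)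
      · rw [hm, Matrix.mulVec_sub, hyy, neg_sub]
      · rw [hp, Matrix.mulVec_add, hyy, add_comm]
  have hsum := Submodule.finrank_add_eq_of_isCompl hcompl
  rw [Module.finrank_fin_fun] at hsum
  have hcard2 : Nat.card {k : Fin n // ¬ ε k = -1}
      = Module.finrank F (LinearMap.ker (Matrix.toLin' (y - 1))) := by
    have h1 : Nat.card ({k : Fin n // ε k = -1} ⊕ {k : Fin n // ¬ ε k = -1}) = n := by
      rw [Nat.card_congr (Equiv.sumCompl (fun k : Fin n => ε k = -1)), Nat.card_fin]
    rw [Nat.card_sum] at h1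
    omega
  let bm : Module.Basis {k : Fin n // ε k = -1} F (LinearMap.ker (Matrix.toLin' (y + 1))) :=
    (Module.finBasis F _).reindex (Finite.equivFinOfCardEq hcard).symm
  let bp : Module.Basis {k : Fin n // ¬ ε k = -1} F (LinearMap.ker (Matrix.toLin' (y - 1))) :=
    (Module.finBasis F _).reindex (Finite.equivFinOfCardEq hcard2).symm
  let B : Module.Basis (Fin n) F (Fin n → F) :=
    ((bm.prod bp).map (Submodule.prodEquivOfIsCompl _ _ hcompl)).reindex
      (Equiv.sumCompl (fun k : Fin n => ε k = -1))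
  have hB : ∀ k, y.mulVec (B k) = ε k • B k := by
    intro k
    by_cases hk : ε k = -1
    · have h1 : B k = (bm ⟨k, hk⟩ : Fin n → F) := by
        simp [B, Equiv.sumCompl_symm_apply_of_pos, hk]
      rw [h1, hk, neg_one_smul]
      exact (hm _).1 (bm ⟨k, hk⟩).2
    · have h1 : B k = (bp ⟨k, hk⟩ : Fin n → F) := by
        simp [B, Equiv.sumCompl_symm_apply_of_neg, hk]
      rw [h1, (hε k).resolve_right hk, one_smul]
      exact (hp _).1 (bp ⟨k, hk⟩).2
  refine ⟨(Pi.basisFun F (Fin n)).toMatrix B, ?_, ?_⟩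
  · rw [← Module.Basis.det_apply]
    exact Module.Basis.isUnit_det _ _
  · ext i k
    rw [Matrix.mul_diagonal]
    have h1 := congrFun (hB k) i
    simp only [Module.Basis.toMatrix_apply, Pi.basisFun_repr]
    rw [Pi.smul_apply, smul_eq_mul] at h1
    rw [mul_comm, ← h1]
    simp [Matrix.mul_apply, Matrix.mulVec, dotProduct, Module.Basis.toMatrix_apply]


theorem det_involution {F : Type*} [Field F] (h2 : (2 : F) ≠ 0) {n : ℕ}
    (y : Matrix (Fin n) (Fin n) F) (hy : y * y = 1) :
    y.det = (-1) ^ Module.finrank F (LinearMap.ker (Matrix.toLin' (y + 1))) := by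
  classical
  obtain ⟨i, hi⟩ : ∃ i : ℕ, i = Module.finrank F (LinearMap.ker (Matrix.toLin' (y + 1))) :=
    ⟨_, rfl⟩
  rw [← hi]
  have hin : i ≤ n := by
    have h1 := Submodule.finrank_le (LinearMap.ker (Matrix.toLin' (y + 1)))
    rw [Module.finrank_fin_fun] at h1
    rw [hi]
    exact h1
  have h11 : (1 : F) ≠ -1 := by
    intro h
    apply h2
    have h3 : (2 : F) = 1 + 1 := by norm_num
    rw [h3]
    nth_rewrite 2 [h]
    exact add_neg_cancel 1
  have hiff : ∀ k : Fin n, (if (k : ℕ) < i then (-1 : F) else 1) = -1 ↔ (k : ℕ) < i := by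
    intro k
    by_cases hk : (k : ℕ) < i
    · simp [hk]
    · simp [hk, h11]
  let e0 : {k : Fin n // (k : ℕ) < i} ≃ Fin i :=
    { toFun := fun k => ⟨k.1, k.2⟩
      invFun := fun j => ⟨⟨j, lt_of_lt_of_le j.2 hin⟩, j.2⟩
      left_inv := fun k => rfl
      right_inv := fun j => rfl }
  have hcard : Nat.card {k : Fin n // (if (k : ℕ) < i then (-1 : F) else 1) = -1} = i := by
    rw [Nat.card_congr (Equiv.subtypeEquivRight hiff), Nat.card_congr e0, Nat.card_fin]
  obtain ⟨Q, hQ, hyQ⟩ := exists_diagonalization_of_involution h2 y hy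
    (fun k : Fin n => if (k : ℕ) < i then (-1 : F) else 1)
    (fun k => by by_cases hk : (k : ℕ) < i <;> simp [hk]) (hcard.trans hi)
  have hdet := congrArg Matrix.det hyQ
  rw [Matrix.det_mul, Matrix.det_mul, Matrix.det_diagonal, mul_comm] at hdet
  rw [mul_left_cancel₀ hQ.ne_zero hdet, Finset.prod_ite, Finset.prod_const, Finset.prod_const_one,
    mul_one]
  congr 1
  rw [← Fintype.card_subtype, Fintype.card_congr e0, Fintype.card_fin]

theorem exists_tensor_form_of_sq {F : Type*} [Field F] (h2 : (2 : F) ≠ 0) {n b : ℕ}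
    (e : Fin n ≃ Fin 2 × Fin b) (x : Matrix (Fin n) (Fin n) F) (l : F) (hl : l ≠ 0)
    (hx : x * x = (l ^ 2) • (1 : Matrix (Fin n) (Fin n) F)) (hdet : x.det = 1) (hln : l ^ n = 1) :
    ∃ (D : Fin b → F) (Q : Matrix (Fin n) (Fin n) F), (∀ j, D j = 1 ∨ D j = -1) ∧ IsUnit Q.det ∧
      x * Q = Q * Matrix.diagonal (fun k => l * D (e k).2) := by
  classical
  have hn : n = 2 * b := by
    have h1 := Fintype.card_congr e
    simpa using h1
  have h11 : (1 : F) ≠ -1 := by
    intro h
    apply h2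
    have h3 : (2 : F) = 1 + 1 := by norm_num
    rw [h3]
    nth_rewrite 2 [h]
    exact add_neg_cancel 1
  obtain ⟨y, hydef⟩ : ∃ y : Matrix (Fin n) (Fin n) F, y = l⁻¹ • x := ⟨_, rfl⟩
  have hy : y * y = 1 := by
    rw [hydef, Matrix.smul_mul, Matrix.mul_smul, hx, smul_smul, smul_smul]
    have h1 : l⁻¹ * l⁻¹ * l ^ 2 = 1 := by
      field_simp
    rw [h1, one_smul]
  have hdety : y.det = 1 := by
    rw [hydef, Matrix.det_smul, Fintype.card_fin, hdet, mul_one, inv_pow, hln, inv_one]
  obtain ⟨i, hi⟩ : ∃ i : ℕ, i = Module.finrank F (LinearMap.ker (Matrix.toLin' (y + 1))) :=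
    ⟨_, rfl⟩
  have hin : i ≤ n := by
    have h1 := Submodule.finrank_le (LinearMap.ker (Matrix.toLin' (y + 1)))
    rw [Module.finrank_fin_fun] at h1
    rw [hi]
    exact h1
  have hpow : (-1 : F) ^ i = 1 := by
    rw [hi, ← det_involution h2 y hy, hdety]
  have heven : Even i := by
    by_contra hodd
    rw [Nat.not_even_iff_odd] at hodd
    rw [hodd.neg_one_pow] at hpow
    exact h11 hpow.symm
  obtain ⟨i', hi'⟩ := heven
  have hi'b : i' ≤ b := by omega
  have hDiff : ∀ j : Fin b, (if (j : ℕ) < i' then (-1 : F) else 1) = -1 ↔ (j : ℕ) < i' := by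
    intro j
    by_cases hj : (j : ℕ) < i'
    · simp [hj]
    · simp [hj, h11]
  have hD : ∀ j : Fin b, (if (j : ℕ) < i' then (-1 : F) else 1) = 1 ∨
      (if (j : ℕ) < i' then (-1 : F) else 1) = -1 := by
    intro j
    by_cases hj : (j : ℕ) < i' <;> simp [hj]
  let e1 : {k : Fin n // (if (((e k).2 : Fin b) : ℕ) < i' then (-1 : F) else 1) = -1} ≃
      Fin 2 × Fin i' :=
    { toFun := fun k => ((e k.1).1, ⟨((e k.1).2 : ℕ), (hDiff _).1 k.2⟩)
      invFun := fun p => ⟨e.symm (p.1, ⟨p.2, lt_of_lt_of_le p.2.2 hi'b⟩), by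
        rw [hDiff, Equiv.apply_symm_apply]
        exact p.2.2⟩
      left_inv := fun k => by
        apply Subtype.ext
        simp
      right_inv := fun p => by
        simp }
  have hcard : Nat.card {k : Fin n // (if (((e k).2 : Fin b) : ℕ) < i' then (-1 : F) else 1) = -1}
      = i := by
    rw [Nat.card_congr e1, Nat.card_prod, Nat.card_fin, Nat.card_fin]
    omega
  obtain ⟨Q, hQ, hyQ⟩ := exists_diagonalization_of_involution h2 y hy
    (fun k : Fin n => if (((e k).2 : Fin b) : ℕ) < i' then (-1 : F) else 1)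
    (fun k => hD _) (hcard.trans hi)
  refine ⟨fun j : Fin b => if (j : ℕ) < i' then (-1 : F) else 1, Q, hD, hQ, ?_⟩
  have hxy : x = l • y := by rw [hydef, smul_smul, mul_inv_cancel₀ hl, one_smul]
  rw [hxy, Matrix.smul_mul, hyQ]
  ext a k
  simp only [Matrix.smul_apply, Matrix.mul_diagonal, smul_eq_mul]
  ring

end Cfsg.Agent.H98.Ten
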