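import Mathlib
import Cfsg.Agent.H48.EpDefs

/-!
# EP-BRIDGE (helper98, for helper48): the standard plus space `(F^(Fin d ⊕ Fin d), H49.QP d F)`
and the translation of the notions of the frozen statement S5974.
-/

set_option autoImplicit false

namespace Cfsg.Agent.H98.Ep

open Cfsg.Agent.H45 Cfsg.Agent.H42.Spd Cfsg.Agent.H42.Ti Cfsg.Agent.H48.Ep Module

universe u

/-- The frozen one-sided nondegeneracy condition is `QNd` for the bundled plus form. -/
theorem nd_iff {F : Type u} [Field F] (d : ℕ) (W : Submodule F (Fin d ⊕ Fin d → F)) :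
    (∀ u ∈ W, u ≠ 0 → ∃ v ∈ W, QuadraticMap.polar (Cfsg.quadFormPlus d F) u v ≠ 0) ↔
      QNd (Cfsg.Agent.H49.QP d F) W := by
  have hB : ∀ x y, QuadraticMap.polarBilin (Cfsg.Agent.H49.QP d F) x y =
      QuadraticMap.polar (Cfsg.quadFormPlus d F) x y := by
    intro x y
    rw [QuadraticMap.polarBilin_apply_apply, Cfsg.Agent.H49.QP_coe]
  have hsymm : ∀ x y, QuadraticMap.polarBilin (Cfsg.Agent.H49.QP d F) x y =
      QuadraticMap.polarBilin (Cfsg.Agent.H49.QP d F) y x := by
    intro x y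
    rw [QuadraticMap.polarBilin_apply_apply, QuadraticMap.polarBilin_apply_apply,
      QuadraticMap.polar_comm]
  unfold QNd
  constructor
  · intro hW
    rw [eq_bot_iff]
    rintro w ⟨hw1, hw2⟩
    rw [Submodule.mem_bot]
    by_contra hne
    obtain ⟨x, hx, hxw⟩ := hW w hw1 hne
    apply hxw
    rw [← hB, hsymm]
    exact hw2 x hx
  · intro hW w hw hne
    by_contra hcon
    apply hne
    have h3 : w ∈ W ⊓ perp (QuadraticMap.polarBilin (Cfsg.Agent.H49.QP d F)) W := by
      refine ⟨hw, fun u hu => ?_⟩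
      by_contra hne'
      exact hcon ⟨u, hu, by rw [← hB, hsymm]; exact hne'⟩
    rw [hW] at h3
    exact (Submodule.mem_bot F).mp h3

/-- **EP-BRIDGE**. -/
theorem bridge : StBridge.{u} := by
  intro F _ _ d m
  have hB : ∀ x y, QuadraticMap.polarBilin (Cfsg.Agent.H49.QP d F) x y =
      QuadraticMap.polar (Cfsg.quadFormPlus d F) x y := by
    intro x y
    rw [QuadraticMap.polarBilin_apply_apply, Cfsg.Agent.H49.QP_coe]
  refine ⟨?_, ?_, Cfsg.Agent.H49.finrank_plus d F, ?_, ?_⟩
  · rw [← nd_iff]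
    intro u _ hu
    by_contra hcon
    apply hu
    apply (Cfsg.Agent.H49.QP_nondeg d F).1 u
    intro y
    by_contra hne
    exact hcon ⟨y, Submodule.mem_top, by rw [← hB]; exact hne⟩
  · refine ⟨Cfsg.Agent.H49.U0 d F, le_top, Cfsg.Agent.H49.U0_ts d F, ?_⟩
    rw [Cfsg.Agent.H49.finrank_U0, finrank_top, Cfsg.Agent.H49.finrank_plus]
  · intro W
    unfold IsPW
    rw [nd_iff d W]
    constructor
    · rintro ⟨hm, hN, U, hUW, hdim, hU⟩
      exact ⟨hm, hN, U, hUW, hU, by rw [hdim, hm]⟩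
    · rintro ⟨hm, hN, U, hUW, hU, hdim⟩
      exact ⟨hm, hN, U, hUW, by rw [hdim, hm], hU⟩
  · intro g
    rw [Cfsg.Agent.H49.mem_isometryGroup_iff]
    constructor
    · intro h v
      rw [Matrix.toLin'_apply]
      exact h v
    · intro h v
      have h3 := h v
      rwa [Matrix.toLin'_apply] at h3

example : Cfsg.Agent.H48.Ep.StBridge.{u} := bridge

end Cfsg.Agent.H98.Ep

#print axioms Cfsg.Agent.H98.Ep.bridge
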