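import Cfsg.Agent.H23.StbDefs

/-!
# S2125-MATCH (helper98, for helper23): the permutations of the fundamental root subgroups and of their
negatives induced by an automorphism agree and preserve adjacency; for a rigid diagram they are trivial.
-/

set_option autoImplicit false

namespace Cfsg.Agent.H98.Stb

open Cfsg.Lie Cfsg.Agent.H23 Cfsg.Agent.H23.Stb

universe u

variable {D : ChevalleyDatum} {F : Type u} [Field F] {z η : ℕ → ℕ → ℤ}

/-- `x_α(1)` and `x_{-α}(1)` do not commute, for a fundamental root `α`. -/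
theorem not_comm_simple (hP : PackB D F z η) (hV : SemV D F) (i : ℕ) (hi : i < D.rank) :
    ¬ (xU hP.sem (D.simple i) 1 * xU hP.sem (D.neg (D.simple i)) 1 =
        xU hP.sem (D.neg (D.simple i)) 1 * xU hP.sem (D.simple i) 1) := by
  intro hcomm
  have hT := hP.tab
  have hα := hT.simple_lt i hi
  have h1 := nU_conj hP.sem hP.semN i hi (D.simple i) hα (1 : F)
  rw [reflectRoot_simple] at h1
  have h2 : nU hP.sem (D.simple i) 1 =
      xU hP.sem (D.simple i) 1 * (xU hP.sem (D.neg (D.simple i)) 1)⁻¹ * xU hP.sem (D.simple i) 1 := by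
    rw [nU_eq, xU_inv, inv_one]
  have h4 : (xU hP.sem (D.neg (D.simple i)) 1)⁻¹ * xU hP.sem (D.simple i) 1 *
      xU hP.sem (D.neg (D.simple i)) 1 = xU hP.sem (D.simple i) 1 := by
    rw [mul_assoc, hcomm, ← mul_assoc, inv_mul_cancel, one_mul]
  have h3 : nU hP.sem (D.simple i) 1 * xU hP.sem (D.simple i) 1 * (nU hP.sem (D.simple i) 1)⁻¹ =
      xU hP.sem (D.simple i) 1 := by
    rw [h2]
    calc xU hP.sem (D.simple i) 1 * (xU hP.sem (D.neg (D.simple i)) 1)⁻¹ * xU hP.sem (D.simple i) 1 *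
          xU hP.sem (D.simple i) 1 *
          (xU hP.sem (D.simple i) 1 * (xU hP.sem (D.neg (D.simple i)) 1)⁻¹ * xU hP.sem (D.simple i) 1)⁻¹
        = xU hP.sem (D.simple i) 1 * ((xU hP.sem (D.neg (D.simple i)) 1)⁻¹ * xU hP.sem (D.simple i) 1 *
          xU hP.sem (D.neg (D.simple i)) 1) * (xU hP.sem (D.simple i) 1)⁻¹ := by group
      _ = _ := by rw [h4]; group
  rw [h3] at h1
  apply xU_pos_not_mem_neg hP hV (D.simple i) (hT.simple_pos i hi) 1 one_ne_zero
  rw [h1]
  exact xU_mem_rootGen hP.sem D.IsNegRoot _ ((hT.pos_neg _ hα).1 (hT.simple_pos i hi)) _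

/-- **S2125-MATCH**. -/
theorem match_ : StMatch.{u} := by
  intro D F _ z η rT w0 hC θ adj hpos hneg hc2 hadj hrig
  have hK := not_comm_simple hC.hP hC.hV
  have hcommG : ∀ (r s : ℕ) (t u : F),
      (xG hC.hP.sem r t * xG hC.hP.sem s u = xG hC.hP.sem s u * xG hC.hP.sem r t) ↔
      (xU hC.hP.sem r t * xU hC.hP.sem s u = xU hC.hP.sem s u * xU hC.hP.sem r t) := by
    intro r s t u
    constructor
    · intro h; exact congrArg Subtype.val h
    · intro h; exact Subtype.ext h
  choose! π hπ hπR using hpos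
  choose! π' hπ' hπ'R using hneg
  have h1 : ∀ i < D.rank, π' i = π i := by
    intro i hi
    by_contra hne
    obtain ⟨a, ha⟩ := (hπR i hi).1 1
    obtain ⟨b, hb⟩ := (hπ'R i hi).1 1
    have hcomm := hc2 (π' i) (hπ' i hi) (π i) (hπ i hi) hne b a
    have h2 : θ (xG hC.hP.sem (D.simple i) 1 * xG hC.hP.sem (D.neg (D.simple i)) 1) =
        θ (xG hC.hP.sem (D.neg (D.simple i)) 1 * xG hC.hP.sem (D.simple i) 1) := by
      rw [map_mul, map_mul, ha, hb]
      exact (hcommG _ _ _ _).mpr hcomm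
    exact hK i hi ((hcommG _ _ _ _).mp (θ.injective h2))
  have h2 : ∀ i < D.rank, ∀ j < D.rank, π i = π j → i = j := by
    intro i hi j hj hij
    by_contra hne
    obtain ⟨a, ha⟩ := (hπR i hi).1 1
    obtain ⟨t, ht⟩ := (hπR j hj).2 a
    have h3 : xG hC.hP.sem (D.simple i) 1 = xG hC.hP.sem (D.simple j) t := by
      apply θ.injective
      rw [ha, ht, hij]
    have h4 : xU hC.hP.sem (D.simple i) 1 = xU hC.hP.sem (D.simple j) t := congrArg Subtype.val h3
    apply hK i hi
    rw [h4]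
    exact hc2 i hi j hj hne 1 t
  have h3 : ∀ i < D.rank, ∀ j < D.rank, i ≠ j → (adj (π i) (π j) ↔ adj i j) := by
    intro i hi j hj hne
    have hne' : π i ≠ π j := fun h => hne (h2 i hi j hj h)
    rw [← not_iff_not, ← hadj i hi j hj hne, ← hadj (π i) (hπ i hi) (π j) (hπ j hj) hne']
    constructor
    · intro h t u
      obtain ⟨t', ht'⟩ := (hπR i hi).1 t
      obtain ⟨u', hu'⟩ := (hπR j hj).1 u
      have h5 := (hcommG _ _ _ _).mpr (h t' u')
      rw [← ht', ← hu', ← map_mul, ← map_mul] at h5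
      exact (hcommG _ _ _ _).mp (θ.injective h5)
    · intro h t' u'
      obtain ⟨t, ht⟩ := (hπR i hi).2 t'
      obtain ⟨u, hu⟩ := (hπR j hj).2 u'
      have h5 := congrArg θ ((hcommG _ _ _ _).mpr (h t u))
      rw [map_mul, map_mul, ht, hu] at h5
      exact (hcommG _ _ _ _).mp h5
  have h4 := hrig π hπ h2 h3
  intro i hi
  have e1 := hπR i hi
  have e2 := hπ'R i hi
  rw [h1 i hi, h4 i hi] at e2
  rw [h4 i hi] at e1
  exact ⟨e1, e2⟩

end Cfsg.Agent.H98.Stb
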