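import Mathlib
import Cfsg.Prelude.Def_GeometricClasses
import Cfsg.Prelude.Def_ClassicalGeometry
import Cfsg.Prelude.Def_LieClassical

/-!
# S5976 team project (helper98): definitions and piece statements

`PSp_{2d}(q)`, `q` odd, and the normaliser of a quadratic field subalgebra `K` closed under
adjoints but not self-adjoint (type `GU_d(q)`).  Then `K = F + F J` with `J ^ 2 = δ` a non-square
and `f (J u, v) = - f (u, J v)` (a *skew root* of `δ`).  The standard skew root is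
`J0 n δ = [[0, 1], [δ, 0]]`.
-/

set_option autoImplicit false

namespace Cfsg.Agent.H98.Gu

open Matrix

universe u

/-- The standard skew root `[[0, 1], [δ, 0]]`. -/
def J0 {F : Type u} [Field F] (n : ℕ) (δ : F) : Matrix (Fin n ⊕ Fin n) (Fin n ⊕ Fin n) F :=
  Matrix.fromBlocks 0 1 (δ • (1 : Matrix (Fin n) (Fin n) F)) 0

/-- `J` is a skew root of `δ` for the standard alternating form. -/
def IsSkewRoot {F : Type u} [Field F] (d : ℕ) (δ : F)
    (J : Matrix (Fin d ⊕ Fin d) (Fin d ⊕ Fin d) F) : Prop :=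
  J * J = δ • (1 : Matrix (Fin d ⊕ Fin d) (Fin d ⊕ Fin d) F) ∧
    ∀ u v : Fin d ⊕ Fin d → F, Cfsg.sympForm d F (J *ᵥ u) v = - Cfsg.sympForm d F u (J *ᵥ v)

/-- The invertible matrices commuting with `J`. -/
def centJ {F : Type u} [Field F] {ι : Type} [Fintype ι] [DecidableEq ι] (J : Matrix ι ι F) :
    Subgroup (Matrix.GeneralLinearGroup ι F) where
  carrier := {g | (g : Matrix ι ι F) * J = J * (g : Matrix ι ι F)}
  mul_mem' := by
    intro a b ha hb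
    simp only [Set.mem_setOf_eq] at ha hb ⊢
    rw [Units.val_mul, mul_assoc, hb, ← mul_assoc, ha, mul_assoc]
  one_mem' := by simp
  inv_mem' := by
    intro a ha
    simp only [Set.mem_setOf_eq] at ha ⊢
    have h1 : ((a⁻¹ : Matrix.GeneralLinearGroup ι F) : Matrix ι ι F) * (a : Matrix ι ι F) = 1 := by
      rw [← Units.val_mul, inv_mul_cancel, Units.val_one]
    have h2 : (a : Matrix ι ι F) * ((a⁻¹ : Matrix.GeneralLinearGroup ι F) : Matrix ι ι F) = 1 := by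
      rw [← Units.val_mul, mul_inv_cancel, Units.val_one]
    calc ((a⁻¹ : Matrix.GeneralLinearGroup ι F) : Matrix ι ι F) * J
        = ((a⁻¹ : Matrix.GeneralLinearGroup ι F) : Matrix ι ι F) * (J * (a : Matrix ι ι F)) *
            ((a⁻¹ : Matrix.GeneralLinearGroup ι F) : Matrix ι ι F) := by
          rw [mul_assoc, mul_assoc, h2, mul_one]
      _ = ((a⁻¹ : Matrix.GeneralLinearGroup ι F) : Matrix ι ι F) * ((a : Matrix ι ι F) * J) *
            ((a⁻¹ : Matrix.GeneralLinearGroup ι F) : Matrix ι ι F) := by rw [ha]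
      _ = J * ((a⁻¹ : Matrix.GeneralLinearGroup ι F) : Matrix ι ι F) := by
          rw [← mul_assoc, h1, one_mul]

theorem mem_centJ {F : Type u} [Field F] {ι : Type} [Fintype ι] [DecidableEq ι] (J : Matrix ι ι F)
    (g : Matrix.GeneralLinearGroup ι F) :
    g ∈ centJ J ↔ (g : Matrix ι ι F) * J = J * (g : Matrix ι ι F) := Iff.rfl

/-- The order of `GU_n(q)` (the right-hand side of `Cfsg.Agent.H7.card_GU`). -/
def guCard (q n : ℕ) : ℕ :=
  q ^ (n * (n - 1) / 2) *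
    ∏ i ∈ Finset.range n, (if Even i then q ^ (i + 1) + 1 else q ^ (i + 1) - 1)

/-! ### The pieces -/

/-- S5976-KSTR: the structure of `K`. -/
def StKstr : Prop :=
  ∀ (F : Type u) [Field F] [Fintype F] (d : ℕ)
    (K : Subalgebra F (Matrix (Fin d ⊕ Fin d) (Fin d ⊕ Fin d) F)),
    Odd (Fintype.card F) → Cfsg.Geo.IsFieldSubalgebra 2 K →
    Cfsg.Geo.IsAdjointClosedFor (Cfsg.sympForm d F) K →
    ¬ Cfsg.Geo.IsSelfAdjointFor (Cfsg.sympForm d F) K →
    ∃ (J : Matrix (Fin d ⊕ Fin d) (Fin d ⊕ Fin d) F) (δ : F), J ∈ K ∧ ¬ IsSquare δ ∧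
      IsSkewRoot d δ J ∧
      ∀ k ∈ K, ∃ a b : F, k = a • (1 : Matrix (Fin d ⊕ Fin d) (Fin d ⊕ Fin d) F) + b • J

/-- S5976-NORM: the normaliser of `K = F + F J`. -/
def StNorm : Prop :=
  ∀ (F : Type u) [Field F] (d : ℕ)
    (K : Subalgebra F (Matrix (Fin d ⊕ Fin d) (Fin d ⊕ Fin d) F))
    (J : Matrix (Fin d ⊕ Fin d) (Fin d ⊕ Fin d) F) (δ : F),
    (2 : F) ≠ 0 → ¬ IsSquare δ → J ∈ K →
    (∀ k ∈ K, ∃ a b : F, k = a • (1 : Matrix (Fin d ⊕ Fin d) (Fin d ⊕ Fin d) F) + b • J) →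
    J * J = δ • (1 : Matrix (Fin d ⊕ Fin d) (Fin d ⊕ Fin d) F) →
    (∀ g : Matrix.GeneralLinearGroup (Fin d ⊕ Fin d) F,
      ((g : Matrix (Fin d ⊕ Fin d) (Fin d ⊕ Fin d) F) * J = J * g ∨
        (g : Matrix (Fin d ⊕ Fin d) (Fin d ⊕ Fin d) F) * J = -(J * g)) →
      g ∈ Cfsg.Geo.subalgebraNormalizer K) ∧
    (∀ g : Matrix.GeneralLinearGroup (Fin d ⊕ Fin d) F, g ∈ Cfsg.Geo.subalgebraNormalizer K →
      ∀ (r : ℕ) (z : F), Odd r →
      ((g ^ r : Matrix.GeneralLinearGroup (Fin d ⊕ Fin d) F) :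
        Matrix (Fin d ⊕ Fin d) (Fin d ⊕ Fin d) F) = z • 1 →
      (g : Matrix (Fin d ⊕ Fin d) (Fin d ⊕ Fin d) F) * J = J * g)

/-- S5976-CONJ: the symplectic group is transitive on the skew roots of `δ`. -/
def StConj : Prop :=
  ∀ (F : Type u) [Field F] [Fintype F] (d : ℕ) (δ : F)
    (J J' : Matrix (Fin d ⊕ Fin d) (Fin d ⊕ Fin d) F),
    Odd (Fintype.card F) → ¬ IsSquare δ → IsSkewRoot d δ J → IsSkewRoot d δ J' →
    ∃ P : Matrix.GeneralLinearGroup (Fin d ⊕ Fin d) F, P ∈ Cfsg.spGL d F ∧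
      (P : Matrix (Fin d ⊕ Fin d) (Fin d ⊕ Fin d) F) * J = J' * P

/-- S5976-INVPOS: a symplectic involution commutes with a skew root. -/
def StInvPos : Prop :=
  ∀ (F : Type u) [Field F] [Fintype F] (d : ℕ) (δ : F), Odd (Fintype.card F) → ¬ IsSquare δ →
    ∀ x : Matrix.GeneralLinearGroup (Fin d ⊕ Fin d) F, x ∈ Cfsg.spGL d F →
    (x : Matrix (Fin d ⊕ Fin d) (Fin d ⊕ Fin d) F) * x = 1 →
    ∃ J' : Matrix (Fin d ⊕ Fin d) (Fin d ⊕ Fin d) F, IsSkewRoot d δ J' ∧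
      (x : Matrix (Fin d ⊕ Fin d) (Fin d ⊕ Fin d) F) * J' = J' * x

/-- S5976-INVNEG: a symplectic matrix of square `-1` commutes or anticommutes with a skew
root. -/
def StInvNeg : Prop :=
  ∀ (F : Type u) [Field F] [Fintype F] (d : ℕ) (δ : F), Odd (Fintype.card F) → ¬ IsSquare δ →
    ∀ x : Matrix.GeneralLinearGroup (Fin d ⊕ Fin d) F, x ∈ Cfsg.spGL d F →
    (x : Matrix (Fin d ⊕ Fin d) (Fin d ⊕ Fin d) F) * x = -1 →
    ∃ J' : Matrix (Fin d ⊕ Fin d) (Fin d ⊕ Fin d) F, IsSkewRoot d δ J' ∧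
      ((x : Matrix (Fin d ⊕ Fin d) (Fin d ⊕ Fin d) F) * J' = J' * x ∨
        (x : Matrix (Fin d ⊕ Fin d) (Fin d ⊕ Fin d) F) * J' = -(J' * x))

/-- S5976-TV: a transvection commutes with no square root of a non-square. -/
def StTv : Prop :=
  ∀ (F : Type u) [Field F] [Fintype F] (p : ℕ) [Fact p.Prime] [CharP F p] (d : ℕ), 1 ≤ d →
    ∃ x : Matrix.GeneralLinearGroup (Fin d ⊕ Fin d) F, x ∈ Cfsg.spGL d F ∧ x ^ p = 1 ∧
      (∀ z : F, (x : Matrix (Fin d ⊕ Fin d) (Fin d ⊕ Fin d) F) ≠ z • 1) ∧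
      ∀ (δ : F) (J : Matrix (Fin d ⊕ Fin d) (Fin d ⊕ Fin d) F), ¬ IsSquare δ →
        J * J = δ • (1 : Matrix (Fin d ⊕ Fin d) (Fin d ⊕ Fin d) F) →
        (x : Matrix (Fin d ⊕ Fin d) (Fin d ⊕ Fin d) F) * J ≠ J * x

/-- S5976-RESTRICT: an isometry of order `r ≠ p` commuting with a skew root restricts, on its
commutator space `[V, x]` of dimension `2 n`, to an element of order `r` of the centraliser of
the standard skew root in `Sp_{2n}`. -/
def StRestrict : Prop :=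
  ∀ (F : Type u) [Field F] [Fintype F] (p : ℕ) [Fact p.Prime] [CharP F p] (d : ℕ) (δ : F)
    (J : Matrix (Fin d ⊕ Fin d) (Fin d ⊕ Fin d) F)
    (x : Matrix.GeneralLinearGroup (Fin d ⊕ Fin d) F) (r n : ℕ),
    p ≠ 2 → ¬ IsSquare δ → IsSkewRoot d δ J → x ∈ Cfsg.spGL d F →
    (x : Matrix (Fin d ⊕ Fin d) (Fin d ⊕ Fin d) F) * J = J * x → r.Prime → r ≠ p → x ^ r = 1 →
    Module.finrank F ↥(LinearMap.ker
      (Matrix.toLin' (x : Matrix (Fin d ⊕ Fin d) (Fin d ⊕ Fin d) F) - 1)) + 2 * n = 2 * d →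
    0 < n →
    ∃ y : Matrix.GeneralLinearGroup (Fin n ⊕ Fin n) F, y ∈ Cfsg.spGL n F ∧ y ∈ centJ (J0 n δ) ∧
      y ^ r = 1 ∧ y ≠ 1

/-- S5976-QEXT: a quadratic extension containing a square root of `δ`. -/
def StQExt : Prop :=
  ∀ (F : Type u) [Field F] [Fintype F] (δ : F), ¬ IsSquare δ →
    ∃ (L : Type u) (_ : Field L) (_ : Fintype L) (φ : F →+* L) (ω : L),
      Fintype.card L = Fintype.card F ^ 2 ∧ ω ^ 2 = φ δ

/-- S5976-CARDISO: the centraliser of the standard skew root in `Sp_{2n}(F)` has as many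
elements as `GU_n` over the quadratic extension. -/
def StCardIso : Prop :=
  ∀ (F : Type u) [Field F] [Fintype F] (L : Type u) [Field L] [Fintype L] (φ : F →+* L) (ω : L)
    (n : ℕ) (δ : F), Odd (Fintype.card F) → ¬ IsSquare δ →
    Fintype.card L = Fintype.card F ^ 2 → ω ^ 2 = φ δ →
    Nat.card ↥(Cfsg.spGL n F ⊓ centJ (J0 n δ)) = Nat.card ↥(Cfsg.GU n L (Fintype.card F))

/-- S5976-ARITHA: the primes dividing the index. -/
def StArithA : Prop :=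
  ∀ (q r d idx m : ℕ), r.Prime → r ≠ 2 → ¬ r ∣ q → 2 ≤ q → r ∣ idx →
    idx * m * guCard q d = q ^ (d ^ 2) * ∏ i ∈ Finset.range d, (q ^ (2 * (i + 1)) - 1) →
    (Odd (orderOf (q : ZMod r)) ∧ orderOf (q : ZMod r) ≤ d) ∨
      (4 ∣ orderOf (q : ZMod r) ∧ orderOf (q : ZMod r) ≤ 2 * d)

/-- S5976-ARITHB: the small unitary groups have order prime to `r`. -/
def StArithB : Prop :=
  ∀ (q r n : ℕ), r.Prime → r ≠ 2 → ¬ r ∣ q → 2 ≤ q →
    ((Odd (orderOf (q : ZMod r)) ∧ n = orderOf (q : ZMod r)) ∨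
      (4 ∣ orderOf (q : ZMod r) ∧ 2 * n = orderOf (q : ZMod r))) →
    ¬ r ∣ guCard q n

end Cfsg.Agent.H98.Gu
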