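import Cfsg.Agent.H68.StDefs

set_option autoImplicit false

/-!
# Piece BC of S2311 (helper98): in a finite group with a (B,N)-pair, an element `n1` of `N`
minimising `|B ∩ n B n⁻¹|` has all left descents.
-/

namespace Cfsg.Agent.H98.St

open Cfsg Cfsg.H8Exch Cfsg.H8BN Cfsg.Agent.H68.St

variable {G : Type*} [Group G]

/-- `|B n B| * |B ∩ n B n⁻¹| = |B|²`. -/
theorem ncard_dc_mul_card_BInt [Finite G] (P : BNPair G) (n : G) :
    (dc P n).ncard * Nat.card ↥(BInt P n) = Nat.card ↥P.B * Nat.card ↥P.B := by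
  classical
  have hsec : ∀ g : ↥(dc P n), ∃ x : ↥P.B × ↥P.B, (g : G) = (x.1 : G) * n * (x.2 : G) := by
    rintro ⟨g, hg⟩
    obtain ⟨b, hb, b', hb', e⟩ := (mem_dc P).1 hg
    exact ⟨(⟨b, hb⟩, ⟨b', hb'⟩), e⟩
  choose sec hsec' using hsec
  let F : ↥P.B × ↥P.B → ↥(dc P n) := fun x =>
    ⟨(x.1 : G) * n * (x.2 : G), (mem_dc P).2 ⟨x.1, x.1.2, x.2, x.2.2, rfl⟩⟩
  have hF : ∀ x, ((F x : ↥(dc P n)) : G) = (x.1 : G) * n * (x.2 : G) := fun x => rfl
  have hmem : ∀ x : ↥P.B × ↥P.B, ((sec (F x)).1 : G)⁻¹ * (x.1 : G) ∈ BInt P n := by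
    intro x
    rw [mem_BInt]
    refine ⟨P.B.mul_mem (P.B.inv_mem (sec (F x)).1.2) x.1.2, ?_⟩
    have e := hsec' (F x)
    rw [hF] at e
    have e2 : (x.1 : G) * n =
        ((sec (F x)).1 : G) * n * ((sec (F x)).2 : G) * (x.2 : G)⁻¹ := by
      rw [← e]; group
    have e3 : n⁻¹ * (((sec (F x)).1 : G)⁻¹ * (x.1 : G)) * n =
        ((sec (F x)).2 : G) * (x.2 : G)⁻¹ := by
      calc n⁻¹ * (((sec (F x)).1 : G)⁻¹ * (x.1 : G)) * n
          = n⁻¹ * ((sec (F x)).1 : G)⁻¹ * ((x.1 : G) * n) := by group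
        _ = ((sec (F x)).2 : G) * (x.2 : G)⁻¹ := by rw [e2]; group
    rw [e3]
    exact P.B.mul_mem (sec (F x)).2.2 (P.B.inv_mem x.2.2)
  have hmem2 : ∀ (g : ↥(dc P n)) (c : ↥(BInt P n)), ((sec g).1 : G) * (c : G) ∈ P.B :=
    fun g c => P.B.mul_mem (sec g).1.2 ((mem_BInt P).1 c.2).1
  have hmem3 : ∀ (g : ↥(dc P n)) (c : ↥(BInt P n)),
      n⁻¹ * (c : G)⁻¹ * n * ((sec g).2 : G) ∈ P.B := by
    intro g c
    have h := ((mem_BInt P).1 c.2).2
    have e : n⁻¹ * (c : G)⁻¹ * n = (n⁻¹ * (c : G) * n)⁻¹ := by group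
    rw [e]
    exact P.B.mul_mem (P.B.inv_mem h) (sec g).2.2
  have e : (↥P.B × ↥P.B) ≃ ↥(dc P n) × ↥(BInt P n) :=
    { toFun := fun x => (F x, ⟨_, hmem x⟩)
      invFun := fun y => (⟨_, hmem2 y.1 y.2⟩, ⟨_, hmem3 y.1 y.2⟩)
      left_inv := by
        intro x
        apply Prod.ext
        · apply Subtype.ext
          show ((sec (F x)).1 : G) * (((sec (F x)).1 : G)⁻¹ * (x.1 : G)) = x.1
          group
        · apply Subtype.ext
          show n⁻¹ * (((sec (F x)).1 : G)⁻¹ * (x.1 : G))⁻¹ * n * ((sec (F x)).2 : G) = x.2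
          have e := hsec' (F x)
          rw [hF] at e
          calc n⁻¹ * (((sec (F x)).1 : G)⁻¹ * (x.1 : G))⁻¹ * n * ((sec (F x)).2 : G)
              = n⁻¹ * (x.1 : G)⁻¹ * (((sec (F x)).1 : G) * n * ((sec (F x)).2 : G)) := by group
            _ = x.2 := by rw [← e]; group
      right_inv := by
        rintro ⟨g, c⟩
        have hg : F (⟨_, hmem2 g c⟩, ⟨_, hmem3 g c⟩) = g := by
          apply Subtype.ext
          show ((sec g).1 : G) * (c : G) * n * (n⁻¹ * (c : G)⁻¹ * n * ((sec g).2 : G)) = g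
          rw [hsec' g]; group
        apply Prod.ext
        · exact hg
        · apply Subtype.ext
          show ((sec (F (⟨_, hmem2 g c⟩, ⟨_, hmem3 g c⟩))).1 : G)⁻¹ *
            (((sec g).1 : G) * (c : G)) = c
          rw [hg]; group }
  have h := Nat.card_congr e
  rw [Nat.card_prod, Nat.card_prod, Nat.card_coe_set_eq] at h
  exact h.symm

/-- piece BC of S2311. -/
theorem all_desc_of_min [Finite G] (P : BNPair G) (n1 : P.N)
    (hmin : ∀ n : P.N, Nat.card ↥(BInt P (n1 : G)) ≤ Nat.card ↥(BInt P (n : G))) (s : P.S) :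
    len (sg P) (sg P s * pr P n1) < len (sg P) (pr P n1) := by
  by_contra hcon
  have hlt : len (sg P) (pr P n1) < len (sg P) (sg P s * pr P n1) := by
    have := len_sg_mul_ne P s (pr P n1)
    omega
  have h1 := mul_mem_dc_of_len_lt P hlt
  obtain ⟨b₀, hb₀, hc⟩ := exists_conj P s
  obtain ⟨b₁, hb₁, b₂, hb₂, e⟩ := (mem_dc P).1 hc
  have hy1 : b₀ * ((s : G) * (n1 : G)) ∈ dc P ((s : G) * (n1 : G)) :=
    left_mul_mem_dc P hb₀ (self_mem_dc P _)
  have hy2 : (s : G) * (b₀ * ((s : G) * (n1 : G))) ∈ dc P ((s : G) * (n1 : G)) := by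
    have e2 : (s : G) * (b₀ * ((s : G) * (n1 : G))) = b₁ * ((s : G) * (b₂ * (n1 : G))) := by
      have : (s : G) * (b₀ * ((s : G) * (n1 : G))) = (s : G) * b₀ * s * n1 := by group
      rw [this, e]; group
    rw [e2]
    exact left_mul_mem_dc P hb₁ (h1 _ (left_mul_mem_dc P hb₂ (self_mem_dc P _)))
  have hy3 : b₀ * ((s : G) * (n1 : G)) ∉ dc P (n1 : G) := by
    intro hy3
    have h4 : ((s : G) * (n1 : G)) ∈ dc P (n1 : G) := by
      have ha := dc_eq_of_mem P hy1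
      have hb := dc_eq_of_mem P hy3
      rw [← hb, ha]
      exact self_mem_dc P _
    have h5 := pr_eq_of_mem_dc P (n := ⟨s.1, S_mem_N P s.2⟩ * n1) (n' := n1) h4
    have h6 : sg P s * pr P n1 = pr P n1 := h5
    rw [h6] at hlt
    exact lt_irrefl _ hlt
  have hfin : (dc P ((s : G) * (n1 : G))).Finite := Set.toFinite _
  have hlt2 : (dc P (n1 : G)).ncard < (dc P ((s : G) * (n1 : G))).ncard := by
    have himg : (fun g => (s : G) * g) '' (dc P (n1 : G)) ⊂ dc P ((s : G) * (n1 : G)) := by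
      constructor
      · rintro _ ⟨g, hg, rfl⟩
        exact h1 g hg
      · intro hsub
        obtain ⟨g, hg, hge⟩ := hsub hy2
        have hgy : g = b₀ * ((s : G) * (n1 : G)) := mul_left_cancel hge
        exact hy3 (hgy ▸ hg)
    have h := Set.ncard_lt_ncard himg hfin
    rwa [Set.ncard_image_of_injective _ (mul_right_injective _)] at h
  have hb1 := ncard_dc_mul_card_BInt P (n1 : G)
  have hb2 := ncard_dc_mul_card_BInt P ((s : G) * (n1 : G))
  have hm := hmin (⟨s.1, S_mem_N P s.2⟩ * n1)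
  rw [Subgroup.coe_mul] at hm
  have hpos : 0 < Nat.card ↥(BInt P (n1 : G)) := Nat.card_pos
  have hfin2 : (dc P (n1 : G)).ncard * Nat.card ↥(BInt P (n1 : G)) <
      (dc P ((s : G) * (n1 : G))).ncard * Nat.card ↥(BInt P ((s : G) * (n1 : G))) :=
    calc (dc P (n1 : G)).ncard * Nat.card ↥(BInt P (n1 : G))
        < (dc P ((s : G) * (n1 : G))).ncard * Nat.card ↥(BInt P (n1 : G)) :=
          Nat.mul_lt_mul_of_pos_right hlt2 hpos
      _ ≤ (dc P ((s : G) * (n1 : G))).ncard * Nat.card ↥(BInt P ((s : G) * (n1 : G))) :=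
          Nat.mul_le_mul_left _ hm
  rw [hb1, hb2] at hfin2
  exact lt_irrefl _ hfin2

end Cfsg.Agent.H98.St
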