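import Cfsg.Agent.H99.OrtDefs
import Cfsg.Agent.H98.TenSQ

set_option autoImplicit false

/-!
Piece S5981-INVDIAG of the team project S5981 (helper99): an involution is diagonalisable, with
prescribed determinant of the base change.
-/

namespace Cfsg.Agent.H98.Ort

open Matrix Cfsg.Agent.H99.Ort

universe u

theorem invDiag : StInvDiag.{u} := by
  intro F _ n hn h2 y hy d₀ hd₀
  classical
  have hyy : y * y = 1 := by rw [← sq]; exact hy
  obtain ⟨m, hm⟩ : ∃ m : ℕ, m = Module.finrank F (LinearMap.ker (Matrix.toLin' (y + 1))) :=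
    ⟨_, rfl⟩
  have hmn : m ≤ n := by
    have h := Submodule.finrank_le (LinearMap.ker (Matrix.toLin' (y + 1)))
    rw [Module.finrank_fin_fun] at h
    rw [hm]
    exact h
  obtain ⟨ε, hεdef⟩ : ∃ ε : Fin n → F, ε = (fun i : Fin n => if (i : ℕ) < m then (-1 : F) else 1) :=
    ⟨_, rfl⟩
  have hε : ∀ k, ε k = 1 ∨ ε k = -1 := by
    intro k
    rw [hεdef]
    by_cases h : (k : ℕ) < m
    · right
      simp [h]
    · left
      simp [h]
  have h1 : (1 : F) ≠ -1 := by
    intro h
    apply h2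
    linear_combination h
  have hiff : ∀ k : Fin n, ε k = -1 ↔ (k : ℕ) < m := by
    intro k
    rw [hεdef]
    by_cases h : (k : ℕ) < m
    · simp [h]
    · simp [h, h1]
  have hcard : Nat.card {k : Fin n // ε k = -1} = m := by
    rw [Nat.card_eq_fintype_card, Fintype.card_subtype,
      Finset.filter_congr (fun k _ => hiff k), Fin.card_filter_val_lt, min_eq_right hmn]
  obtain ⟨Q, hQ, hyQ⟩ :=
    Cfsg.Agent.H98.Ten.exists_diagonalization_of_involution h2 y hyy ε hε (hcard.trans hm)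
  have hQ0 : Q.det ≠ 0 := hQ.ne_zero
  obtain ⟨τ, hτdef⟩ : ∃ τ : Fin n → F,
      τ = (fun i : Fin n => if i = (⟨0, by omega⟩ : Fin n) then d₀ / Q.det else (1 : F)) :=
    ⟨_, rfl⟩
  have hτ : ∏ i, τ i = d₀ / Q.det := by
    rw [hτdef]
    rw [Finset.prod_ite_eq' Finset.univ (⟨0, by omega⟩ : Fin n) (fun _ => d₀ / Q.det)]
    simp
  refine ⟨Q * Matrix.diagonal τ, ε, ?_, hε, ?_⟩
  · rw [Matrix.det_mul, Matrix.det_diagonal, hτ]
    field_simp
  · rw [← Matrix.mul_assoc, hyQ, Matrix.mul_assoc, Matrix.mul_assoc, Matrix.diagonal_mul_diagonal,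
      Matrix.diagonal_mul_diagonal]
    congr 2
    funext i
    exact mul_comm _ _

example : StInvDiag.{u} := invDiag

end Cfsg.Agent.H98.Ort
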