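import Cfsg.Agent.H99.OrtDefs
import Cfsg.Agent.H35.TenNSQ
import Cfsg.Agent.H18.TenCEN

set_option autoImplicit false

/-!
Piece S5981-NSQ of the team project S5981 (helper99): matrices with the same non-square scalar
square are conjugate (with prescribed determinant of the conjugating matrix), and live in even
dimension.
-/

namespace Cfsg.Agent.H98.Ort

open Matrix Cfsg.Agent.H99.Ort

universe u

theorem nsqEven : StNsqEven.{u} := by
  intro F _ n z hz x hx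
  classical
  by_contra hodd
  rw [Nat.not_even_iff_odd] at hodd
  obtain ⟨j, hj⟩ := hodd
  apply hz
  have hz0 : z ≠ 0 := by
    intro h
    apply hz
    rw [h]
    exact ⟨0, (mul_zero 0).symm⟩
  have hdet : ∃ D : F, D * D = z ^ n :=
    ⟨x.det, by rw [← Matrix.det_mul, hx, Matrix.det_smul, Matrix.det_one, mul_one,
      Fintype.card_fin]⟩
  obtain ⟨D, hD⟩ := hdet
  rw [hj] at hD
  have hzj : z ^ j ≠ 0 := pow_ne_zero _ hz0
  refine ⟨D / z ^ j, ?_⟩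
  field_simp
  linear_combination -hD

theorem nsq : StNsq.{u} := by
  intro F _ _ n hn h2 z hz x s hx hs d₀ hd₀
  classical
  have hz' : ∀ y : F, y ^ 2 ≠ z := by
    intro y hy
    apply hz
    exact ⟨y, by rw [← hy, sq]⟩
  obtain ⟨b, hb⟩ := nsqEven F n z hz x hx
  have hb0 : 0 < b := by omega
  have hcard : Fintype.card (Fin n) = Fintype.card (Fin 2 × Fin b) := by
    rw [Fintype.card_fin, Fintype.card_prod, Fintype.card_fin, Fintype.card_fin]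
    omega
  obtain ⟨e⟩ : Nonempty (Fin n ≃ Fin 2 × Fin b) := Fintype.card_eq.mp hcard
  obtain ⟨Q₁, hQ₁, hxQ⟩ := Cfsg.Agent.H35.Ten.exists_tensor_form_of_nonsq e x z hz' hx
  obtain ⟨Q₂, hQ₂, hsQ⟩ := Cfsg.Agent.H35.Ten.exists_tensor_form_of_nonsq e s z hz' hs
  have hQ₁0 : Q₁.det ≠ 0 := hQ₁.ne_zero
  have hQ₂0 : Q₂.det ≠ 0 := hQ₂.ne_zero
  obtain ⟨h, hdet, hcomm⟩ := Cfsg.Agent.H18.Ten.exists_centralizer_det h2 hb0 e z hz'
    (d₀ * Q₂.det / Q₁.det) (div_ne_zero (mul_ne_zero hd₀ hQ₂0) hQ₁0)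
  generalize Matrix.reindex e.symm e.symm
    (Matrix.kroneckerMap (fun a b => a * b) (!![0, z; 1, 0] : Matrix (Fin 2) (Fin 2) F)
      (1 : Matrix (Fin b) (Fin b) F)) = N at hxQ hsQ hcomm
  have hQQ : Q₂ * Q₂⁻¹ = 1 := Matrix.mul_nonsing_inv Q₂ hQ₂
  have hQQ' : Q₂⁻¹ * Q₂ = 1 := Matrix.nonsing_inv_mul Q₂ hQ₂
  have hNQ : N * Q₂⁻¹ = Q₂⁻¹ * s := by
    calc N * Q₂⁻¹ = Q₂⁻¹ * (Q₂ * N) * Q₂⁻¹ := by
          rw [← Matrix.mul_assoc, hQQ', Matrix.one_mul]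
      _ = Q₂⁻¹ * (s * Q₂) * Q₂⁻¹ := by rw [hsQ]
      _ = Q₂⁻¹ * s := by rw [Matrix.mul_assoc, Matrix.mul_assoc, hQQ, Matrix.mul_one]
  refine ⟨Q₁ * h * Q₂⁻¹, ?_, ?_⟩
  · rw [Matrix.det_mul, Matrix.det_mul, hdet, Matrix.det_nonsing_inv, Ring.inverse_eq_inv']
    field_simp
  · calc x * (Q₁ * h * Q₂⁻¹) = (x * Q₁) * h * Q₂⁻¹ := by simp only [Matrix.mul_assoc]
      _ = Q₁ * (N * h) * Q₂⁻¹ := by rw [hxQ]; simp only [Matrix.mul_assoc]
      _ = Q₁ * h * (N * Q₂⁻¹) := by rw [← hcomm]; simp only [Matrix.mul_assoc]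
      _ = Q₁ * h * Q₂⁻¹ * s := by rw [hNQ]; simp only [Matrix.mul_assoc]

example : StNsqEven.{u} := nsqEven
example : StNsq.{u} := nsq

end Cfsg.Agent.H98.Ort
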