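import Mathlib
import Cfsg.Agent.H79.BrDefs

set_option autoImplicit false

/-!
Piece S4504-GLSING of the team project S4504 (helper79): the `p`-singular elements are conjugate
to `x_i z` with `z` central.
-/

namespace Cfsg.Agent.H98.Br

open Cfsg Cfsg.Agent.H79.Br
open scoped Pointwise

universe u

/-- The `p`-part / `p'`-part decomposition of an element of a finite group, as powers. -/
theorem pPart_decomp {G : Type u} [Group G] [Finite G] {p : ℕ} (hp : p.Prime) (g : G) :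
    ∃ a b c : ℕ, g ^ a * g ^ b = g ∧ (g ^ a) ^ p ^ c = 1 ∧ ¬ p ∣ orderOf (g ^ b) := by
  obtain ⟨n, hn⟩ : ∃ n : ℕ, n = orderOf g := ⟨_, rfl⟩
  have hn0 : n ≠ 0 := by rw [hn]; exact (orderOf_pos g).ne'
  obtain ⟨c, hc⟩ : ∃ c : ℕ, c = n.factorization p := ⟨_, rfl⟩
  obtain ⟨m, hm⟩ : ∃ m : ℕ, m = n / p ^ c := ⟨_, rfl⟩
  have hnm : p ^ c * m = n := by rw [hm, hc]; exact Nat.ordProj_mul_ordCompl_eq_self n p
  have hpm : ¬ p ∣ m := by rw [hm, hc]; exact Nat.not_dvd_ordCompl hp hn0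
  have hco : Nat.Coprime (p ^ c) m :=
    Nat.Coprime.pow_left c ((Nat.Prime.coprime_iff_not_dvd hp).mpr hpm)
  obtain ⟨a, ha1, ha2⟩ := Nat.chineseRemainder hco 1 0
  obtain ⟨b, hb1, hb2⟩ := Nat.chineseRemainder hco 0 1
  refine ⟨a, b, c, ?_, ?_, ?_⟩
  · rw [← pow_add]
    conv_rhs => rw [← pow_one g]
    rw [pow_eq_pow_iff_modEq, ← hn, ← hnm]
    apply (Nat.modEq_and_modEq_iff_modEq_mul hco).mp
    constructor
    · have := ha1.add hb1
      simpa using this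
    · have := ha2.add hb2
      simpa using this
  · rw [← pow_mul]
    apply orderOf_dvd_iff_pow_eq_one.mp
    rw [← hn, ← hnm, mul_comm a]
    exact Nat.mul_dvd_mul_left _ ((Nat.modEq_zero_iff_dvd).mp ha2)
  · intro hdvd
    have h1 : (g ^ b) ^ m = 1 := by
      rw [← pow_mul]
      apply orderOf_dvd_iff_pow_eq_one.mp
      rw [← hn, ← hnm]
      exact Nat.mul_dvd_mul_right ((Nat.modEq_zero_iff_dvd).mp hb1) _
    exact hpm (hdvd.trans (orderOf_dvd_of_pow_eq_one h1))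

/-- A `p`-subgroup is conjugate into a given Sylow `p`-subgroup. -/
theorem conj_mem_sylow {H : Type u} [Group H] [Finite H] {p : ℕ} [Fact p.Prime]
    (P : Sylow p H) {Z : Subgroup H} (hZ : IsPGroup p Z) :
    ∃ m : H, ∀ z ∈ Z, m * z * m⁻¹ ∈ (P : Subgroup H) := by
  obtain ⟨Q, hQ⟩ := hZ.exists_le_sylow
  obtain ⟨m, hm⟩ := MulAction.exists_smul_eq H Q P
  refine ⟨m, fun z hz => ?_⟩
  have h1 : MulAut.conj m • z ∈ MulAut.conj m • (Q : Subgroup H) :=
    Subgroup.smul_mem_pointwise_smul z (MulAut.conj m) Q (hQ hz)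
  rw [← Sylow.coe_subgroup_smul, hm] at h1
  exact h1

theorem glSing : StGLSing.{u} := by
  intro G _ _ p _ P hP hcen x₁ x₂ hconj g hg
  have hp : p.Prime := Fact.out
  obtain ⟨a, b, c, hab, ha, hb⟩ := pPart_decomp hp g
  have hZ : IsPGroup p (Subgroup.zpowers (g ^ a)) := by
    intro y
    obtain ⟨j, hj⟩ := Subgroup.mem_zpowers_iff.mp y.2
    refine ⟨c, ?_⟩
    apply Subtype.ext
    rw [Subgroup.coe_pow, ← hj, Subgroup.coe_one, ← zpow_natCast, ← zpow_mul, mul_comm, zpow_mul,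
      zpow_natCast, ha, one_zpow]
  obtain ⟨m, hm⟩ := conj_mem_sylow P hZ
  have hx : m * g ^ a * m⁻¹ ∈ (P : Subgroup G) := hm _ (Subgroup.mem_zpowers _)
  have hx1 : m * g ^ a * m⁻¹ ≠ 1 := by
    intro h
    have h2 : g ^ a = 1 := by
      have h3 : g ^ a = m⁻¹ * (m * g ^ a * m⁻¹) * m := by group
      rw [h3, h]
      group
    rw [h2, one_mul] at hab
    rw [hab] at hb
    exact hb hg
  have hcomm : Commute (m * g ^ a * m⁻¹) (m * g ^ b * m⁻¹) := by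
    have h1 : Commute (g ^ a) (g ^ b) := (Commute.refl g).pow_pow a b
    have h2 : g ^ a * g ^ b = g ^ b * g ^ a := h1.eq
    show m * g ^ a * m⁻¹ * (m * g ^ b * m⁻¹) = m * g ^ b * m⁻¹ * (m * g ^ a * m⁻¹)
    calc m * g ^ a * m⁻¹ * (m * g ^ b * m⁻¹) = m * (g ^ a * g ^ b) * m⁻¹ := by group
      _ = m * (g ^ b * g ^ a) * m⁻¹ := by rw [h2]
      _ = m * g ^ b * m⁻¹ * (m * g ^ a * m⁻¹) := by group
  have hy : m * g ^ b * m⁻¹ ∈ Subgroup.centralizer ((P : Subgroup G) : Set G) := by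
    rw [Subgroup.mem_centralizer_iff]
    intro w hw
    have hw' : (⟨w, hw⟩ : (P : Subgroup G)) ∈
        Subgroup.zpowers (⟨m * g ^ a * m⁻¹, hx⟩ : (P : Subgroup G)) := by
      haveI : Fact p.Prime := ⟨hp⟩
      apply mem_zpowers_of_prime_card hP
      intro h
      exact hx1 (congrArg Subtype.val h)
    obtain ⟨j, hj⟩ := Subgroup.mem_zpowers_iff.mp hw'
    have hj' : (m * g ^ a * m⁻¹) ^ j = w := by
      have h := congrArg Subtype.val hj
      simpa using h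
    rw [← hj']
    exact (hcomm.zpow_left j).eq
  have hyord : ¬ p ∣ orderOf (m * g ^ b * m⁻¹) := by
    have h := (MulAut.conj m).orderOf_eq (g ^ b)
    rw [MulAut.conj_apply] at h
    rw [h]
    exact hb
  have hz := hcen _ hy hyord
  have hmg : m * g * m⁻¹ = (m * g ^ a * m⁻¹) * (m * g ^ b * m⁻¹) := by
    calc m * g * m⁻¹ = m * (g ^ a * g ^ b) * m⁻¹ := by rw [hab]
      _ = (m * g ^ a * m⁻¹) * (m * g ^ b * m⁻¹) := by group
  refine ⟨m * g ^ b * m⁻¹, hz, ?_⟩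
  have key : ∀ xi : G, IsConj (m * g ^ a * m⁻¹) xi → IsConj g (xi * (m * g ^ b * m⁻¹)) := by
    intro xi hxi
    obtain ⟨k, hk⟩ := isConj_iff.mp hxi
    rw [isConj_iff]
    refine ⟨k * m, ?_⟩
    have hzc : k⁻¹ * (m * g ^ b * m⁻¹) = (m * g ^ b * m⁻¹) * k⁻¹ :=
      Subgroup.mem_center_iff.mp hz k⁻¹
    calc k * m * g * (k * m)⁻¹ = k * (m * g * m⁻¹) * k⁻¹ := by group
      _ = k * ((m * g ^ a * m⁻¹) * (m * g ^ b * m⁻¹)) * k⁻¹ := by rw [hmg]
      _ = k * (m * g ^ a * m⁻¹) * ((m * g ^ b * m⁻¹) * k⁻¹) := by simp only [mul_assoc]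
      _ = k * (m * g ^ a * m⁻¹) * (k⁻¹ * (m * g ^ b * m⁻¹)) := by rw [hzc]
      _ = k * (m * g ^ a * m⁻¹) * k⁻¹ * (m * g ^ b * m⁻¹) := by simp only [mul_assoc]
      _ = xi * (m * g ^ b * m⁻¹) := by rw [hk]
  rcases hconj _ hx hx1 with h | h
  · exact Or.inl (key x₁ h)
  · exact Or.inr (key x₂ h)

example : StGLSing.{u} := glSing

end Cfsg.Agent.H98.Br
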