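import Mathlib
import Cfsg.Agent.H79.BrDefs
import Cfsg.Agent.H4.IrrCount
import Cfsg.Agent.H82.BL1

set_option autoImplicit false

/-!
Piece S4504-TWORTH of the team project S4504 (helper79): column orthogonality for the characters
over a central character.  The general twisting identity `tw_sum` is also used for S4504-TWCCP.
-/

namespace Cfsg.Agent.H98.Br

open Cfsg Cfsg.Agent.H79.Br
open scoped ComplexConjugate

universe u

/-- The sum of the values of a homomorphism to `ℂˣ` over a finite group. -/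
theorem hom_sum {Z : Type*} [Group Z] [Fintype Z] (μ : Z →* ℂˣ) :
    ∑ z : Z, ((μ z : ℂˣ) : ℂ) = if μ = 1 then (Fintype.card Z : ℂ) else 0 := by
  classical
  split_ifs with h
  · subst h
    simp
  · obtain ⟨z₀, hz₀⟩ : ∃ z₀, μ z₀ ≠ 1 := by
      by_contra hcon
      push Not at hcon
      exact h (MonoidHom.ext hcon)
    have h1 : ∑ z : Z, ((μ z : ℂˣ) : ℂ) = ((μ z₀ : ℂˣ) : ℂ) * ∑ z : Z, ((μ z : ℂˣ) : ℂ) := by
      rw [Finset.mul_sum, ← Equiv.sum_comp (Equiv.mulLeft z₀)]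
      refine Finset.sum_congr rfl fun z _ => ?_
      simp [map_mul]
    have h2 : ((μ z₀ : ℂˣ) : ℂ) ≠ 1 := by
      intro h3
      apply hz₀
      exact Units.ext h3
    have h3 : (1 - ((μ z₀ : ℂˣ) : ℂ)) * ∑ z : Z, ((μ z : ℂˣ) : ℂ) = 0 := by
      rw [sub_mul, one_mul, ← h1, sub_self]
    rcases mul_eq_zero.mp h3 with h4 | h4
    · exact absurd (sub_eq_zero.mp h4).symm h2
    · exact h4

/-- The twisting identity: summing over the centre with the conjugate central character of `χ₀`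
projects onto the characters over `χ₀`. -/
theorem tw_sum {G : Type u} [Group G] [Finite G] (χ₀ : IrrCharacter G) (x : G)
    (Φ : IrrCharacter G → ℂ) :
    (Nat.card (Subgroup.center G) : ℂ) * ∑ᶠ ψ ∈ Ov χ₀.1, ψ.1 x * Φ ψ =
      ∑ᶠ z : Subgroup.center G, conj (χ₀.1 z / χ₀.1 1) *
        ∑ᶠ ψ : IrrCharacter G, ψ.1 ((z : G) * x) * Φ ψ := by
  classical
  letI := Cfsg.Agent.H4.fintypeIrr G
  letI : Fintype (Subgroup.center G) := Fintype.ofFinite _
  have hZ : ∀ z ∈ Subgroup.center G, ∀ g : G, g * z = z * g :=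
    fun z hz g => Subgroup.mem_center_iff.mp hz g
  choose ω hω using fun ψ : IrrCharacter G =>
    Cfsg.Agent.H82.BL.exists_central_hom ψ (Subgroup.center G) hZ
  have h1ne : ∀ ψ : IrrCharacter G, ψ.1 1 ≠ 0 := fun ψ => Cfsg.Agent.H82.irr_one_ne_zero ψ
  have hval : ∀ (ψ : IrrCharacter G) (z : Subgroup.center G),
      ψ.1 (z : G) = ((ω ψ z : ℂˣ) : ℂ) * ψ.1 1 := by
    intro ψ z
    have h := hω ψ z 1
    rwa [mul_one] at h
  have hlam : ∀ z : Subgroup.center G,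
      conj (χ₀.1 z / χ₀.1 1) = (((ω χ₀ z)⁻¹ : ℂˣ) : ℂ) := by
    intro z
    rw [hval χ₀ z, mul_div_assoc, div_self (h1ne χ₀), mul_one]
    have hn : ‖((ω χ₀ z : ℂˣ) : ℂ)‖ = 1 := by
      apply Complex.norm_eq_one_of_pow_eq_one (n := orderOf z) _ (orderOf_pos z).ne'
      rw [← Units.val_pow_eq_pow_val, ← map_pow, pow_orderOf_eq_one, map_one, Units.val_one]
    rw [Units.val_inv_eq_inv_val]
    exact (Complex.inv_eq_conj hn).symm
  have hOv : ∀ ψ : IrrCharacter G, ψ ∈ Ov χ₀.1 ↔ (ω χ₀)⁻¹ * ω ψ = 1 := by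
    intro ψ
    constructor
    · intro h
      apply MonoidHom.ext
      intro z
      have h2 := h z z.2
      rw [hval ψ z, hval χ₀ z] at h2
      have h3 : ((ω ψ z : ℂˣ) : ℂ) = ((ω χ₀ z : ℂˣ) : ℂ) := by
        have h5 : ((ω ψ z : ℂˣ) : ℂ) * (ψ.1 1 * χ₀.1 1) =
            ((ω χ₀ z : ℂˣ) : ℂ) * (ψ.1 1 * χ₀.1 1) := by linear_combination h2
        exact mul_right_cancel₀ (mul_ne_zero (h1ne ψ) (h1ne χ₀)) h5
      have h4 : ω ψ z = ω χ₀ z := Units.ext h3
      simp [h4]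
    · intro h z hz
      have h2 : ω ψ ⟨z, hz⟩ = ω χ₀ ⟨z, hz⟩ := by
        have h3 := congrArg (fun μ : Subgroup.center G →* ℂˣ => μ ⟨z, hz⟩) h
        simp only [MonoidHom.mul_apply, MonoidHom.inv_apply, MonoidHom.one_apply] at h3
        exact (inv_mul_eq_one.mp h3).symm
      have e1 := hval ψ ⟨z, hz⟩
      have e2 := hval χ₀ ⟨z, hz⟩
      simp only at e1 e2
      rw [e1, e2, h2]
      ring
  rw [finsum_mem_def, finsum_eq_sum_of_fintype, finsum_eq_sum_of_fintype]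
  have hR : ∀ z : Subgroup.center G,
      conj (χ₀.1 z / χ₀.1 1) * ∑ᶠ ψ : IrrCharacter G, ψ.1 ((z : G) * x) * Φ ψ =
        ∑ ψ : IrrCharacter G, ((((ω χ₀)⁻¹ * ω ψ) z : ℂˣ) : ℂ) * (ψ.1 x * Φ ψ) := by
    intro z
    rw [finsum_eq_sum_of_fintype, hlam, Finset.mul_sum]
    refine Finset.sum_congr rfl fun ψ _ => ?_
    rw [hω ψ z x]
    simp only [MonoidHom.mul_apply, MonoidHom.inv_apply, Units.val_mul]
    ring
  rw [Finset.sum_congr rfl (fun z _ => hR z), Finset.sum_comm, Finset.mul_sum]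
  refine Finset.sum_congr rfl fun ψ _ => ?_
  rw [← Finset.sum_mul, hom_sum, Set.indicator_apply]
  by_cases hψ : ψ ∈ Ov χ₀.1
  · rw [if_pos hψ, if_pos ((hOv ψ).mp hψ), Nat.card_eq_fintype_card]
  · rw [if_neg hψ, if_neg (fun h => hψ ((hOv ψ).mpr h))]
    simp

theorem twOrth : StTwOrth.{u} := by
  intro G _ _ χ₀ g h
  classical
  letI : Fintype G := Fintype.ofFinite G
  rw [tw_sum χ₀ g (fun ψ => conj (ψ.1 h))]
  refine finsum_congr fun z => ?_
  rw [Cfsg.Agent.H4.column_orthogonality ((z : G) * g) h]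

example : StTwOrth.{u} := twOrth

end Cfsg.Agent.H98.Br
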