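import Mathlib
import Cfsg.Agent.H79.BrDefs
import Cfsg.Agent.H98.BrTwOrth
import Cfsg.Agent.H82.P1J

set_option autoImplicit false

/-!
Piece S4504-TWCCP of the team project S4504 (helper79): the class multiplication constants over
the trivial central character dominate those over any central character.
-/

namespace Cfsg.Agent.H98.Br

open Cfsg Cfsg.Agent.H79.Br
open scoped ComplexConjugate

universe u

/-- The central character has absolute value one. -/
theorem lam_norm {G : Type u} [Group G] [Finite G] (χ₀ : IrrCharacter G)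
    (z : Subgroup.center G) : ‖conj (χ₀.1 z / χ₀.1 1)‖ = 1 := by
  have hZ : ∀ z ∈ Subgroup.center G, ∀ g : G, g * z = z * g :=
    fun z hz g => Subgroup.mem_center_iff.mp hz g
  obtain ⟨ω, hω⟩ := Cfsg.Agent.H82.BL.exists_central_hom χ₀ (Subgroup.center G) hZ
  have h := hω z 1
  rw [mul_one] at h
  rw [h, mul_div_assoc, div_self (Cfsg.Agent.H82.irr_one_ne_zero χ₀), mul_one, RCLike.norm_conj]
  apply Complex.norm_eq_one_of_pow_eq_one (n := orderOf z) _ (orderOf_pos z).ne'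
  rw [← Units.val_pow_eq_pow_val, ← map_pow, pow_orderOf_eq_one, map_one, Units.val_one]

/-- The twisted class constants as a sum over the centre of counting numbers. -/
theorem tw_ccp_eq (hC : StCCP.{u}) {G : Type u} [Group G] [Finite G] (χ₀ : IrrCharacter G)
    (x x' y : G) :
    (Nat.card (Subgroup.center G) : ℂ) *
        ∑ᶠ ψ ∈ Ov χ₀.1, ψ.1 x * ψ.1 x' * conj (ψ.1 y) / ψ.1 1 =
      ∑ᶠ z : Subgroup.center G, conj (χ₀.1 z / χ₀.1 1) *
        ((Nat.card {ab : G × G //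
            ab.1 * ((z : G) * x) * ab.1⁻¹ * (ab.2 * x' * ab.2⁻¹) = y} : ℂ) /
          (Nat.card G : ℂ)) := by
  have h1 : ∑ᶠ ψ ∈ Ov χ₀.1, ψ.1 x * ψ.1 x' * conj (ψ.1 y) / ψ.1 1 =
      ∑ᶠ ψ ∈ Ov χ₀.1, ψ.1 x * (ψ.1 x' * conj (ψ.1 y) / ψ.1 1) :=
    finsum_mem_congr rfl (fun ψ _ => by ring)
  rw [h1, tw_sum χ₀ x (fun ψ => ψ.1 x' * conj (ψ.1 y) / ψ.1 1)]
  refine finsum_congr fun z => ?_
  congr 1
  have h2 := hC ((z : G) * x) x' y
  have hG : (Nat.card G : ℂ) ≠ 0 := by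
    have : 0 < Nat.card G := Nat.card_pos
    exact_mod_cast this.ne'
  rw [h2, mul_div_cancel_left₀ _ hG]
  exact finsum_congr fun ψ => by ring

theorem twCCP (hC : StCCP.{u}) : StTwCCP.{u} := by
  intro G _ _ χ₀ x x' y
  classical
  letI : Fintype (Subgroup.center G) := Fintype.ofFinite _
  have hZ0 : (0 : ℝ) < (Nat.card (Subgroup.center G) : ℝ) := by
    have : 0 < Nat.card (Subgroup.center G) := Nat.card_pos
    exact_mod_cast this
  obtain ⟨a, ha⟩ : ∃ a : Subgroup.center G → ℝ, a = fun z : Subgroup.center G =>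
      (Nat.card {ab : G × G //
        ab.1 * ((z : G) * x) * ab.1⁻¹ * (ab.2 * x' * ab.2⁻¹) = y} : ℝ) / (Nat.card G : ℝ) :=
    ⟨_, rfl⟩
  have e1 := tw_ccp_eq hC (⟨1, Cfsg.Agent.H82.P1.isIrr_one_fun G⟩ : IrrCharacter G) x x' y
  have e0 := tw_ccp_eq hC χ₀ x x' y
  have hcast : ∀ z : Subgroup.center G,
      ((Nat.card {ab : G × G //
        ab.1 * ((z : G) * x) * ab.1⁻¹ * (ab.2 * x' * ab.2⁻¹) = y} : ℂ) / (Nat.card G : ℂ)) =
        ((a z : ℝ) : ℂ) := by
    intro z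
    rw [ha]
    push_cast
    rfl
  have hS1 : ∑ᶠ ψ ∈ Ov (1 : G → ℂ), ψ.1 x * ψ.1 x' * conj (ψ.1 y) / ψ.1 1 =
      (((∑ z, a z) / (Nat.card (Subgroup.center G) : ℝ) : ℝ) : ℂ) := by
    have e1' : (Nat.card (Subgroup.center G) : ℂ) *
        ∑ᶠ ψ ∈ Ov (1 : G → ℂ), ψ.1 x * ψ.1 x' * conj (ψ.1 y) / ψ.1 1 =
          ((∑ z, a z : ℝ) : ℂ) := by
      rw [Complex.ofReal_sum]
      refine e1.trans ?_
      rw [finsum_eq_sum_of_fintype]
      refine Finset.sum_congr rfl fun z _ => ?_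
      rw [hcast z]
      simp
    have hZc : (Nat.card (Subgroup.center G) : ℂ) ≠ 0 := by
      have : 0 < Nat.card (Subgroup.center G) := Nat.card_pos
      exact_mod_cast this.ne'
    rw [Complex.ofReal_div, Complex.ofReal_natCast, eq_div_iff hZc, mul_comm]
    exact e1'
  constructor
  · rw [hS1]
    exact Complex.ofReal_im _
  · rw [hS1, Complex.ofReal_re]
    have e0' : ‖(Nat.card (Subgroup.center G) : ℂ) *
        ∑ᶠ ψ ∈ Ov χ₀.1, ψ.1 x * ψ.1 x' * conj (ψ.1 y) / ψ.1 1‖ ≤ ∑ z, a z := by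
      rw [e0, finsum_eq_sum_of_fintype]
      refine (norm_sum_le _ _).trans (Finset.sum_le_sum fun z _ => ?_)
      rw [norm_mul, lam_norm, one_mul, hcast z, Complex.norm_real, Real.norm_eq_abs]
      apply le_of_eq
      apply abs_of_nonneg
      rw [ha]
      positivity
    rw [norm_mul, Complex.norm_natCast] at e0'
    rw [le_div_iff₀ hZ0, mul_comm]
    exact e0'

example (hC : StCCP.{u}) : StTwCCP.{u} := twCCP hC

end Cfsg.Agent.H98.Br
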