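import Mathlib
import Cfsg.Agent.H86.NdDefs
import Cfsg.Agent.H53.Ev2ExJPlus
import Cfsg.Agent.H49.Basic

/-!
# ND-UEX1 (helper98, for helper86, S5989 / S5991)

Plus space: the isometry `x = [[1, S], [0, 1]]`, `S` the alternating monomial matrix pairing
`2 j` with `2 j + 1` (zero on an unpaired last index).  `(x - 1)² = 0` and `rank (x - 1)` is the
number of paired indices: `d` for `d` even (Jordan type `(2^d)`), `d - 1` for `d` odd.
-/

set_option autoImplicit false
open scoped Matrix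

namespace Cfsg.Agent.H98.Nd

open Cfsg.Agent.H86.Nd Cfsg.Agent.H53.Ev2

universe u

theorem tw_val' (d : ℕ) (i : Fin d) : (tw d i).val =
    if i.val % 2 = 0 then (if i.val + 1 < d then i.val + 1 else i.val) else i.val - 1 := by
  unfold tw
  by_cases h : i.val % 2 = 0
  · rw [if_pos h, if_pos h]
    by_cases h' : i.val + 1 < d
    · rw [dif_pos h', if_pos h']
    · rw [dif_neg h', if_neg h']
  · rw [if_neg h, if_neg h]

theorem tw_invol (d : ℕ) (i : Fin d) : tw d (tw d i) = i := by
  apply Fin.ext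
  rw [tw_val', tw_val']
  have := i.isLt
  split_ifs <;> omega

variable {F : Type u} [Field F]

/-- The coefficients of the alternating monomial matrix. -/
def uc (F : Type u) [Field F] (d : ℕ) (i : Fin d) : F :=
  if tw d i = i then 0 else (if i.val % 2 = 0 then 1 else -1)

theorem uc_ne_zero (d : ℕ) (i : Fin d) (h : tw d i ≠ i) : uc F d i ≠ 0 := by
  unfold uc
  rw [if_neg h]
  split_ifs
  · exact one_ne_zero
  · exact neg_ne_zero.mpr one_ne_zero

theorem uc_tw (d : ℕ) (i : Fin d) : uc F d (tw d i) = -uc F d i := by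
  unfold uc
  rw [tw_invol]
  by_cases h : tw d i = i
  · rw [if_pos h.symm, if_pos h, neg_zero]
  · rw [if_neg (fun e => h e.symm), if_neg h]
    have hv := tw_val' d i
    have hne : (tw d i).val ≠ i.val := fun e => h (Fin.ext e)
    by_cases hi : i.val % 2 = 0
    · have h1 : ¬ (tw d i).val % 2 = 0 := by
        rw [if_pos hi] at hv
        split_ifs at hv <;> omega
      rw [if_neg h1, if_pos hi]
    · have h1 : (tw d i).val % 2 = 0 := by
        rw [if_neg hi] at hv
        omega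
      rw [if_pos h1, if_neg hi, neg_neg]

/-- The nilpotent matrix `[[0, S], [0, 0]]`. -/
def uN (F : Type u) [Field F] (d : ℕ) : Matrix (Fin d ⊕ Fin d) (Fin d ⊕ Fin d) F :=
  Matrix.of fun p q => Sum.elim
    (fun i => Sum.elim (fun _ => (0 : F)) (fun j => if j = tw d i then uc F d i else 0) q)
    (fun _ => 0) p

theorem uN_mulVec_inl (d : ℕ) (u : Fin d ⊕ Fin d → F) (i : Fin d) :
    (uN F d *ᵥ u) (Sum.inl i) = uc F d i * u (Sum.inr (tw d i)) := by
  simp [uN, Matrix.mulVec, dotProduct, Fintype.sum_sum_type]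

theorem uN_mulVec_inr (d : ℕ) (u : Fin d ⊕ Fin d → F) (i : Fin d) :
    (uN F d *ᵥ u) (Sum.inr i) = 0 := by
  simp [uN, Matrix.mulVec, dotProduct]

theorem uN_sq (d : ℕ) : uN F d * uN F d = 0 := by
  apply Matrix.toLin'.injective
  apply LinearMap.ext
  intro u
  rw [Matrix.toLin'_apply, ← Matrix.mulVec_mulVec, map_zero, LinearMap.zero_apply]
  funext p
  rcases p with i | i
  · rw [uN_mulVec_inl, uN_mulVec_inr, mul_zero, Pi.zero_apply]
  · rw [uN_mulVec_inr, Pi.zero_apply]

/-- The unipotent isometry `1 + N`. -/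
def uX (F : Type u) [Field F] (d : ℕ) : Matrix.GeneralLinearGroup (Fin d ⊕ Fin d) F :=
  ⟨1 + uN F d, 1 - uN F d,
    by
      have h : (1 + uN F d) * (1 - uN F d) = 1 - uN F d * uN F d := by noncomm_ring
      rw [h, uN_sq, sub_zero],
    by
      have h : (1 - uN F d) * (1 + uN F d) = 1 - uN F d * uN F d := by noncomm_ring
      rw [h, uN_sq, sub_zero]⟩

theorem uX_val (d : ℕ) :
    ((uX F d : Matrix.GeneralLinearGroup (Fin d ⊕ Fin d) F) :
      Matrix (Fin d ⊕ Fin d) (Fin d ⊕ Fin d) F) = 1 + uN F d := rfl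

theorem uX_quad (d : ℕ) (u : Fin d ⊕ Fin d → F) :
    Cfsg.quadFormPlus d F ((1 + uN F d) *ᵥ u) = Cfsg.quadFormPlus d F u := by
  unfold Cfsg.quadFormPlus
  simp only [Matrix.add_mulVec, Matrix.one_mulVec, Pi.add_apply, uN_mulVec_inl, uN_mulVec_inr,
    add_zero]
  have h0 : ∑ i : Fin d, uc F d i * u (Sum.inr (tw d i)) * u (Sum.inr i) = 0 := by
    apply Finset.sum_involution (fun i _ => tw d i)
    · intro i _
      rw [uc_tw, tw_invol]
      ring
    · intro i _ hne heq
      apply hne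
      unfold uc
      rw [if_pos heq]
      ring
    · intro i _
      exact Finset.mem_univ _
    · intro i _
      exact tw_invol d i
  calc ∑ i : Fin d, (u (Sum.inl i) + uc F d i * u (Sum.inr (tw d i))) * u (Sum.inr i)
      = ∑ i : Fin d, u (Sum.inl i) * u (Sum.inr i) +
          ∑ i : Fin d, uc F d i * u (Sum.inr (tw d i)) * u (Sum.inr i) := by
        rw [← Finset.sum_add_distrib]
        exact Finset.sum_congr rfl (fun i _ => by ring)
    _ = ∑ i : Fin d, u (Sum.inl i) * u (Sum.inr i) := by rw [h0, add_zero]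

theorem uX_mem (d : ℕ) : uX F d ∈ Cfsg.isometryGroup F (Cfsg.quadFormPlus d F) :=
  Cfsg.Agent.H49.mem_isometryGroup_iff.mpr (fun u => uX_quad d u)

theorem uX_sub_one (d : ℕ) :
    Matrix.toLin' ((uX F d : Matrix.GeneralLinearGroup (Fin d ⊕ Fin d) F) :
      Matrix (Fin d ⊕ Fin d) (Fin d ⊕ Fin d) F) - 1 = Matrix.toLin' (uN F d) := by
  rw [uX_val, map_add, Matrix.toLin'_one]
  exact add_sub_cancel_left _ _

theorem uX_sq (d : ℕ) :
    (Matrix.toLin' ((uX F d : Matrix.GeneralLinearGroup (Fin d ⊕ Fin d) F) :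
      Matrix (Fin d ⊕ Fin d) (Fin d ⊕ Fin d) F) - 1) *
    (Matrix.toLin' ((uX F d : Matrix.GeneralLinearGroup (Fin d ⊕ Fin d) F) :
      Matrix (Fin d ⊕ Fin d) (Fin d ⊕ Fin d) F) - 1) = 0 := by
  rw [uX_sub_one, Module.End.mul_eq_comp, ← Matrix.toLin'_mul, uN_sq, map_zero]

theorem uN_ker (d : ℕ) : LinearMap.ker (Matrix.toLin' (uN F d)) =
    LinearMap.ker (LinearMap.funLeft F F
      (fun j : {j : Fin d // tw d j ≠ j} => (Sum.inr j.1 : Fin d ⊕ Fin d))) := by
  ext u
  rw [LinearMap.mem_ker, LinearMap.mem_ker, Matrix.toLin'_apply]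
  constructor
  · intro h
    funext j
    rw [LinearMap.funLeft_apply, Pi.zero_apply]
    have h1 := congrFun h (Sum.inl (tw d j.1))
    rw [uN_mulVec_inl, tw_invol, Pi.zero_apply] at h1
    have hc : uc F d (tw d j.1) ≠ 0 := by
      rw [uc_tw, neg_ne_zero]
      exact uc_ne_zero d j.1 j.2
    exact (mul_eq_zero.mp h1).resolve_left hc
  · intro h
    funext p
    rcases p with i | i
    · rw [uN_mulVec_inl, Pi.zero_apply]
      by_cases hi : tw d i = i
      · unfold uc
        rw [if_pos hi, zero_mul]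
      · have h1 := congrFun h ⟨tw d i, by rw [tw_invol]; exact fun e => hi e.symm⟩
        rw [LinearMap.funLeft_apply, Pi.zero_apply] at h1
        rw [h1, mul_zero]
    · rw [uN_mulVec_inr, Pi.zero_apply]

theorem uN_finrank (d : ℕ) :
    Module.finrank F ↥(LinearMap.range (Matrix.toLin' (uN F d))) =
      Fintype.card {j : Fin d // tw d j ≠ j} := by
  have h1 := LinearMap.finrank_range_add_finrank_ker (Matrix.toLin' (uN F d))
  have h2 := LinearMap.finrank_range_add_finrank_ker (LinearMap.funLeft F F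
    (fun j : {j : Fin d // tw d j ≠ j} => (Sum.inr j.1 : Fin d ⊕ Fin d)))
  rw [uN_ker] at h1
  have h3 : LinearMap.range (LinearMap.funLeft F F
      (fun j : {j : Fin d // tw d j ≠ j} => (Sum.inr j.1 : Fin d ⊕ Fin d))) = ⊤ := by
    rw [LinearMap.range_eq_top]
    intro w
    refine ⟨fun p => Sum.elim (fun _ => 0)
      (fun j => if h : tw d j ≠ j then w ⟨j, h⟩ else 0) p, ?_⟩
    funext j
    rw [LinearMap.funLeft_apply]
    show (if h : tw d j.1 ≠ j.1 then w ⟨j.1, h⟩ else 0) = w j
    rw [dif_pos j.2]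
  rw [h3, finrank_top, Module.finrank_fintype_fun_eq_card] at h2
  omega

/-- **ND-UEX1**. -/
theorem uex1 : StUex1.{u} := by
  intro F _ d hd hd2
  refine ⟨uX F d, uX_mem d, uX_sq d, ?_⟩
  rw [uX_sub_one, uN_finrank]
  have hall : ∀ j : Fin d, tw d j ≠ j := by
    intro j h
    have hv := tw_val' d j
    rw [h] at hv
    have := j.isLt
    obtain ⟨t, ht⟩ := hd
    split_ifs at hv <;> omega
  rw [Fintype.card_congr (Equiv.subtypeUnivEquiv hall), Fintype.card_fin]

example : Cfsg.Agent.H86.Nd.StUex1.{u} := uex1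

end Cfsg.Agent.H98.Nd

#print axioms Cfsg.Agent.H98.Nd.uex1
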