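import Mathlib
import Cfsg.Agent.H98.NdUex1

/-!
# ND-UEX2 (helper98, for helper86, S5989 / S5991)

Plus space, `d` odd: the isometry `x = [[1, S], [0, 1]]` of `Cfsg.Agent.H98.Nd.uX` has Jordan
type `(1, 1, 2^(d-1))`: `(x - 1)² = 0` and `rank (x - 1) = d - 1` (the last index is unpaired).
-/

set_option autoImplicit false
open scoped Matrix

namespace Cfsg.Agent.H98.Nd

open Cfsg.Agent.H86.Nd Cfsg.Agent.H53.Ev2

universe u

/-- **ND-UEX2**. -/
theorem uex2 : StUex2.{u} := by
  intro F _ d hd hd3
  refine ⟨uX F d, uX_mem d, uX_sq d, ?_⟩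
  rw [uX_sub_one, uN_finrank]
  have hiff : ∀ j : Fin d, tw d j = j ↔ j = ⟨d - 1, by omega⟩ := by
    intro j
    have hv := tw_val' d j
    have := j.isLt
    obtain ⟨t, ht⟩ := hd
    constructor
    · intro h
      rw [h] at hv
      apply Fin.ext
      show j.val = d - 1
      split_ifs at hv <;> omega
    · intro h
      apply Fin.ext
      have hj : j.val = d - 1 := congrArg Fin.val h
      rw [hv, if_pos (by omega), if_neg (by omega)]
  have h1 : Fintype.card {j : Fin d // tw d j = j} = 1 := by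
    rw [Fintype.card_congr (Equiv.subtypeEquivRight hiff), Fintype.card_subtype_eq]
  have h2 := Fintype.card_subtype_compl (fun j : Fin d => tw d j = j)
  rw [h1, Fintype.card_fin] at h2
  have h3 : Fintype.card {j : Fin d // tw d j ≠ j} = d - 1 := h2
  rw [h3]
  omega

example : Cfsg.Agent.H86.Nd.StUex2.{u} := uex2

end Cfsg.Agent.H98.Nd

#print axioms Cfsg.Agent.H98.Nd.uex2
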