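import Mathlib
import Cfsg.Agent.H86.NdDefs
import Cfsg.Agent.H36.TqSq

/-!
# ND-UNIOMEGA (helper98, for helper86, S5989 / S5991)

A unipotent isometry `x ≠ 1` with `(x - 1) ^ 3 = 0`, `p` odd, lies in `Ω`, has order `p` and is
not scalar: `x ^ p = (1 + (x - 1)) ^ p = 1 + (x - 1) ^ p = 1`, and isometries of odd order lie in
`Ω` (helper36's S5978-ODDMEM).
-/

set_option autoImplicit false

namespace Cfsg.Agent.H98.Nd

open Cfsg.Agent.H86.Nd

universe u

/-- **ND-UNIOMEGA**. -/
theorem uniOmega : StUniOmega.{u} := by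
  intro F _ _ p _ _ ι _ _ Q hp2 hnd x hx hM3 hx1
  classical
  have hpr : p.Prime := Fact.out
  have h2 : (2 : F) ≠ 0 := by
    intro h0
    have h1 : ((2 : ℕ) : F) = 0 := by exact_mod_cast h0
    have h3 := (CharP.cast_eq_zero_iff F p 2).mp h1
    exact hp2 ((Nat.prime_dvd_prime_iff_eq hpr Nat.prime_two).mp h3)
  have hQ : (QuadraticMap.polarBilin Q).Nondegenerate := by
    constructor
    · intro v hv
      exact hnd v hv
    · intro v hv
      apply hnd v
      intro y
      rw [QuadraticMap.polar_comm]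
      exact hv y
  have hne : Nonempty ι := by
    by_contra hemp
    rw [not_nonempty_iff] at hemp
    apply hx1
    apply Units.ext
    ext i j
    exact (hemp.false i).elim
  obtain ⟨X, hX⟩ : ∃ X : Matrix ι ι F, X = (x : Matrix ι ι F) := ⟨_, rfl⟩
  have hM : (X - 1) ^ 3 = 0 := by
    apply (Matrix.toLinAlgEquiv' (R := F) (n := ι)).injective
    rw [map_pow, map_sub, map_one, map_zero, hX]
    exact hM3
  have hXp : X ^ p = 1 := by
    have h1 : X = 1 + (X - 1) := by abel
    have hc : Commute (1 : Matrix ι ι F) (X - 1) := Commute.one_left _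
    have h3 : (X - 1) ^ p = 0 := by
      have hp3 : 3 ≤ p := by
        have := hpr.two_le
        omega
      obtain ⟨t, rfl⟩ := Nat.exists_eq_add_of_le hp3
      rw [pow_add, hM, zero_mul]
    rw [h1, add_pow_char_of_commute p hc, one_pow, h3, add_zero]
  have hxp : x ^ p = 1 := by
    apply Units.ext
    rw [Units.val_pow_eq_pow_val, ← hX, hXp]
    rfl
  refine ⟨Cfsg.Agent.H36.Tq.oddMem F ι Q h2 hQ x p hx (hpr.odd_of_ne_two hp2) hxp, hxp, ?_⟩
  intro z hz
  rw [← hX] at hz
  have h5 : (X - 1) ^ 3 = ((z - 1) ^ 3) • (1 : Matrix ι ι F) := by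
    rw [hz]
    have h6 : z • (1 : Matrix ι ι F) - 1 = (z - 1) • (1 : Matrix ι ι F) := by
      rw [sub_smul, one_smul]
    rw [h6, smul_pow, one_pow]
  rw [hM] at h5
  obtain ⟨i⟩ := hne
  have h6 := congrFun (congrFun h5 i) i
  rw [Matrix.zero_apply, Matrix.smul_apply, Matrix.one_apply_eq, smul_eq_mul, mul_one] at h6
  have hz1 : z = 1 := sub_eq_zero.mp (pow_eq_zero_iff (by norm_num : (3 : ℕ) ≠ 0) |>.mp h6.symm)
  apply hx1
  apply Units.ext
  rw [← hX, hz, hz1, one_smul]
  rfl

example : Cfsg.Agent.H86.Nd.StUniOmega.{u} := uniOmega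

end Cfsg.Agent.H98.Nd

#print axioms Cfsg.Agent.H98.Nd.uniOmega
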