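import Mathlib

/-!
# S0460 team project (helper94): pieces A2 and B (Mathlib only)
-/

set_option autoImplicit false

namespace Cfsg.Agent.H98.ONan

theorem zpowers_prime_data {G : Type*} [Group G] (g : G) (p : ℕ) (hp : p.Prime) (hg : g ^ p = 1)
    (hg1 : g ≠ 1) : Nat.card (Subgroup.zpowers g) = p ∧
      ∀ n ∈ Subgroup.zpowers g, n ≠ 1 → ∀ N : Subgroup G, n ∈ N → g ∈ N := by
  have : Fact p.Prime := ⟨hp⟩
  have ho : orderOf g = p := orderOf_eq_prime hg hg1
  refine ⟨by rw [Nat.card_zpowers, ho], ?_⟩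
  intro n hn hn1 N hnN
  obtain ⟨k, rfl⟩ := Subgroup.mem_zpowers_iff.mp hn
  have hndvd : ¬ (p : ℤ) ∣ k := by
    intro hdvd
    apply hn1
    rw [← ho] at hdvd
    exact (orderOf_dvd_iff_zpow_eq_one).mp hdvd
  have hcop : IsCoprime (p : ℤ) k :=
    (Nat.prime_iff_prime_int.mp hp).coprime_iff_not_dvd.mpr hndvd
  obtain ⟨a, b, hab⟩ := hcop
  have e : g = (g ^ k) ^ b := by
    have h1 : g ^ (a * (p : ℤ) + b * k) = g := by rw [hab, zpow_one]
    rw [zpow_add, zpow_mul', zpow_natCast, hg, one_zpow, one_mul, zpow_mul'] at h1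
    exact h1.symm
  rw [e]
  exact N.zpow_mem hnN b

theorem exists_subgroup_of_list {G : Type*} [Group G] [Finite G] (L : List G) (hnd : L.Nodup)
    (h1 : (1 : G) ∈ L) (hmul : ∀ x ∈ L, ∀ y ∈ L, x * y ∈ L) :
    ∃ P : Subgroup G, Nat.card P = L.length ∧ ∀ x, x ∈ P ↔ x ∈ L := by
  classical
  have hpow : ∀ x ∈ L, ∀ n : ℕ, x ^ n ∈ L := by
    intro x hx n
    induction n with
    | zero => rw [pow_zero]; exact h1
    | succ n ih => rw [pow_succ]; exact hmul _ ih _ hx
  have hinv : ∀ x ∈ L, x⁻¹ ∈ L := by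
    intro x hx
    have e : x⁻¹ = x ^ (orderOf x - 1) := by
      apply inv_eq_of_mul_eq_one_right
      rw [← pow_succ', Nat.sub_add_cancel (orderOf_pos x), pow_orderOf_eq_one]
    rw [e]
    exact hpow x hx _
  let P : Subgroup G :=
    { carrier := {x | x ∈ L}
      mul_mem' := fun {a b} ha hb => hmul a ha b hb
      one_mem' := h1
      inv_mem' := fun {a} ha => hinv a ha }
  refine ⟨P, ?_, fun x => Iff.rfl⟩
  have hset : (P : Set G) = ((L.toFinset : Finset G) : Set G) := by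
    ext x
    simp [P]
  have hc : Nat.card P = Nat.card ((P : Set G)) := rfl
  rw [hc, hset, Nat.card_coe_set_eq, Set.ncard_coe_finset, List.toFinset_card_of_nodup hnd]

end Cfsg.Agent.H98.ONan
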