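import Mathlib
import Cfsg.Agent.H95.FlagDefs

set_option autoImplicit false

/-!
# Piece S2423-YD (helper98, for helper95): Young double cosets are determined by the counts.
-/

namespace Cfsg.Agent.H98.Flag

open Cfsg.Agent.H95.Flag

/-- The number of `j` with `a (σ j) = s` and `b j ≤ t`. -/
def bInv {n : ℕ} (a b : Fin n → ℕ) (σ : Equiv.Perm (Fin n)) (s t : ℕ) : ℕ :=
  (Finset.univ.filter fun j : Fin n => a (σ j) = s ∧ b j ≤ t).card

/-- The number of `j` with `a (σ j) = s` and `b j = t`. -/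
def mInv {n : ℕ} (a b : Fin n → ℕ) (σ : Equiv.Perm (Fin n)) (s t : ℕ) : ℕ :=
  (Finset.univ.filter fun j : Fin n => a (σ j) = s ∧ b j = t).card

theorem cntInv_eq_add {n : ℕ} (a b : Fin n → ℕ) (σ : Equiv.Perm (Fin n)) (s t : ℕ) :
    cntInv a b σ s t = bInv a b σ s t + cntInv a b σ (s + 1) t := by
  unfold cntInv bInv
  rw [← Finset.card_union_of_disjoint]
  · congr 1
    ext j
    simp only [Finset.mem_filter, Finset.mem_univ, true_and, Finset.mem_union]
    omega
  · rw [Finset.disjoint_filter]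
    intro j _ h1 h2
    omega

theorem bInv_succ {n : ℕ} (a b : Fin n → ℕ) (σ : Equiv.Perm (Fin n)) (s t : ℕ) :
    bInv a b σ s (t + 1) = mInv a b σ s (t + 1) + bInv a b σ s t := by
  unfold mInv bInv
  rw [← Finset.card_union_of_disjoint]
  · congr 1
    ext j
    simp only [Finset.mem_filter, Finset.mem_univ, true_and, Finset.mem_union]
    omega
  · rw [Finset.disjoint_filter]
    intro j _ h1 h2
    omega

theorem bInv_zero {n : ℕ} (a b : Fin n → ℕ) (σ : Equiv.Perm (Fin n)) (s : ℕ) :
    bInv a b σ s 0 = mInv a b σ s 0 := by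
  unfold mInv bInv
  congr 1
  ext j
  simp only [Finset.mem_filter, Finset.mem_univ, true_and]
  omega

theorem mInv_eq_of_cntInv_eq {n : ℕ} (a b : Fin n → ℕ) (σ τ : Equiv.Perm (Fin n))
    (h : cntInv a b σ = cntInv a b τ) (s t : ℕ) : mInv a b σ s t = mInv a b τ s t := by
  have hB : ∀ s t, bInv a b σ s t = bInv a b τ s t := by
    intro s t
    have h1 := cntInv_eq_add a b σ s t
    have h2 := cntInv_eq_add a b τ s t
    rw [h] at h1
    omega
  cases t with
  | zero => rw [← bInv_zero, ← bInv_zero, hB]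
  | succ t =>
    have h1 := bInv_succ a b σ s t
    have h2 := bInv_succ a b τ s t
    rw [hB s (t + 1), hB s t] at h1
    omega

/-- piece S2423-YD. -/
theorem cntInv_eq_iff {n : ℕ} (a b : Fin n → ℕ) (σ τ : Equiv.Perm (Fin n)) :
    cntInv a b σ = cntInv a b τ ↔
      ∃ α β : Equiv.Perm (Fin n), (∀ i, a (α i) = a i) ∧ (∀ i, b (β i) = b i) ∧ τ = α * σ * β := by
  constructor
  · intro h
    have hm := mInv_eq_of_cntInv_eq a b σ τ h
    have hfib : ∀ c : ℕ × ℕ, Nonempty ({j : Fin n // (a (τ j), b j) = c} ≃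
        {j : Fin n // (a (σ j), b j) = c}) := by
      rintro ⟨s, t⟩
      apply Fintype.card_eq.mp
      rw [Fintype.card_subtype, Fintype.card_subtype]
      have := hm s t
      unfold mInv at this
      simp only [Prod.mk.injEq]
      exact this.symm
    let e : ∀ c : ℕ × ℕ, {j : Fin n // (a (τ j), b j) = c} ≃
        {j : Fin n // (a (σ j), b j) = c} := fun c => (hfib c).some
    let β : Equiv.Perm (Fin n) := Equiv.ofFiberEquiv e
    have hβ : ∀ j, (a (σ (β j)), b (β j)) = (a (τ j), b j) := fun j =>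
      Equiv.ofFiberEquiv_map e j
    refine ⟨τ * β⁻¹ * σ⁻¹, β, ?_, ?_, ?_⟩
    · intro i
      have := hβ (β⁻¹ (σ⁻¹ i))
      rw [Equiv.Perm.inv_def β, Equiv.apply_symm_apply, Equiv.Perm.inv_def σ,
        Equiv.apply_symm_apply] at this
      simp only [Equiv.Perm.coe_mul, Function.comp_apply, Equiv.Perm.inv_def]
      exact (Prod.mk.inj this).1.symm
    · intro j
      exact (Prod.mk.inj (hβ j)).2
    · group
  · rintro ⟨α, β, hα, hβ, rfl⟩
    funext s t
    unfold cntInv
    symm
    apply Finset.card_equiv β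
    intro j
    simp only [Finset.mem_filter, Finset.mem_univ, true_and, Equiv.Perm.coe_mul,
      Function.comp_apply, hα, hβ]

end Cfsg.Agent.H98.Flag
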