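import Mathlib
import Cfsg.Agent.H95.FlagDefs
import Cfsg.Agent.H98.FlagYD
import Cfsg.Agent.H61.Parabolic

set_option autoImplicit false

/-!
# Piece S2422-C1 (helper98, for helper95): Young double cosets and matrices with margins.
-/

namespace Cfsg.Agent.H98.Flag

open Cfsg.Agent.H95.Flag

/-- Two maps with the same kernel have ranges of the same cardinality. -/
theorem card_range_eq_of_ker {X Y Z : Type*} (f : X → Y) (g : X → Z)
    (h : ∀ x y, f x = f y ↔ g x = g y) : Nat.card (Set.range f) = Nat.card (Set.range g) := by
  have hk : Setoid.ker f = Setoid.ker g := Setoid.ext fun x y => h x y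
  have e1 := Setoid.quotientKerEquivRange f
  have e2 := Setoid.quotientKerEquivRange g
  rw [hk] at e1
  exact Nat.card_congr (e1.symm.trans e2)

/-- Equal fibre cardinalities give an equivalence over the base. -/
theorem exists_equiv_of_card_fiber {X Y C : Type*} [Fintype X] [Fintype Y] [DecidableEq C]
    (f : X → C) (g : Y → C)
    (h : ∀ c, Fintype.card {x // f x = c} = Fintype.card {y // g y = c}) :
    ∃ e : X ≃ Y, ∀ x, g (e x) = f x := by
  have hfib : ∀ c, Nonempty ({x // f x = c} ≃ {y // g y = c}) :=
    fun c => Fintype.card_eq.mp (h c)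
  exact ⟨Equiv.ofFiberEquiv (fun c => (hfib c).some), fun x => Equiv.ofFiberEquiv_map _ x⟩

theorem cntInv_eq_of_mInv_eq {n : ℕ} (a b : Fin n → ℕ) (σ τ : Equiv.Perm (Fin n))
    (hm : ∀ s t, mInv a b σ s t = mInv a b τ s t) : cntInv a b σ = cntInv a b τ := by
  obtain ⟨β, hβ⟩ := exists_equiv_of_card_fiber (fun j : Fin n => (a (τ j), b j))
    (fun j : Fin n => (a (σ j), b j)) (by
      rintro ⟨s, t⟩
      rw [Fintype.card_subtype, Fintype.card_subtype]
      have := hm s t
      unfold mInv at this
      simp only [Prod.mk.injEq]
      exact this.symm)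
  funext s t
  unfold cntInv
  symm
  apply Finset.card_equiv β
  intro j
  have := Prod.mk.inj (hβ j)
  simp only [Finset.mem_filter, Finset.mem_univ, true_and, this.1, this.2]

theorem cntInv_eq_iff_mInv_eq {n : ℕ} (a b : Fin n → ℕ) (σ τ : Equiv.Perm (Fin n)) :
    cntInv a b σ = cntInv a b τ ↔ ∀ s t, mInv a b σ s t = mInv a b τ s t :=
  ⟨fun h s t => mInv_eq_of_cntInv_eq a b σ τ h s t, cntInv_eq_of_mInv_eq a b σ τ⟩

open Cfsg.Agent.H61 in
theorem compLabel_lt {n : ℕ} (μ : Fin n → ℕ) (hμ : ∑ i, μ i = n) (i : Fin n) :
    Cfsg.compLabel μ i < n := by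
  rw [compLabel_eq_labN]
  obtain ⟨t, ht, k, hk, e⟩ := exists_block μ n i.val (by rw [psum_n, hμ]; exact i.2)
  rw [e, labN_block μ t ht k hk]
  exact ht

open Cfsg.Agent.H61 in
theorem card_compLabel_eq {n : ℕ} (μ : Fin n → ℕ) (hμ : ∑ i, μ i = n) (s : Fin n) :
    (Finset.univ.filter fun i : Fin n => Cfsg.compLabel μ i = s.val).card = μ s := by
  have h : (Finset.univ.filter fun i : Fin n => Cfsg.compLabel μ i = s.val) =
      (Finset.univ.filter fun i : Fin n => i.val < psum μ (s.val + 1)) \
        (Finset.univ.filter fun i : Fin n => i.val < psum μ s.val) := by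
    ext i
    simp only [Finset.mem_filter, Finset.mem_univ, true_and, Finset.mem_sdiff, compLabel_eq_labN]
    have h1 := labN_le_iff μ hμ s.val i.val i.2
    rcases Nat.eq_zero_or_pos s.val with h0 | hpos
    · have h3 : psum μ s.val = 0 := by rw [h0]; rfl
      rw [h0] at h1 ⊢
      rw [h0] at h3
      omega
    · have h2 := labN_le_iff μ hμ (s.val - 1) i.val i.2
      rw [Nat.sub_add_cancel hpos] at h2
      omega
  have hsub : (Finset.univ.filter fun i : Fin n => i.val < psum μ s.val) ⊆
      (Finset.univ.filter fun i : Fin n => i.val < psum μ (s.val + 1)) := by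
    intro i hi
    simp only [Finset.mem_filter, Finset.mem_univ, true_and] at hi ⊢
    exact lt_of_lt_of_le hi (psum_mono μ (Nat.le_succ _))
  rw [h, Finset.card_sdiff_of_subset hsub, Fin.card_filter_val_lt, Fin.card_filter_val_lt]
  have h2 := psum_mono μ (show s.val + 1 ≤ n by omega)
  rw [psum_n, hμ] at h2
  have h3 := psum_succ μ s.val
  have h4 : muN μ s.val = μ s := by simp [muN]
  have h5 := psum_mono μ (Nat.le_succ s.val)
  rw [Nat.min_eq_right h2, Nat.min_eq_right (le_trans h5 h2)]
  omega

/-- The cells of a matrix of naturals. -/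
abbrev Cell {n : ℕ} (M : Fin n → Fin n → ℕ) : Type := Σ p : Fin n × Fin n, Fin (M p.1 p.2)

theorem card_cell_filter {n : ℕ} (M : Fin n → Fin n → ℕ) (P : Fin n × Fin n → Prop)
    [DecidablePred P] :
    Fintype.card {x : Cell M // P x.1} = ∑ p ∈ Finset.univ.filter P, M p.1 p.2 := by
  rw [Fintype.card_congr (Equiv.subtypeSigmaEquiv (fun p : Fin n × Fin n => Fin (M p.1 p.2)) P),
    Fintype.card_sigma]
  simp only [Fintype.card_fin]
  exact (Finset.sum_subtype (Finset.univ.filter P) (by simp) (fun p => M p.1 p.2)).symm

theorem card_cell_row {n : ℕ} (M : Fin n → Fin n → ℕ) (s : Fin n) :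
    Fintype.card {x : Cell M // x.1.1 = s} = ∑ t, M s t := by
  rw [card_cell_filter M (fun p => p.1 = s), Finset.sum_filter, Fintype.sum_prod_type]
  simp

theorem card_cell_col {n : ℕ} (M : Fin n → Fin n → ℕ) (t : Fin n) :
    Fintype.card {x : Cell M // x.1.2 = t} = ∑ s, M s t := by
  rw [card_cell_filter M (fun p => p.2 = t), Finset.sum_filter, Fintype.sum_prod_type_right]
  simp

theorem card_cell_eq {n : ℕ} (M : Fin n → Fin n → ℕ) (s t : Fin n) :
    Fintype.card {x : Cell M // x.1 = (s, t)} = M s t := by
  rw [card_cell_filter M (fun p => p = (s, t)), Finset.filter_eq']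
  simp

/-- piece S2422-C1. -/
theorem card_range_cntInv {n : ℕ} (α β : Fin n → ℕ) (hα : ∑ i, α i = n) (hβ : ∑ i, β i = n) :
    Nat.card (Set.range (cntInv (Cfsg.compLabel α) (Cfsg.compLabel β))) = margCount α β := by
  classical
  have hlta : ∀ i, Cfsg.compLabel α i < n := compLabel_lt α hα
  have hltb : ∀ i, Cfsg.compLabel β i < n := compLabel_lt β hβ
  have hca : ∀ s : Fin n,
      (Finset.univ.filter fun i : Fin n => Cfsg.compLabel α i = s.val).card = α s :=
    card_compLabel_eq α hα
  have hcb : ∀ t : Fin n,
      (Finset.univ.filter fun j : Fin n => Cfsg.compLabel β j = t.val).card = β t :=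
    card_compLabel_eq β hβ
  generalize Cfsg.compLabel α = a at hlta hca
  generalize Cfsg.compLabel β = b at hltb hcb
  let mm : Equiv.Perm (Fin n) → Fin n → Fin n → ℕ := fun σ s t => mInv a b σ s.val t.val
  have hker : ∀ σ τ, cntInv a b σ = cntInv a b τ ↔ mm σ = mm τ := by
    intro σ τ
    rw [cntInv_eq_iff_mInv_eq]
    constructor
    · intro h
      funext s t
      exact h s.val t.val
    · intro h s t
      by_cases hs : s < n
      · by_cases ht : t < n
        · exact congrFun (congrFun h ⟨s, hs⟩) ⟨t, ht⟩
        · unfold mInv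
          rw [Finset.filter_false_of_mem, Finset.filter_false_of_mem]
          · intro j _ hj
            have := hltb j
            omega
          · intro j _ hj
            have := hltb j
            omega
      · unfold mInv
        rw [Finset.filter_false_of_mem, Finset.filter_false_of_mem]
        · intro j _ hj
          have := hlta (τ j)
          omega
        · intro j _ hj
          have := hlta (σ j)
          omega
  rw [card_range_eq_of_ker _ mm hker]
  unfold margCount
  have hrange : Set.range mm =
      {M : Fin n → Fin n → ℕ | (∀ i, ∑ j, M i j = α i) ∧ (∀ j, ∑ i, M i j = β j)} := by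
    ext M
    simp only [Set.mem_range, Set.mem_ofPred_eq]
    constructor
    · rintro ⟨σ, rfl⟩
      constructor
      · intro s
        have h1 := Finset.card_eq_sum_card_fiberwise
          (f := fun j : Fin n => (⟨b j, hltb j⟩ : Fin n))
          (s := Finset.univ.filter fun j : Fin n => a (σ j) = s.val) (t := Finset.univ)
          (fun x _ => Finset.mem_coe.mpr (Finset.mem_univ _))
        have h2 : (Finset.univ.filter fun j : Fin n => a (σ j) = s.val).card = α s := by
          rw [← hca s]
          apply Finset.card_equiv σ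
          intro j
          simp only [Finset.mem_filter, Finset.mem_univ, true_and]
        rw [← h2, h1]
        apply Finset.sum_congr rfl
        intro t _
        change mInv a b σ s.val t.val = _
        unfold mInv
        rw [Finset.filter_filter]
        congr 1
        ext j
        simp only [Finset.mem_filter, Finset.mem_univ, true_and, Fin.ext_iff]
      · intro t
        have h1 := Finset.card_eq_sum_card_fiberwise
          (f := fun j : Fin n => (⟨a (σ j), hlta (σ j)⟩ : Fin n))
          (s := Finset.univ.filter fun j : Fin n => b j = t.val) (t := Finset.univ)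
          (fun x _ => Finset.mem_coe.mpr (Finset.mem_univ _))
        rw [← hcb t, h1]
        apply Finset.sum_congr rfl
        intro s _
        change mInv a b σ s.val t.val = _
        unfold mInv
        rw [Finset.filter_filter]
        congr 1
        ext j
        simp only [Finset.mem_filter, Finset.mem_univ, true_and, Fin.ext_iff]
        exact and_comm
    · rintro ⟨hrow, hcol⟩
      obtain ⟨φ, hφ⟩ := exists_equiv_of_card_fiber (fun i : Fin n => (⟨a i, hlta i⟩ : Fin n))
        (fun x : Cell M => x.1.1) (by
          intro c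
          rw [card_cell_row, hrow c, Fintype.card_subtype, ← hca c]
          congr 1
          ext i
          simp only [Finset.mem_filter, Finset.mem_univ, true_and, Fin.ext_iff])
      obtain ⟨ψ, hψ⟩ := exists_equiv_of_card_fiber (fun j : Fin n => (⟨b j, hltb j⟩ : Fin n))
        (fun x : Cell M => x.1.2) (by
          intro c
          rw [card_cell_col, hcol c, Fintype.card_subtype, ← hcb c]
          congr 1
          ext i
          simp only [Finset.mem_filter, Finset.mem_univ, true_and, Fin.ext_iff])
      refine ⟨ψ.trans φ.symm, ?_⟩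
      funext s t
      change mInv a b (ψ.trans φ.symm) s.val t.val = _
      rw [← card_cell_eq M s t, ← Fintype.card_congr (ψ.subtypeEquiv
        (p := fun j => (ψ j).1 = (s, t)) (q := fun x => x.1 = (s, t)) (fun j => Iff.rfl)),
        Fintype.card_subtype]
      unfold mInv
      congr 1
      ext j
      simp only [Finset.mem_filter, Finset.mem_univ, true_and]
      have h1 := hφ ((ψ.trans φ.symm) j)
      simp only [Equiv.trans_apply, Equiv.apply_symm_apply] at h1
      have h2 := hψ j
      rw [Prod.ext_iff, h1, h2]
      simp only [Fin.ext_iff, Equiv.trans_apply]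
  rw [hrange]
  rfl

end Cfsg.Agent.H98.Flag
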