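import Mathlib
import Cfsg.Agent.S3377

set_option autoImplicit false

namespace Cfsg.Agent.H98.A5Abs

open scoped Pointwise

theorem card_of_equiv {G : Type*} [Group G] (L : Subgroup G)
    (h : Nonempty (L ≃* alternatingGroup (Fin 5))) : Nat.card L = 60 := by
  obtain ⟨e⟩ := h
  rw [Nat.card_congr e.toEquiv]
  have h := two_mul_nat_card_alternatingGroup (α := Fin 5)
  rw [Nat.card_perm, Nat.card_fin] at h
  have : (5 : ℕ).factorial = 120 := by decide
  omega

/-- a `(2,3,5)` pair generates a copy of `A₅` -/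
theorem t235 {G : Type*} [Group G] (u v : G) (hu : u ^ 3 = 1) (hv : v ^ 5 = 1)
    (huv : (u * v) ^ 2 = 1) (hne : u ≠ 1) :
    Nonempty (Subgroup.closure ({u, v} : Set G) ≃* alternatingGroup (Fin 5)) := by
  have rel : ∀ r ∈ Cfsg.Agent.S3377.rels, FreeGroup.lift ![u, v] r = 1 := by
    rintro r (rfl | rfl | rfl)
    · rw [map_pow, FreeGroup.lift_apply_of]; exact hu
    · rw [map_pow, FreeGroup.lift_apply_of]; exact hv
    · rw [map_pow, map_mul, FreeGroup.lift_apply_of, FreeGroup.lift_apply_of]; exact huv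
  obtain ⟨e⟩ := Cfsg.Agent.S3377.result
  have hs : IsSimpleGroup (PresentedGroup Cfsg.Agent.S3377.rels) := e.isSimpleGroup
  have hinj : Function.Injective (PresentedGroup.toGroup rel) := by
    rw [← MonoidHom.ker_eq_bot_iff]
    rcases (PresentedGroup.toGroup rel).normal_ker.eq_bot_or_eq_top with h | h
    · exact h
    · exfalso
      have h1 : (PresentedGroup.of 0 : PresentedGroup Cfsg.Agent.S3377.rels) ∈
          (PresentedGroup.toGroup rel).ker := by
        rw [h]; trivial
      rw [MonoidHom.mem_ker] at h1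
      have h2 : PresentedGroup.toGroup rel (PresentedGroup.of 0) = u :=
        PresentedGroup.toGroup.of rel
      exact hne (h2 ▸ h1)
  have hrange : (PresentedGroup.toGroup rel).range = Subgroup.closure ({u, v} : Set G) := by
    rw [MonoidHom.range_eq_map, ← PresentedGroup.closure_range_of, MonoidHom.map_closure]
    congr 1
    ext x
    constructor
    · rintro ⟨_, ⟨i, rfl⟩, rfl⟩
      have : PresentedGroup.toGroup rel (PresentedGroup.of i) = ![u, v] i :=
        PresentedGroup.toGroup.of rel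
      rw [this]
      fin_cases i
      · left; rfl
      · right; rfl
    · rintro (rfl | rfl)
      · exact ⟨_, ⟨0, rfl⟩, PresentedGroup.toGroup.of rel⟩
      · exact ⟨_, ⟨1, rfl⟩, PresentedGroup.toGroup.of rel⟩
  rw [← hrange]
  exact ⟨(MonoidHom.ofInjective hinj).symm.trans e⟩

/-- any copy of `A₅` contains a `(2,3,5)` pair -/
theorem exists_gens {G : Type*} [Group G] (L : Subgroup G)
    (h : Nonempty (L ≃* alternatingGroup (Fin 5))) :
    ∃ u v : G, u ∈ L ∧ v ∈ L ∧ u ^ 3 = 1 ∧ v ^ 5 = 1 ∧ (u * v) ^ 2 = 1 ∧ u ≠ 1 := by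
  obtain ⟨e⟩ := h
  refine ⟨(e.symm Cfsg.Agent.S3377.ga : G), (e.symm Cfsg.Agent.S3377.gb : G),
    (e.symm _).2, (e.symm _).2, ?_, ?_, ?_, ?_⟩
  · rw [← Subgroup.coe_pow, ← map_pow, Cfsg.Agent.S3377.ga3, map_one, Subgroup.coe_one]
  · rw [← Subgroup.coe_pow, ← map_pow, Cfsg.Agent.S3377.gb5, map_one, Subgroup.coe_one]
  · rw [← Subgroup.coe_mul, ← Subgroup.coe_pow, ← map_mul, ← map_pow, Cfsg.Agent.S3377.gab2,
      map_one, Subgroup.coe_one]
  · intro h1
    have h2 : e.symm Cfsg.Agent.S3377.ga = 1 := Subtype.ext h1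
    rw [MulEquiv.map_eq_one_iff] at h2
    exact Cfsg.Agent.S3377.ga_ne h2

/-- a copy of `A₅` is determined by a `(2,3,5)` pair it contains -/
theorem eq_of_mem {G : Type*} [Group G] (L : Subgroup G)
    (h : Nonempty (L ≃* alternatingGroup (Fin 5))) (u v : G) (hu : u ^ 3 = 1) (hv : v ^ 5 = 1)
    (huv : (u * v) ^ 2 = 1) (hne : u ≠ 1) (huL : u ∈ L) (hvL : v ∈ L) :
    Subgroup.closure ({u, v} : Set G) = L := by
  have hc := card_of_equiv L h
  have hc2 := card_of_equiv _ (t235 u v hu hv huv hne)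
  have hfin : Finite L := Nat.finite_of_card_ne_zero (by rw [hc]; norm_num)
  apply Subgroup.eq_of_le_of_card_ge
  · rw [Subgroup.closure_le]
    rintro x (rfl | rfl)
    · exact huL
    · exact hvL
  · rw [hc, hc2]

/-- conjugating a copy of `A₅` into another -/
theorem conj_eq_of_mem {G : Type*} [Group G] (L M : Subgroup G)
    (hL : Nonempty (L ≃* alternatingGroup (Fin 5))) (hM : Nonempty (M ≃* alternatingGroup (Fin 5)))
    (u v x : G) (huL : u ∈ L) (hvL : v ∈ L) (hu : u ^ 3 = 1) (hv : v ^ 5 = 1)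
    (huv : (u * v) ^ 2 = 1) (hne : u ≠ 1) (h1 : x * u * x⁻¹ ∈ M) (h2 : x * v * x⁻¹ ∈ M) :
    MulAut.conj x • L = M := by
  have hc := card_of_equiv L hL
  have hcM := card_of_equiv M hM
  have hfin : Finite M := Nat.finite_of_card_ne_zero (by rw [hcM]; norm_num)
  have hLe := eq_of_mem L hL u v hu hv huv hne huL hvL
  apply Subgroup.eq_of_le_of_card_ge
  · rw [← hLe, Subgroup.smul_closure, Subgroup.closure_le]
    rintro y ⟨z, (rfl | rfl), rfl⟩
    · exact h1
    · exact h2
  · rw [hcM]
    have : Nat.card (MulAut.conj x • L : Subgroup G) = Nat.card L :=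
      (Nat.card_congr (Subgroup.equivSMul (MulAut.conj x) L).toEquiv).symm
    rw [this, hc]

/-- orbit counting for self-normalising subgroups -/
theorem ncard_conj_range {G : Type*} [Group G] (H : Subgroup G)
    (hN : ∀ g : G, MulAut.conj g • H = H → g ∈ H) :
    (Set.range (fun g : G => MulAut.conj g • H)).ncard = H.index := by
  let f : G ⧸ H → Subgroup G := fun q => Quotient.liftOn' q (fun g => MulAut.conj g • H) (by
    intro g1 g2 h12
    rw [QuotientGroup.leftRel_apply] at h12
    show MulAut.conj g1 • H = MulAut.conj g2 • H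
    have h3 : MulAut.conj g2 • H = MulAut.conj g1 • (MulAut.conj (g1⁻¹ * g2) • H) := by
      rw [smul_smul, ← map_mul, mul_inv_cancel_left]
    rw [h3, Subgroup.conj_smul_eq_self_of_mem h12])
  have hf : Function.Injective f := by
    intro q1 q2
    induction q1 using QuotientGroup.induction_on with | _ g1 => ?_
    induction q2 using QuotientGroup.induction_on with | _ g2 => ?_
    intro h12
    have h12' : MulAut.conj g1 • H = MulAut.conj g2 • H := h12
    rw [QuotientGroup.eq]
    apply hN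
    rw [map_mul, mul_smul, ← h12', smul_smul, ← map_mul, inv_mul_cancel, map_one, one_smul]
  have hr : Set.range (fun g : G => MulAut.conj g • H) = Set.range f := by
    ext L
    constructor
    · rintro ⟨g, rfl⟩
      exact ⟨(g : G ⧸ H), rfl⟩
    · rintro ⟨q, rfl⟩
      induction q using QuotientGroup.induction_on with | _ g => ?_
      exact ⟨g, rfl⟩
  rw [hr, ← Nat.card_coe_set_eq, Nat.card_range_of_injective hf]
  rfl

/-- the property to transfer -/
def P (G : Type*) [Group G] : Prop :=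
  Nat.card {H : Subgroup G // Nonempty (H ≃* alternatingGroup (Fin 5))} = 22 ∧
    ∃ H K : Subgroup G, Nonempty (H ≃* alternatingGroup (Fin 5)) ∧
      Nonempty (K ≃* alternatingGroup (Fin 5)) ∧ (∀ g : G, MulAut.conj g • H ≠ K) ∧
      ∀ L : Subgroup G, Nonempty (L ≃* alternatingGroup (Fin 5)) →
        ∃ g : G, MulAut.conj g • L = H ∨ MulAut.conj g • L = K

theorem map_conj {G G' : Type*} [Group G] [Group G'] (e : G ≃* G') (g : G) (H : Subgroup G) :
    (MulAut.conj g • H).map (e : G →* G') = MulAut.conj (e g) • H.map (e : G →* G') := by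
  ext y
  constructor
  · rintro ⟨x, hx, rfl⟩
    have hx' : x ∈ MulAut.conj g • H := hx
    rw [Subgroup.mem_pointwise_smul_iff_inv_smul_mem] at hx' ⊢
    refine ⟨(MulAut.conj g)⁻¹ • x, hx', ?_⟩
    simp [MulAut.smul_def, MulAut.conj_inv_apply]
  · intro hy
    rw [Subgroup.mem_pointwise_smul_iff_inv_smul_mem] at hy
    obtain ⟨x, hx, hxy⟩ := hy
    refine ⟨MulAut.conj g • x, Subgroup.smul_mem_pointwise_smul _ _ _ hx, ?_⟩
    have h1 : y = e g * e x * (e g)⁻¹ := by
      have : (e : G →* G') x = e x := rfl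
      rw [this] at hxy
      rw [hxy]
      simp [MulAut.smul_def, MulAut.conj_inv_apply, mul_assoc]
    rw [h1]
    simp [MulAut.smul_def]

theorem P_of_equiv {G G' : Type*} [Group G] [Group G'] (e : G ≃* G') (h : P G) : P G' := by
  obtain ⟨hc, H, K, hH, hK, hne, hall⟩ := h
  have key : ∀ L : Subgroup G, Nonempty (L ≃* alternatingGroup (Fin 5)) ↔
      Nonempty (L.map (e : G →* G') ≃* alternatingGroup (Fin 5)) := by
    intro L
    constructor
    · rintro ⟨f⟩
      exact ⟨(e.subgroupMap L).symm.trans f⟩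
    · rintro ⟨f⟩
      exact ⟨(e.subgroupMap L).trans f⟩
  refine ⟨?_, H.map (e : G →* G'), K.map (e : G →* G'), (key H).1 hH, (key K).1 hK, ?_, ?_⟩
  · rw [← hc]
    symm
    apply Nat.card_congr
    exact Equiv.subtypeEquiv e.mapSubgroup.toEquiv (fun L => key L)
  · intro g' hg'
    obtain ⟨g, rfl⟩ := e.surjective g'
    rw [← map_conj] at hg'
    exact hne g (Subgroup.map_injective e.injective hg')
  · intro L' hL'
    obtain ⟨L, rfl⟩ : ∃ L : Subgroup G, L.map (e : G →* G') = L' :=
      ⟨L'.comap (e : G →* G'), Subgroup.map_comap_eq_self_of_surjective e.surjective L'⟩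
    obtain ⟨g, hg⟩ := hall L ((key L).2 hL')
    refine ⟨e g, ?_⟩
    rw [← map_conj]
    rcases hg with hg | hg
    · left; rw [hg]
    · right; rw [hg]

end Cfsg.Agent.H98.A5Abs
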