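import Mathlib
import Cfsg.Agent.H61.L211
import Cfsg.Agent.H98.A5Abs

set_option autoImplicit false

namespace Cfsg.Agent.H98.A5L11

open Matrix
open scoped MatrixGroups Pointwise
open Cfsg.Agent.H61 Cfsg.Agent.H61.L211 Cfsg.Agent.H98.A5Abs

/-- a second element of order 3 -/
def mA' : SL(2, ZMod 11) := ⟨!![3, 8; 8, 7], by rw [Matrix.det_fin_two_of]; decide⟩

/-- an element inverting `mA` -/
def mS : SL(2, ZMod 11) := ⟨!![0, 1; 10, 0], by rw [Matrix.det_fin_two_of]; decide⟩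

/-- evaluation of a word in `mA`, `mB`, `mT` -/
def ev3 : List (Fin 3) → SL(2, ZMod 11)
  | [] => 1
  | c :: l => gen c * ev3 l

/-- evaluation of a word in `mA'`, `mB` -/
def evK : List (Fin 2) → SL(2, ZMod 11)
  | [] => 1
  | c :: l => (if c = 0 then mA' else mB) * evK l

/-- evaluation in either copy -/
def evT (f : Bool) (w : List (Fin 2)) : SL(2, ZMod 11) := if f then evK w else ev w

/-- the 48 lifts `V` with `V⁵ = ±1` and `(mA V)² = ±1` -/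
def Vl : Fin 48 → Matrix (Fin 2) (Fin 2) (ZMod 11) :=
  ![!![0, 3; 7, 3], !![0, 4; 8, 8], !![0, 7; 3, 3], !![0, 8; 4, 8], !![1, 1; 1, 2], !![1, 4; 4, 6], !![1, 5; 10, 7], !![1, 10; 5, 7], !![2, 0; 7, 6], !![2, 6; 6, 2], !![2, 7; 0, 6], !![3, 0; 3, 4], !![3, 3; 0, 4], !![3, 5; 5, 5], !![4, 0; 6, 3], !![4, 2; 5, 0], !![4, 4; 7, 10], !![4, 5; 2, 0], !![4, 6; 0, 3], !![4, 7; 4, 10], !![5, 0; 3, 9], !![5, 2; 8, 10], !![5, 3; 0, 9], !![5, 4; 5, 2], !![5, 5; 4, 2], !![5, 8; 2, 10], !![6, 0; 8, 2], !![6, 3; 9, 1], !![6, 6; 7, 9], !![6, 7; 6, 9], !![6, 8; 0, 2], !![6, 9; 3, 1], !![7, 0; 5, 8], !![7, 4; 7, 1], !![7, 5; 0, 8], !![7, 6; 9, 0], !![7, 7; 4, 1], !![7, 9; 6, 0], !![8, 0; 8, 7], !![8, 6; 6, 6], !![8, 8; 0, 7], !![9, 0; 4, 5], !![9, 4; 0, 5], !![9, 5; 5, 9], !![10, 1; 6, 4], !![10, 6; 1, 4], !![10, 7; 7, 5], !![10, 10; 10, 9]]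

/-- target flag: `false` for `H0`, `true` for `K0` -/
def fl : Fin 48 → Bool :=
  ![false, false, false, false, false, false, true, true, false, false, false, false, false, false, true, false, true, false, true, true, true, true, true, true, true, true, true, true, true, true, true, true, true, true, true, false, true, false, false, false, false, false, false, false, true, true, false, false]

/-- words for the conjugating elements -/
def wx : Fin 48 → List (Fin 3) :=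
  ![[2, 1, 1], [2, 1, 1], [2, 1, 1], [2, 1, 1], [], [], [2, 2], [2, 2, 1, 2], [], [2, 1, 1], [], [2, 1, 1], [2, 1, 1], [2, 1, 1], [2, 2], [], [2, 2, 1, 2], [], [2, 2, 1, 2], [2, 2], [2, 2, 1, 2], [2, 2, 1, 2], [2, 2], [2, 2, 1, 2], [2, 2], [2, 2], [2, 2, 1, 2], [2, 2], [2, 2], [2, 2, 1, 2], [2, 2], [2, 2, 1, 2], [2, 2], [2, 2], [2, 2, 1, 2], [], [2, 2, 1, 2], [], [2, 1, 1], [2, 1, 1], [2, 1, 1], [], [], [2, 1, 1], [2, 2, 1, 2], [2, 2], [], []]

/-- words for the conjugates of `mA` -/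
def wa : Fin 48 → List (Fin 2) :=
  ![[1, 0, 1, 1, 0, 0, 1, 0, 0], [1, 0, 1, 1, 0, 0, 1, 0, 0], [1, 0, 1, 1, 0, 0, 1, 0, 0], [1, 0, 1, 1, 0, 0, 1, 0, 0], [0], [0], [1, 1, 0, 1, 1, 1], [0, 1, 1, 1, 0, 0, 1], [0], [1, 0, 1, 1, 0, 0, 1, 0, 0], [0], [1, 0, 1, 1, 0, 0, 1, 0, 0], [1, 0, 1, 1, 0, 0, 1, 0, 0], [1, 0, 1, 1, 0, 0, 1, 0, 0], [1, 1, 0, 1, 1, 1], [0], [0, 1, 1, 1, 0, 0, 1], [0], [0, 1, 1, 1, 0, 0, 1], [1, 1, 0, 1, 1, 1], [0, 1, 1, 1, 0, 0, 1], [0, 1, 1, 1, 0, 0, 1], [1, 1, 0, 1, 1, 1], [0, 1, 1, 1, 0, 0, 1], [1, 1, 0, 1, 1, 1], [1, 1, 0, 1, 1, 1], [0, 1, 1, 1, 0, 0, 1], [1, 1, 0, 1, 1, 1], [1, 1, 0, 1, 1, 1], [0, 1, 1, 1, 0, 0, 1], [1, 1, 0, 1, 1, 1], [0, 1, 1, 1, 0, 0, 1], [1, 1, 0, 1, 1, 1], [1, 1, 0, 1, 1, 1], [0, 1, 1, 1, 0, 0, 1], [0], [0, 1, 1, 1, 0, 0, 1], [0], [1, 0, 1, 1, 0, 0, 1, 0, 0], [1, 0, 1, 1, 0, 0, 1, 0, 0], [1, 0, 1, 1, 0, 0, 1, 0, 0], [0], [0], [1, 0, 1, 1, 0, 0, 1,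 0, 0], [0, 1, 1, 1, 0, 0, 1], [1, 1, 0, 1, 1, 1], [0], [0]]

/-- words for the conjugates of `V` -/
def wv : Fin 48 → List (Fin 2) :=
  ![[0, 0, 1, 0], [1, 1, 1, 1, 0], [0, 1, 0, 0], [1, 0, 1, 1, 0], [1], [0, 1, 1, 0, 0, 1, 1, 0], [1, 1, 0, 1, 0], [0, 0, 1], [1, 0, 1, 1, 0], [1, 1, 1, 0, 1, 0], [1, 1, 1, 1, 0], [1, 1, 1, 0, 1, 1, 1, 0], [0, 1, 1, 1, 0, 1, 1, 1], [0, 1, 1, 1, 0, 1, 0, 0], [0, 0, 1, 1, 0], [1, 0, 0, 1, 1, 0, 0, 1, 0], [0, 1, 1, 1], [1, 1, 1, 0, 1, 1, 1, 0, 0], [1, 1, 1], [0, 0, 1, 1], [0, 0, 1, 1], [1, 1, 0, 1, 1, 1, 0, 0, 1], [1, 0, 0, 1], [0, 0, 1, 1, 0], [0, 1, 1, 1, 0, 0], [1, 1, 1, 0, 1, 1, 1, 0, 0], [1, 0, 1, 1, 1], [1, 1, 0, 0, 1, 1, 0, 0], [1, 0, 1, 1, 0, 0, 1], [1, 0, 1, 1, 1, 0], [1, 1, 0, 1, 1], [1, 0, 0, 1, 1, 0, 0, 1], [1, 0, 1, 1, 1, 0], [1, 0, 1, 1, 1], [1, 1, 1, 1, 0, 1, 0], [1, 1, 0, 0, 1, 1, 0, 0], [1, 0, 1, 1, 0, 0, 1, 0], [0, 0, 1, 1, 0, 0, 1, 1], [1, 1,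 0, 0, 1, 1, 0], [0, 1, 1, 0], [0, 1, 1, 0, 0, 1, 1], [0, 0, 1, 0], [0, 1, 0, 0], [1, 1], [1, 0, 1, 1], [1], [0, 1, 1, 1, 0, 1, 1, 1, 0], [1, 1, 0, 1, 0]]

theorem enum : ∀ a b c d : ZMod 11, a * d - b * c = 1 →
    ((mA.1 * !![a, b; c, d]) ^ 2) 0 1 = 0 → ((mA.1 * !![a, b; c, d]) ^ 2) 1 0 = 0 →
    ((mA.1 * !![a, b; c, d]) ^ 2) 0 0 = ((mA.1 * !![a, b; c, d]) ^ 2) 1 1 →
    (!![a, b; c, d] ^ 5) 0 1 = 0 → (!![a, b; c, d] ^ 5) 1 0 = 0 →
    (!![a, b; c, d] ^ 5) 0 0 = (!![a, b; c, d] ^ 5) 1 1 →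
    ∃ i : Fin 48, !![a, b; c, d] = Vl i := by
  decide +kernel

theorem data : ∀ i : Fin 48,
    (ev3 (wx i)).1 * mA.1 = (evT (fl i) (wa i)).1 * (ev3 (wx i)).1 ∧
    (ev3 (wx i)).1 * Vl i = (evT (fl i) (wv i)).1 * (ev3 (wx i)).1 := by
  decide +kernel

/-! ### the second copy -/

/-- image of `mA'` -/
def a' : PSL(2, ZMod 11) := pr mA'

theorem mA'_pow : (mA' ^ 3).1 = 1 := by decide +kernel

theorem a'_pow : a' ^ 3 = 1 := by
  have : mA' ^ 3 = 1 := Subtype.ext mA'_pow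
  rw [a', ← map_pow, this, map_one]

theorem a'b_sq : (a' * b) ^ 2 = 1 := by
  rw [a', b, ← map_mul, ← map_pow, pr_eq_one_iff]
  decide +kernel

theorem a'_ne : a' ≠ 1 := by
  rw [a', Ne, pr_eq_one_iff]
  decide

/-- the second copy of `A₅` -/
def K0 : Subgroup PSL(2, ZMod 11) := Subgroup.closure {a', b}

theorem K0_equiv : Nonempty (K0 ≃* alternatingGroup (Fin 5)) :=
  t235 a' b a'_pow b_pow a'b_sq a'_ne

theorem a'_mem : a' ∈ K0 := Subgroup.subset_closure (by simp)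
theorem b_mem_K0 : b ∈ K0 := Subgroup.subset_closure (by simp)

theorem evK_mem (w : List (Fin 2)) : pr (evK w) ∈ K0 := by
  induction w with
  | nil => rw [evK, map_one]; exact K0.one_mem
  | cons c l ih =>
    rw [evK, map_mul]
    refine K0.mul_mem ?_ ih
    split_ifs
    · exact a'_mem
    · exact b_mem_K0

theorem mA'_decomp : mA'.1 = (ev [1, 1] * mT * ev [1, 0, 0, 1, 1, 0, 0, 1]).1 := by
  decide +kernel

theorem finite_G0 : Finite PSL(2, ZMod 11) :=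
  Nat.finite_of_card_ne_zero (by rw [card_G0]; norm_num)

theorem g_not_mem : g ∉ H0 := by
  intro h
  have := Fact.mk (by norm_num : Nat.Prime 11)
  have ho : orderOf g = 11 := orderOf_eq_prime g_pow g_ne
  have h1 := orderOf_dvd_natCard (⟨g, h⟩ : H0)
  rw [Subgroup.orderOf_mk, ho, card_H0] at h1
  omega

theorem a'_not_mem : a' ∉ H0 := by
  intro h
  have e : mA' = ev [1, 1] * mT * ev [1, 0, 0, 1, 1, 0, 0, 1] := Subtype.ext mA'_decomp
  rw [a', e, map_mul, map_mul] at h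
  have h1 : pr mT ∈ H0 := by
    have h2 := H0.mul_mem (H0.mul_mem (H0.inv_mem (ev_mem [1, 1])) h)
      (H0.inv_mem (ev_mem [1, 0, 0, 1, 1, 0, 0, 1]))
    simpa [mul_assoc] using h2
  exact g_not_mem h1

/-! ### all elements of order 3 are conjugate -/

theorem mS_rel : (mS * mA ^ 2).1 = (mA * mS).1 := by decide +kernel

theorem conj_to_a (u : PSL(2, ZMod 11)) (hu : u ^ 3 = 1) (hne : u ≠ 1) :
    ∃ x : PSL(2, ZMod 11), x * u * x⁻¹ = a := by
  haveI : Fact (Nat.Prime 3) := ⟨Nat.prime_three⟩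
  have : Finite PSL(2, ZMod 11) := finite_G0
  have hfact : (Nat.card PSL(2, ZMod 11)).factorization 3 = 1 := by
    rw [card_G0]
    have h660 : (660 : ℕ) = 3 * 220 := by norm_num
    rw [h660, Nat.factorization_mul (by norm_num) (by norm_num)]
    simp [Nat.Prime.factorization_self Nat.prime_three,
      Nat.factorization_eq_zero_of_not_dvd (by norm_num : ¬ 3 ∣ 220)]
  have hou : orderOf u = 3 := orderOf_eq_prime hu hne
  have hoa : orderOf a = 3 := orderOf_eq_prime a_pow a_ne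
  let P : Sylow 3 PSL(2, ZMod 11) := Sylow.ofCard (Subgroup.zpowers u)
    (by rw [Nat.card_zpowers, hou, hfact, pow_one])
  let Q : Sylow 3 PSL(2, ZMod 11) := Sylow.ofCard (Subgroup.zpowers a)
    (by rw [Nat.card_zpowers, hoa, hfact, pow_one])
  obtain ⟨y, hy⟩ := MulAction.exists_smul_eq PSL(2, ZMod 11) P Q
  have h1 : y * u * y⁻¹ ∈ Subgroup.zpowers a := by
    have h2 : MulAut.conj y • u ∈ MulAut.conj y • (P : Subgroup PSL(2, ZMod 11)) :=
      Subgroup.smul_mem_pointwise_smul _ _ _ (Subgroup.mem_zpowers u)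
    rw [← Sylow.coe_subgroup_smul, hy] at h2
    exact h2
  rw [← mem_powers_iff_mem_zpowers, mem_powers_iff_mem_range_orderOf, hoa] at h1
  simp only [Finset.mem_image, Finset.mem_range] at h1
  obtain ⟨k, hk, hk2⟩ := h1
  interval_cases k
  · exfalso
    apply hne
    have h3 : y * u * y⁻¹ = 1 := by rw [← hk2, pow_zero]
    have h4 : u = y⁻¹ * (y * u * y⁻¹) * y := by group
    rw [h4, h3]; group
  · exact ⟨y, by rw [← hk2, pow_one]⟩
  · refine ⟨pr mS * y, ?_⟩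
    have h3 : pr mS * a ^ 2 = a * pr mS := by
      have : mS * mA ^ 2 = mA * mS := Subtype.ext mS_rel
      rw [a, ← map_pow, ← map_mul, this, map_mul]
    have h4 : pr mS * y * u * (pr mS * y)⁻¹ = pr mS * (y * u * y⁻¹) * (pr mS)⁻¹ := by group
    rw [h4, ← hk2, h3, mul_inv_cancel_right]

/-! ### classification of the pairs -/

theorem evT_mem (f : Bool) (w : List (Fin 2)) :
    pr (evT f w) ∈ (if f then K0 else H0) := by
  cases f
  · exact ev_mem w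
  · exact evK_mem w

theorem classify (v : PSL(2, ZMod 11)) (hv : v ^ 5 = 1) (hav : (a * v) ^ 2 = 1) :
    ∃ x : PSL(2, ZMod 11), (x * a * x⁻¹ ∈ H0 ∧ x * v * x⁻¹ ∈ H0) ∨
      (x * a * x⁻¹ ∈ K0 ∧ x * v * x⁻¹ ∈ K0) := by
  obtain ⟨V, rfl⟩ : ∃ V : SL(2, ZMod 11), pr V = v :=
    QuotientGroup.mk'_surjective (Subgroup.center SL(2, ZMod 11)) v
  have h5 : pr (V ^ 5) = 1 := by rw [map_pow]; exact hv
  have h2 : pr ((mA * V) ^ 2) = 1 := by rw [map_pow, map_mul]; exact hav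
  rw [pr_eq_one_iff] at h5 h2
  have hV : V.1 = !![V.1 0 0, V.1 0 1; V.1 1 0, V.1 1 1] := Matrix.eta_fin_two V.1
  have hdet : V.1 0 0 * V.1 1 1 - V.1 0 1 * V.1 1 0 = 1 := by
    have := V.2
    rw [Matrix.det_fin_two] at this
    exact this
  have e5 : (V ^ 5).1 = !![V.1 0 0, V.1 0 1; V.1 1 0, V.1 1 1] ^ 5 := by
    rw [← hV]; rfl
  have e2 : ((mA * V) ^ 2).1 = (mA.1 * !![V.1 0 0, V.1 0 1; V.1 1 0, V.1 1 1]) ^ 2 := by
    rw [← hV]; rfl
  rw [e5] at h5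
  rw [e2] at h2
  obtain ⟨i, hi⟩ := enum (V.1 0 0) (V.1 0 1) (V.1 1 0) (V.1 1 1) hdet h2.1 h2.2.1 h2.2.2
    h5.1 h5.2.1 h5.2.2
  rw [← hV] at hi
  obtain ⟨d1, d2⟩ := data i
  rw [← hi] at d2
  have c1 : ev3 (wx i) * mA = evT (fl i) (wa i) * ev3 (wx i) := Subtype.ext d1
  have c2 : ev3 (wx i) * V = evT (fl i) (wv i) * ev3 (wx i) := Subtype.ext d2
  have k1 : pr (ev3 (wx i)) * a * (pr (ev3 (wx i)))⁻¹ = pr (evT (fl i) (wa i)) := by
    rw [a, ← map_mul, c1, map_mul, mul_inv_cancel_right]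
  have k2 : pr (ev3 (wx i)) * pr V * (pr (ev3 (wx i)))⁻¹ = pr (evT (fl i) (wv i)) := by
    rw [← map_mul, c2, map_mul, mul_inv_cancel_right]
  refine ⟨pr (ev3 (wx i)), ?_⟩
  rw [k1, k2]
  have m1 := evT_mem (fl i) (wa i)
  have m2 := evT_mem (fl i) (wv i)
  cases hf : fl i
  · left
    rw [hf] at m1 m2
    exact ⟨m1, m2⟩
  · right
    rw [hf] at m1 m2
    exact ⟨m1, m2⟩

/-! ### the element `b` fixes a unique coset -/

theorem decomp (x : PSL(2, ZMod 11)) : ∃ i : Fin 11, ∃ h ∈ H0, x = pr (rep i) * h := by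
  have : Finite PSL(2, ZMod 11) := finite_G0
  have hx : x ∈ Subgroup.closure ({a, b, g} : Set PSL(2, ZMod 11)) := by
    rw [closure_eq_top]; trivial
  obtain ⟨t, ⟨i, rfl⟩, h, hh, e⟩ := closure_subset_mul ({a, b, g} : Set PSL(2, ZMod 11))
    (Set.range (fun i : Fin 11 => pr (rep i))) H0 ⟨0, by simp [rep]⟩ (by
      rintro s hs _ ⟨i, rfl⟩
      obtain ⟨k, rfl⟩ : ∃ k : Fin 3, s = pr (gen k) := by
        rcases hs with rfl | rfl | rfl
        · exact ⟨0, rfl⟩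
        · exact ⟨1, rfl⟩
        · exact ⟨2, rfl⟩
      refine ⟨pr (rep (nxt k i)), ⟨nxt k i, rfl⟩, pr (ev (hwd k i)), ev_mem _, ?_⟩
      show pr (gen k) * pr (rep i) = pr (rep (nxt k i)) * pr (ev (hwd k i))
      rw [← map_mul, ← map_mul]
      congr 1
      exact Subtype.ext (table k i)) x hx
  exact ⟨i, h, hh, e⟩

theorem rep_inj (i j : Fin 11) (h : (pr (rep i))⁻¹ * pr (rep j) ∈ H0) : i = j := by
  let f : Fin 11 → PSL(2, ZMod 11) ⧸ H0 := fun i => (pr (rep i) : PSL(2, ZMod 11) ⧸ H0)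
  have hs : Function.Surjective f := by
    intro q
    induction q using QuotientGroup.induction_on with | _ x => ?_
    obtain ⟨i, h, hh, e⟩ := decomp x
    refine ⟨i, ?_⟩
    show (pr (rep i) : PSL(2, ZMod 11) ⧸ H0) = (x : PSL(2, ZMod 11) ⧸ H0)
    rw [QuotientGroup.eq, e, inv_mul_cancel_left]
    exact hh
  have hb : Function.Bijective f := hs.bijective_of_nat_card_le (by
    rw [Nat.card_fin]
    have := index_H0
    rw [Subgroup.index] at this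
    omega)
  exact hb.1 (QuotientGroup.eq.2 h)

theorem nxt_fix : ∀ i : Fin 11, i = nxt 1 i → i = 0 := by decide

theorem fix_b (x : PSL(2, ZMod 11)) (hx : x⁻¹ * b * x ∈ H0) : x ∈ H0 := by
  obtain ⟨i, h, hh, e⟩ := decomp x
  have ht' : b * pr (rep i) = pr (rep (nxt 1 i)) * pr (ev (hwd 1 i)) := by
    show pr (gen 1) * pr (rep i) = pr (rep (nxt 1 i)) * pr (ev (hwd 1 i))
    rw [← map_mul, ← map_mul]
    congr 1
    exact Subtype.ext (table 1 i)
  have h1 : (pr (rep i))⁻¹ * pr (rep (nxt 1 i)) ∈ H0 := by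
    have h2 : (pr (rep i))⁻¹ * pr (rep (nxt 1 i)) =
        h * (x⁻¹ * b * x) * h⁻¹ * (pr (ev (hwd 1 i)))⁻¹ := by
      have h3 : x⁻¹ * b * x = h⁻¹ * (pr (rep i))⁻¹ * (b * pr (rep i)) * h := by
        rw [e]; group
      rw [h3, ht']
      group
    rw [h2]
    exact H0.mul_mem (H0.mul_mem (H0.mul_mem hh hx) (H0.inv_mem hh)) (H0.inv_mem (ev_mem _))
  have h4 := nxt_fix i (rep_inj _ _ h1)
  have h5 : rep i = 1 := by simp [rep, h4]
  rw [e, h5, map_one, one_mul]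
  exact hh

/-! ### normalisers -/

theorem normal_mem_of_pow3 (N : Subgroup PSL(2, ZMod 11)) (hN : N.Normal) (hidx : N.index = 11)
    (x : PSL(2, ZMod 11)) (hx : x ^ 3 = 1) : x ∈ N := by
  have h1 : ((x : PSL(2, ZMod 11) ⧸ N)) ^ 3 = 1 := by
    rw [← QuotientGroup.mk_pow, hx]; rfl
  have h2 : ((x : PSL(2, ZMod 11) ⧸ N)) ^ 11 = 1 := by
    have hc : Nat.card (PSL(2, ZMod 11) ⧸ N) = 11 := hidx
    have hp := pow_card_eq_one' (x := (x : PSL(2, ZMod 11) ⧸ N))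
    rw [hc] at hp
    exact hp
  have h3 : (x : PSL(2, ZMod 11) ⧸ N) = 1 := by
    have : (x : PSL(2, ZMod 11) ⧸ N) ^ (Nat.gcd 3 11) = 1 := pow_gcd_eq_one.2 ⟨h1, h2⟩
    simpa using this
  exact (QuotientGroup.eq_one_iff x).1 h3

theorem index_of_card (M : Subgroup PSL(2, ZMod 11)) (hc : Nat.card M = 60) : M.index = 11 := by
  have h := Subgroup.card_mul_index M
  rw [hc, card_G0] at h
  omega

theorem self_norm (M : Subgroup PSL(2, ZMod 11)) (hc : Nat.card M = 60) (hnn : ¬ M.Normal)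
    (y : PSL(2, ZMod 11)) (hy : MulAut.conj y • M = M) : y ∈ M := by
  have : Finite PSL(2, ZMod 11) := finite_G0
  have hyN : y ∈ (Subgroup.normalizer (M : Set PSL(2, ZMod 11))) := by
    rw [Subgroup.mem_normalizer_iff]
    intro h
    have h1 : MulAut.conj y • h ∈ MulAut.conj y • M ↔ h ∈ M :=
      Subgroup.smul_mem_pointwise_smul_iff
    rw [hy] at h1
    exact h1.symm
  have hdvd : (Subgroup.normalizer (M : Set PSL(2, ZMod 11))).index ∣ 11 := by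
    have h0 := Subgroup.index_dvd_of_le (Subgroup.le_normalizer (H := M))
    rw [index_of_card M hc] at h0
    exact h0
  rcases (Nat.dvd_prime (by norm_num : Nat.Prime 11)).1 hdvd with h1 | h11
  · exfalso
    apply hnn
    rw [← Subgroup.normalizer_eq_top_iff]
    exact Subgroup.index_eq_one.1 h1
  · have hcN : Nat.card (Subgroup.normalizer (M : Set PSL(2, ZMod 11))) = 60 := by
      have h := Subgroup.card_mul_index (Subgroup.normalizer (M : Set PSL(2, ZMod 11)))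
      rw [h11, card_G0] at h
      omega
    have heq : M = (Subgroup.normalizer (M : Set PSL(2, ZMod 11))) :=
      Subgroup.eq_of_le_of_card_ge Subgroup.le_normalizer (by rw [hc, hcN])
    rw [heq]
    exact hyN

theorem H0_not_normal : ¬ H0.Normal := by
  intro hN
  exact a'_not_mem (normal_mem_of_pow3 H0 hN index_H0 a' a'_pow)

theorem card_K0 : Nat.card K0 = 60 := card_of_equiv K0 K0_equiv

theorem H0_ne_K0 : H0 ≠ K0 := by
  intro h
  apply a'_not_mem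
  rw [h]
  exact a'_mem

theorem K0_not_normal : ¬ K0.Normal := by
  intro hN
  have haK : a ∈ K0 := normal_mem_of_pow3 K0 hN (index_of_card K0 card_K0) a a_pow
  have h1 : Subgroup.closure ({a, b} : Set PSL(2, ZMod 11)) = H0 :=
    eq_of_mem H0 H0_equiv a b a_pow b_pow ab_sq a_ne a_mem b_mem
  have h2 : Subgroup.closure ({a, b} : Set PSL(2, ZMod 11)) = K0 :=
    eq_of_mem K0 K0_equiv a b a_pow b_pow ab_sq a_ne haK b_mem_K0
  exact H0_ne_K0 (h1.symm.trans h2)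

theorem not_conj (y : PSL(2, ZMod 11)) : MulAut.conj y • H0 ≠ K0 := by
  intro h
  have hb : b ∈ MulAut.conj y • H0 := by rw [h]; exact b_mem_K0
  rw [Subgroup.mem_pointwise_smul_iff_inv_smul_mem] at hb
  have hb' : y⁻¹ * b * y ∈ H0 := by
    have : (MulAut.conj y)⁻¹ • b = y⁻¹ * b * y := by
      rw [MulAut.smul_def, MulAut.conj_inv_apply]
    rw [← this]; exact hb
  have hy : y ∈ H0 := fix_b y hb'
  rw [Subgroup.conj_smul_eq_self_of_mem hy] at h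
  exact H0_ne_K0 h

theorem all_conj (L : Subgroup PSL(2, ZMod 11)) (hL : Nonempty (L ≃* alternatingGroup (Fin 5))) :
    ∃ y : PSL(2, ZMod 11), MulAut.conj y • L = H0 ∨ MulAut.conj y • L = K0 := by
  obtain ⟨u, v, huL, hvL, hu, hv, huv, hne⟩ := exists_gens L hL
  obtain ⟨y, hy⟩ := conj_to_a u hu hne
  have hv' : (y * v * y⁻¹) ^ 5 = 1 := by rw [conj_pow, hv]; group
  have huv' : (a * (y * v * y⁻¹)) ^ 2 = 1 := by
    have : a * (y * v * y⁻¹) = y * (u * v) * y⁻¹ := by rw [← hy]; group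
    rw [this, conj_pow, huv]; group
  obtain ⟨x, hx⟩ := classify (y * v * y⁻¹) hv' huv'
  have e1 : x * y * u * (x * y)⁻¹ = x * a * x⁻¹ := by rw [← hy]; group
  have e2 : x * y * v * (x * y)⁻¹ = x * (y * v * y⁻¹) * x⁻¹ := by group
  refine ⟨x * y, ?_⟩
  rcases hx with ⟨h1, h2⟩ | ⟨h1, h2⟩
  · left
    exact conj_eq_of_mem L H0 hL H0_equiv u v (x * y) huL hvL hu hv huv hne
      (by rw [e1]; exact h1) (by rw [e2]; exact h2)
  · right
    exact conj_eq_of_mem L K0 hL K0_equiv u v (x * y) huL hvL hu hv huv hne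
      (by rw [e1]; exact h1) (by rw [e2]; exact h2)

theorem main0 : P PSL(2, ZMod 11) := by
  have : Finite PSL(2, ZMod 11) := finite_G0
  refine ⟨?_, H0, K0, H0_equiv, K0_equiv, not_conj, all_conj⟩
  have hset : {L : Subgroup PSL(2, ZMod 11) | Nonempty (L ≃* alternatingGroup (Fin 5))} =
      Set.range (fun y : PSL(2, ZMod 11) => MulAut.conj y • H0) ∪
      Set.range (fun y : PSL(2, ZMod 11) => MulAut.conj y • K0) := by
    ext L
    constructor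
    · intro hL
      obtain ⟨y, hy⟩ := all_conj L hL
      have hL2 : L = MulAut.conj y⁻¹ • (MulAut.conj y • L) := by
        rw [smul_smul, ← map_mul, inv_mul_cancel, map_one, one_smul]
      rcases hy with hy | hy
      · left
        exact ⟨y⁻¹, by rw [hL2, hy]⟩
      · right
        exact ⟨y⁻¹, by rw [hL2, hy]⟩
    · rintro (⟨y, rfl⟩ | ⟨y, rfl⟩)
      · obtain ⟨e⟩ := H0_equiv
        exact ⟨(Subgroup.equivSMul (MulAut.conj y) H0).symm.trans e⟩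
      · obtain ⟨e⟩ := K0_equiv
        exact ⟨(Subgroup.equivSMul (MulAut.conj y) K0).symm.trans e⟩
  have hdisj : Disjoint (Set.range (fun y : PSL(2, ZMod 11) => MulAut.conj y • H0))
      (Set.range (fun y : PSL(2, ZMod 11) => MulAut.conj y • K0)) := by
    rw [Set.disjoint_left]
    rintro _ ⟨y1, rfl⟩ ⟨y2, h⟩
    apply not_conj (y2⁻¹ * y1)
    have h' : MulAut.conj y2 • K0 = MulAut.conj y1 • H0 := h
    rw [map_mul, mul_smul, ← h', smul_smul, ← map_mul, inv_mul_cancel, map_one, one_smul]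
  have hc : Nat.card {L : Subgroup PSL(2, ZMod 11) // Nonempty (L ≃* alternatingGroup (Fin 5))} =
      Set.ncard {L : Subgroup PSL(2, ZMod 11) | Nonempty (L ≃* alternatingGroup (Fin 5))} :=
    Nat.card_coe_set_eq _
  rw [hc, hset, Set.ncard_union_eq hdisj (Set.toFinite _) (Set.toFinite _),
    ncard_conj_range H0 (self_norm H0 card_H0 H0_not_normal),
    ncard_conj_range K0 (self_norm K0 card_K0 K0_not_normal), index_H0,
    index_of_card K0 card_K0]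

/-- `PSL(2, F)` for `|F| = 11` -/
theorem main {F : Type*} [Field F] [Fintype F] (hF : Fintype.card F = 11) : P PSL(2, F) := by
  classical
  have hp : Fact (Nat.Prime 11) := ⟨by norm_num⟩
  let eF : ZMod 11 ≃+* F := ZMod.ringEquivOfPrime F (by norm_num) hF
  let e : PSL(2, ZMod 11) ≃* PSL(2, F) :=
    QuotientGroup.congr (Subgroup.center SL(2, ZMod 11)) (Subgroup.center SL(2, F))
      (Cfsg.Agent.H6.slMapEquiv eF) (map_center_of_mulEquiv _)
  exact P_of_equiv e main0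

end Cfsg.Agent.H98.A5L11
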