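import Mathlib
import Cfsg.Agent.H98.C2C

set_option autoImplicit false

/-!
# Groups with an involution whose centraliser is that of a transvection of `SL(5, 2)` (helper98)

For an injective homomorphism `φ : Gam →* G` with image the centraliser of `z = φ s0`, the image `Q`
of the unipotent radical is the largest normal `2`-subgroup of the centraliser; it is extraspecial
of order `2 ^ 7`, self-centralising in `G`, and complemented by a copy of `SL(3, 2)`.
-/

namespace Cfsg.Agent.H98.C2A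

open Cfsg Matrix Cfsg.Agent.H98.TransvCent

/-- a model of the centraliser of an involution `z` by the centraliser of a transvection -/
structure Model {G : Type*} [Group G] (z : G) (φ : Gam →* G) : Prop where
  inj : Function.Injective φ
  range : φ.range = Subgroup.centralizer {z}
  map_s0 : φ (qG 1 0 0) = z

namespace Model

variable {G : Type*} [Group G] {z : G} {φ : Gam →* G}

theorem mem_cent (h : Model z φ) (M : Gam) : φ M ∈ Subgroup.centralizer {z} := by
  rw [← h.range]
  exact ⟨M, rfl⟩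

theorem exists_of_mem_cent (h : Model z φ) {x : G} (hx : x ∈ Subgroup.centralizer {z}) :
    ∃ M, φ M = x := by
  rw [← h.range] at hx
  exact hx

theorem exists_of_comm (h : Model z φ) {x : G} (hx : x * z = z * x) : ∃ M, φ M = x := by
  apply h.exists_of_mem_cent
  rw [Subgroup.mem_centralizer_iff]
  intro y hy
  rw [Set.mem_singleton_iff] at hy
  rw [hy]
  exact hx.symm

theorem comm_z (h : Model z φ) (M : Gam) : φ M * z = z * φ M := by
  have h1 := Subgroup.mem_centralizer_iff.mp (h.mem_cent M) z rfl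
  exact h1.symm

theorem z_ne_one (h : Model z φ) : z ≠ 1 := by
  rw [← h.map_s0]
  intro h1
  rw [← map_one φ] at h1
  exact qG_one_ne (h.inj h1)

theorem z_sq (h : Model z φ) : z * z = 1 := by
  rw [← h.map_s0, ← map_mul, qG_sq, zero_dotProduct, qG_one, map_one]

/-- the equivalence with the centraliser -/
noncomputable def equiv (h : Model z φ) : Gam ≃* Subgroup.centralizer ({z} : Set G) :=
  (MonoidHom.ofInjective h.inj).trans (MulEquiv.subgroupCongr h.range)

theorem pCore_eq (h : Model z φ) :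
    (pCore 2 ↥(Subgroup.centralizer ({z} : Set G))).map
      (Subgroup.centralizer ({z} : Set G)).subtype = QG.map φ := by
  rw [← Cfsg.Agent.H40.Sec.pCore_map_equiv h.equiv, pCore_Gam, Subgroup.map_map]
  have e : (Subgroup.centralizer ({z} : Set G)).subtype.comp h.equiv.toMonoidHom = φ :=
    MonoidHom.ext (fun M => rfl)
  rw [e]

theorem mem_Q (a : ZMod 2) (u c : Fin 3 → ZMod 2) : φ (qG a u c) ∈ QG.map φ :=
  Subgroup.mem_map_of_mem φ (qG_mem a u c)

theorem exists_of_mem_Q {x : G} (hx : x ∈ QG.map φ) :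
    ∃ (a : ZMod 2) (u c : Fin 3 → ZMod 2), x = φ (qG a u c) := by
  obtain ⟨M, hM, rfl⟩ := hx
  obtain ⟨a, u, c, rfl⟩ := exists_of_mem_QG hM
  exact ⟨a, u, c, rfl⟩

theorem z_mem_Q (h : Model z φ) : z ∈ QG.map φ := by
  rw [← h.map_s0]
  exact mem_Q 1 0 0

theorem qG_zero_or (d : ZMod 2) : qG d 0 0 = 1 ∨ qG d 0 0 = qG 1 0 0 := by
  rcases zmod2_cases d with h | h
  · left
    rw [h, qG_one]
  · right
    rw [h]

theorem extraspecial [Finite G] (h : Model z φ) : IsExtraspecial 2 ↥(QG.map φ) := by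
  apply Cfsg.Agent.H92.isExtraspecial_two_of (QG.map φ) z h.z_mem_Q h.z_ne_one h.z_sq
  · intro x hx
    obtain ⟨a, u, c, rfl⟩ := exists_of_mem_Q hx
    exact h.comm_z _
  · intro x hx y hy
    obtain ⟨a, u, c, rfl⟩ := exists_of_mem_Q hx
    obtain ⟨a', u', c', rfl⟩ := exists_of_mem_Q hy
    rw [← map_inv, ← map_inv, ← map_mul, ← map_mul, ← map_mul, qG_comm, ← h.map_s0]
    rcases qG_zero_or (u ⬝ᵥ c' + u' ⬝ᵥ c) with h1 | h1
    · left
      rw [h1, map_one]
    · right
      rw [h1]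
  · intro x hx
    obtain ⟨a, u, c, rfl⟩ := exists_of_mem_Q hx
    rw [← map_mul, qG_sq, ← h.map_s0]
    rcases qG_zero_or (u ⬝ᵥ c) with h1 | h1
    · left
      rw [h1, map_one]
    · right
      rw [h1]
  · intro x hx hcomm
    obtain ⟨a, u, c, rfl⟩ := exists_of_mem_Q hx
    have h1 : ∀ (a' : ZMod 2) (u' c' : Fin 3 → ZMod 2),
        qG a' u' c' * qG a u c = qG a u c * qG a' u' c' := by
      intro a' u' c'
      apply h.inj
      rw [map_mul, map_mul]
      exact hcomm _ (mem_Q a' u' c')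
    obtain ⟨hu, hc⟩ := qG_central h1
    rw [hu, hc, ← h.map_s0]
    rcases qG_zero_or a with h2 | h2
    · left
      rw [h2, map_one]
    · right
      rw [h2]
  · refine ⟨φ (qG 0 (Pi.single 0 1) 0), mem_Q _ _ _, φ (qG 0 0 (Pi.single 0 1)), mem_Q _ _ _, ?_⟩
    intro h1
    rw [← map_mul, ← map_mul] at h1
    have h2 := h.inj h1
    rw [qG_mul_comm] at h2
    have h3 : qG ((Pi.single 0 1 : Fin 3 → ZMod 2) ⬝ᵥ (Pi.single 0 1 : Fin 3 → ZMod 2) +
        (0 : Fin 3 → ZMod 2) ⬝ᵥ (0 : Fin 3 → ZMod 2)) 0 0 = 1 := mul_eq_right.mp h2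
    rw [← qG_one] at h3
    have h4 := (qG_inj h3).1
    simp at h4

theorem card_Q (h : Model z φ) : Nat.card ↥(QG.map φ) = 2 ^ 7 := by
  rw [Subgroup.card_map_of_injective h.inj, card_QG]

theorem isPGroup_Q (h : Model z φ) : IsPGroup 2 ↥(QG.map φ) := by
  have : Fact (Nat.Prime 2) := ⟨Nat.prime_two⟩
  exact IsPGroup.of_card h.card_Q

/-- the translations, as a homomorphism -/
def eHom : Multiplicative (ZMod 2 × (Fin 3 → ZMod 2)) →* Gam where
  toFun x := qG (Multiplicative.toAdd x).1 0 (Multiplicative.toAdd x).2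
  map_one' := qG_one
  map_mul' x y := by
    show qG ((Multiplicative.toAdd x).1 + (Multiplicative.toAdd y).1) 0
      ((Multiplicative.toAdd x).2 + (Multiplicative.toAdd y).2) = _
    rw [qG_mul, zero_dotProduct, add_zero, add_zero]

theorem eHom_injective : Function.Injective eHom := by
  intro x y hxy
  obtain ⟨h1, _, h3⟩ := qG_inj hxy
  exact Prod.ext h1 h3

theorem exists_E (h : Model z φ) : ∃ E : Subgroup G, E ≤ QG.map φ ∧ IsElementaryAbelian 2 E ∧
    Nat.card ↥E = 2 ^ 4 := by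
  refine ⟨(φ.comp eHom).range, ?_, ⟨⟨⟨fun a b => Subtype.ext ?_⟩⟩, ?_⟩, ?_⟩
  · rintro _ ⟨x, rfl⟩
    exact mem_Q _ _ _
  · obtain ⟨x, hx⟩ := a.2
    obtain ⟨y, hy⟩ := b.2
    show a.1 * b.1 = b.1 * a.1
    rw [← hx, ← hy, ← map_mul, ← map_mul, mul_comm]
  · rintro _ ⟨x, rfl⟩
    rw [← map_pow]
    have h1 : x ^ 2 = 1 := by
      rw [pow_two]
      apply Multiplicative.toAdd.injective
      show Multiplicative.toAdd x + Multiplicative.toAdd x = 0
      ext i
      · exact CharTwo.add_self_eq_zero _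
      · exact CharTwo.add_self_eq_zero _
    rw [h1, map_one]
  · have hinj : Function.Injective (φ.comp eHom) := h.inj.comp eHom_injective
    rw [← Nat.card_congr (MonoidHom.ofInjective hinj).toEquiv, Nat.card_eq_fintype_card]
    simp [ZMod.card]

theorem centralizer_Q (h : Model z φ) :
    Subgroup.centralizer ((QG.map φ : Subgroup G) : Set G) =
      (Subgroup.center ↥(QG.map φ)).map (QG.map φ).subtype := by
  ext x
  rw [Cfsg.Agent.H92.mem_centerMap_iff, Subgroup.mem_centralizer_iff]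
  constructor
  · intro hx
    have hxz : x * z = z * x := (hx z h.z_mem_Q).symm
    obtain ⟨M, rfl⟩ := h.exists_of_comm hxz
    have h1 : ∀ (a' : ZMod 2) (u' c' : Fin 3 → ZMod 2), qG a' u' c' * M = M * qG a' u' c' := by
      intro a' u' c'
      apply h.inj
      rw [map_mul, map_mul]
      exact hx _ (mem_Q a' u' c')
    obtain ⟨a, rfl⟩ := cent_QG h1
    exact ⟨mem_Q _ _ _, fun q hq => hx q hq⟩
  · rintro ⟨_, hx⟩
    exact fun q hq => hx q hq

theorem conj_mem_Q (M : Gam) {x : G} (hx : x ∈ QG.map φ) : φ M * x * (φ M)⁻¹ ∈ QG.map φ := by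
  obtain ⟨N, hN, rfl⟩ := hx
  rw [← map_inv, ← map_mul, ← map_mul]
  have hn : QG.Normal := MonoidHom.normal_ker blkHom
  exact Subgroup.mem_map_of_mem φ (hn.conj_mem N hN M)

theorem cent_le_normalizer (h : Model z φ) :
    Subgroup.centralizer
        (((Subgroup.center ↥(QG.map φ)).map (QG.map φ).subtype : Subgroup G) : Set G) ≤
      Subgroup.normalizer ((QG.map φ : Subgroup G) : Set G) := by
  intro x hx
  rw [Subgroup.mem_centralizer_iff] at hx
  have hz : z ∈ (Subgroup.center ↥(QG.map φ)).map (QG.map φ).subtype := by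
    rw [Cfsg.Agent.H92.mem_centerMap_iff]
    refine ⟨h.z_mem_Q, fun q hq => ?_⟩
    obtain ⟨a, u, c, rfl⟩ := exists_of_mem_Q hq
    exact h.comm_z _
  obtain ⟨M, rfl⟩ := h.exists_of_comm (hx z hz).symm
  rw [Subgroup.mem_normalizer_iff]
  intro y
  constructor
  · exact fun hy => conj_mem_Q M hy
  · intro hy
    have h1 := conj_mem_Q (φ := φ) M⁻¹ hy
    rw [map_inv, inv_inv] at h1
    have h2 : (φ M)⁻¹ * (φ M * y * (φ M)⁻¹) * φ M = y := by group
    rw [h2] at h1
    exact h1

theorem exists_K (h : Model z φ) : ∃ K : Subgroup G, K ≤ Subgroup.centralizer ({z} : Set G) ∧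
    QG.map φ ⊓ K = ⊥ ∧ QG.map φ ⊔ K = Subgroup.centralizer ({z} : Set G) ∧
    Nonempty (↥K ≃* Matrix.SpecialLinearGroup (Fin 3) (ZMod 2)) := by
  refine ⟨(φ.comp iotaG).range, ?_, ?_, ?_, ?_⟩
  · rintro _ ⟨B, rfl⟩
    exact h.mem_cent _
  · rw [eq_bot_iff]
    rintro x ⟨hx1, ⟨B, rfl⟩⟩
    obtain ⟨M, hM, hMB⟩ := hx1
    have h1 : M = iotaG B := h.inj hMB
    rw [h1] at hM
    have hM' : iotaG B ∈ blkHom.ker := hM
    rw [MonoidHom.mem_ker, blkHom_iotaG] at hM'
    rw [Subgroup.mem_bot, hM']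
    show φ (iotaG 1) = 1
    rw [map_one, map_one]
  · apply le_antisymm
    · rw [sup_le_iff]
      constructor
      · rintro _ ⟨M, _, rfl⟩
        exact h.mem_cent _
      · rintro _ ⟨B, rfl⟩
        exact h.mem_cent _
    · intro x hx
      obtain ⟨M, rfl⟩ := h.exists_of_mem_cent hx
      obtain ⟨a, u, c, B, hM⟩ := decomp M.2
      have h1 : M = qG 0 0 c * iotaG B * qG a u 0 := Subtype.ext hM
      rw [h1, map_mul, map_mul]
      have hq : ∀ (a' : ZMod 2) (u' c' : Fin 3 → ZMod 2),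
          φ (qG a' u' c') ∈ QG.map φ ⊔ (φ.comp iotaG).range :=
        fun a' u' c' => Subgroup.mem_sup_left (mem_Q a' u' c')
      have hk : φ (iotaG B) ∈ QG.map φ ⊔ (φ.comp iotaG).range :=
        Subgroup.mem_sup_right ⟨B, rfl⟩
      exact Subgroup.mul_mem _ (Subgroup.mul_mem _ (hq _ _ _) hk) (hq _ _ _)
  · have hinj : Function.Injective (φ.comp iotaG) := h.inj.comp iotaG_injective
    exact ⟨(MonoidHom.ofInjective hinj).symm⟩

end Model

end Cfsg.Agent.H98.C2A
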