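import Mathlib
import Cfsg.Agent.H98.C2D

set_option autoImplicit false

/-!
# The centraliser of a `2A`-involution of `M24`: structure (helper98)

Every involution of `M24` whose fixed points form an octad is conjugate to `zM`; its centraliser is
modelled by the centraliser of a transvection of `SL(5, 2)`, compatibly with the action on the
points, and the image `Q` of the unipotent radical is a large extraspecial subgroup.
-/

namespace Cfsg.Agent.H98.C2A

open Cfsg Cfsg.Agent.H9 Matrix Cfsg.Agent.H98.TransvCent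

/-! ### Codes of the images of the unipotent elements -/

theorem res16_gamEquivA (M : Gam) : res16 (gamEquivA M) = psi16 M := by
  have h : (MonoidHom.ofInjective res16_injective) (gamEquivA M) =
      MulEquiv.subgroupCongr range_eq (MonoidHom.ofInjective psi16_injective M) := by
    unfold gamEquivA
    simp
  exact congrArg Subtype.val h

theorem rep_of_code {M : Gam} {P : ℕ} (h1 : validP P = true) (h2 : chkM24 P = true)
    (h3 : commB P = true)
    (h4 : ∀ p : GolayPt, z0 p ≠ p → gIdx (act16 M.1.1 p) = lk P (gIdx p)) :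
    H9.Rep P (gamEquivA M).1 := by
  obtain ⟨g, hg⟩ := exists_A_of_code h1 h2 h3
  have h5 : res16 g = psi16 M := by
    refine Equiv.ext fun p => ?_
    rw [res16_apply, psi16_apply]
    unfold resFun
    by_cases hp : z0 p ≠ p
    · rw [if_pos hp]
      apply gIdx_injective
      rw [hg, h4 p hp]
    · rw [if_neg hp, act16_fixed _ hp]
  have h6 : g = gamEquivA M := res16_injective (h5.trans (res16_gamEquivA M).symm)
  rw [← h6]
  exact hg

theorem rep_qG (a u0 u1 u2 c0 c1 c2 : ZMod 2) :
    H9.Rep (qCodes.getD (qIdx a u0 u1 u2 c0 c1 c2) 0)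
      (gamEquivA (qG a ![u0, u1, u2] ![c0, c1, c2])).1 := by
  have hlt := qIdx_lt a u0 u1 u2 c0 c1 c2
  have hmem : qCodes.getD (qIdx a u0 u1 u2 c0 c1 c2) 0 ∈ qCodes := by
    rw [List.getD_eq_getElem _ _ (by rw [qCodes_length]; exact hlt)]
    exact List.getElem_mem _
  have h1 := List.all_eq_true.mp qCodes_ok _ hmem
  simp only [Bool.and_eq_true] at h1
  exact rep_of_code h1.1.1 h1.1.2 h1.2 (fun p hp => qCodes_act a u0 u1 u2 c0 c1 c2 p hp)

/-! ### The model for `zM` -/

/-- the embedding of the linear centraliser in `M24` -/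
noncomputable def phi0 : Gam →* M24 :=
  (Subgroup.centralizer ({zM} : Set M24)).subtype.comp
    (centEquivA.symm.toMonoidHom.comp gamEquivA.toMonoidHom)

theorem phi0_val (M : Gam) : ((phi0 M : M24) : Equiv.Perm GolayPt) = (gamEquivA M).1 := rfl

theorem rep_phi0 (a u0 u1 u2 c0 c1 c2 : ZMod 2) :
    H9.Rep (qCodes.getD (qIdx a u0 u1 u2 c0 c1 c2) 0)
      (phi0 (qG a ![u0, u1, u2] ![c0, c1, c2])).1 := rep_qG a u0 u1 u2 c0 c1 c2

theorem zero3 : (0 : Fin 3 → ZMod 2) = ![0, 0, 0] := by
  funext i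
  fin_cases i <;> rfl

theorem code_one : qCodes.getD (qIdx 1 0 0 0 0 0 0) 0 = Pz := by decide +kernel

theorem model_zM : Model zM phi0 where
  inj := by
    intro M N h
    have h1 : (gamEquivA M).1 = (gamEquivA N).1 := congrArg (fun x : M24 => x.1) h
    exact gamEquivA.injective (Subtype.ext h1)
  range := by
    ext x
    constructor
    · rintro ⟨M, rfl⟩
      exact (centEquivA.symm (gamEquivA M)).2
    · intro hx
      refine ⟨gamEquivA.symm (centEquivA ⟨x, hx⟩), ?_⟩
      apply Subtype.ext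
      rw [phi0_val, MulEquiv.apply_symm_apply]
      rfl
  map_s0 := by
    apply Subtype.ext
    have h1 := rep_phi0 1 0 0 0 0 0 0
    rw [code_one, ← zero3] at h1
    exact rep_unique h1 rep_z0

/-- a model compatible with the action on the points -/
structure Model24 (z : M24) (φ : Gam →* M24) : Prop where
  toModel : Model z φ
  fixO : ∀ (a : ZMod 2) (c : Fin 3 → ZMod 2) (o : GolayPt), z.1 o = o → (φ (qG a 0 c)).1 o = o
  transOut : ∀ p p' : GolayPt, z.1 p ≠ p → z.1 p' ≠ p' →
    ∃ (a : ZMod 2) (c : Fin 3 → ZMod 2), (φ (qG a 0 c)).1 p = p'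
  transO : ∀ o o' : GolayPt, z.1 o = o → z.1 o' = o' →
    ∃ (a : ZMod 2) (u c : Fin 3 → ZMod 2), (φ (qG a u c)).1 o = o'

theorem fixO_codes : ∀ a c0 c1 c2 : ZMod 2, ∀ o : GolayPt, z0 o = o →
    lk (qCodes.getD (qIdx a 0 0 0 c0 c1 c2) 0) (gIdx o) = gIdx o := by decide +kernel

theorem transOut_codes : ∀ p p' : GolayPt, z0 p ≠ p → z0 p' ≠ p' →
    ∃ a c0 c1 c2 : ZMod 2, lk (qCodes.getD (qIdx a 0 0 0 c0 c1 c2) 0) (gIdx p) = gIdx p' := by
  decide +kernel

theorem transO_codes : ∀ o o' : GolayPt, z0 o = o → z0 o' = o' →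
    ∃ u0 u1 u2 : ZMod 2, lk (qCodes.getD (qIdx 0 u0 u1 u2 0 0 0) 0) (gIdx o) = gIdx o' := by
  decide +kernel

theorem model24_zM : Model24 zM phi0 where
  toModel := model_zM
  fixO := by
    intro a c o ho
    have h1 := rep_phi0 a 0 0 0 (c 0) (c 1) (c 2)
    rw [← zero3, ← eta3] at h1
    apply gIdx_injective
    rw [h1]
    exact fixO_codes a (c 0) (c 1) (c 2) o ho
  transOut := by
    intro p p' hp hp'
    obtain ⟨a, c0, c1, c2, h⟩ := transOut_codes p p' hp hp'
    refine ⟨a, ![c0, c1, c2], ?_⟩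
    have h1 := rep_phi0 a 0 0 0 c0 c1 c2
    rw [← zero3] at h1
    apply gIdx_injective
    rw [h1]
    exact h
  transO := by
    intro o o' ho ho'
    obtain ⟨u0, u1, u2, h⟩ := transO_codes o o' ho ho'
    refine ⟨0, ![u0, u1, u2], 0, ?_⟩
    have h1 := rep_phi0 0 u0 u1 u2 0 0 0
    rw [← zero3] at h1
    apply gIdx_injective
    rw [h1]
    exact h

/-! ### Conjugation of models -/

theorem conj_apply (g x : M24) (o : GolayPt) :
    ((g * x * g⁻¹ : M24) : Equiv.Perm GolayPt) o = g.1 (x.1 (g.1.symm o)) := rfl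

theorem fix_conj_iff (g x : M24) (o : GolayPt) :
    ((g * x * g⁻¹ : M24) : Equiv.Perm GolayPt) o = o ↔ x.1 (g.1.symm o) = g.1.symm o := by
  rw [conj_apply, ← Equiv.eq_symm_apply]

theorem Model24.conj {z : M24} {φ : Gam →* M24} (h : Model24 z φ) (g : M24) :
    Model24 (g * z * g⁻¹) ((MulAut.conj g).toMonoidHom.comp φ) where
  toModel :=
    { inj := (MulAut.conj g).injective.comp h.toModel.inj
      range := by
        ext x
        rw [Subgroup.mem_centralizer_iff]
        constructor
        · rintro ⟨M, rfl⟩ y hy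
          rw [Set.mem_singleton_iff] at hy
          subst hy
          show g * z * g⁻¹ * (g * φ M * g⁻¹) = g * φ M * g⁻¹ * (g * z * g⁻¹)
          have h1 := h.toModel.comm_z M
          calc g * z * g⁻¹ * (g * φ M * g⁻¹) = g * (z * φ M) * g⁻¹ := by group
            _ = g * (φ M * z) * g⁻¹ := by rw [h1]
            _ = g * φ M * g⁻¹ * (g * z * g⁻¹) := by group
        · intro hx
          have h0 := hx (g * z * g⁻¹) rfl
          have h1 : (g⁻¹ * x * g) * z = z * (g⁻¹ * x * g) := by
            calc (g⁻¹ * x * g) * z = g⁻¹ * (x * (g * z * g⁻¹)) * g := by group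
              _ = g⁻¹ * ((g * z * g⁻¹) * x) * g := by rw [h0]
              _ = z * (g⁻¹ * x * g) := by group
          obtain ⟨M, hM⟩ := h.toModel.exists_of_comm h1
          refine ⟨M, ?_⟩
          show g * φ M * g⁻¹ = x
          rw [hM]
          group
      map_s0 := by
        show g * φ (qG 1 0 0) * g⁻¹ = _
        rw [h.toModel.map_s0] }
  fixO := by
    intro a c o ho
    rw [fix_conj_iff] at ho
    show ((g * φ (qG a 0 c) * g⁻¹ : M24) : Equiv.Perm GolayPt) o = o
    rw [fix_conj_iff]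
    exact h.fixO a c _ ho
  transOut := by
    intro p p' hp hp'
    rw [Ne, fix_conj_iff] at hp hp'
    obtain ⟨a, c, hac⟩ := h.transOut _ _ hp hp'
    refine ⟨a, c, ?_⟩
    show ((g * φ (qG a 0 c) * g⁻¹ : M24) : Equiv.Perm GolayPt) p = p'
    rw [conj_apply, hac, Equiv.apply_symm_apply]
  transO := by
    intro o o' ho ho'
    rw [fix_conj_iff] at ho ho'
    obtain ⟨a, u, c, hac⟩ := h.transO _ _ ho ho'
    refine ⟨a, u, c, ?_⟩
    show ((g * φ (qG a u c) * g⁻¹ : M24) : Equiv.Perm GolayPt) o = o'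
    rw [conj_apply, hac, Equiv.apply_symm_apply]

end Cfsg.Agent.H98.C2A
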