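import Mathlib
import Cfsg.Agent.H98.C2E

set_option autoImplicit false

/-!
# The centraliser of a `2A`-involution of `M24`: the large extraspecial subgroup (helper98)
-/

namespace Cfsg.Agent.H98.C2A

open Cfsg Cfsg.Agent.H9 Matrix Cfsg.Agent.H98.TransvCent

/-! ### Subgroups of odd order normalised by `Q` -/

theorem eq_one_of_sq_of_odd {G : Type*} [Group G] (K : Subgroup G) [Finite K]
    (hK : Odd (Nat.card K)) {w : G} (hw : w ∈ K) (hw2 : w * w = 1) : w = 1 := by
  obtain ⟨m, hm⟩ := hK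
  have h1 : (⟨w, hw⟩ : K) ^ Nat.card K = 1 := pow_card_eq_one'
  have h2 : w ^ Nat.card K = 1 := by
    have := congrArg Subtype.val h1
    simpa only [Subgroup.coe_pow, Subgroup.coe_one] using this
  rw [hm, pow_succ, pow_mul, pow_two, hw2, one_pow, one_mul] at h2
  exact h2

theorem comm_of_conj_eq_one {G : Type*} [Group G] {k e : G} (h : k * e * k⁻¹ * e⁻¹ = 1) :
    k * e = e * k := by
  calc k * e = (k * e * k⁻¹ * e⁻¹) * (e * k) := by group
    _ = e * k := by rw [h, one_mul]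

theorem Model24.odd_trivial {z : M24} {φ : Gam →* M24} (h : Model24 z φ)
    (hO : (Finset.univ.filter fun p : GolayPt => (z : Equiv.Perm GolayPt) p = p) ∈ octads)
    (K : Subgroup M24) (hK : Odd (Nat.card K))
    (hQK : QG.map φ ≤ Subgroup.normalizer (K : Set M24)) : K = ⊥ := by
  have hnorm : ∀ q ∈ QG.map φ, ∀ k ∈ K, q * k * q⁻¹ ∈ K := fun q hq k hk =>
    (Subgroup.mem_normalizer_iff.mp (hQK hq) k).mp hk
  -- step 1: `K` preserves the fixed octad
  have hpres : ∀ k ∈ K, ∀ o : GolayPt, z.1 o = o → z.1 (k.1 o) = k.1 o := by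
    by_contra hcon
    simp only [not_forall, exists_prop] at hcon
    obtain ⟨k₀, hk₀K, o₀, ho₀, hk₀⟩ := hcon
    have out : ∀ x : GolayPt, z.1 x ≠ x → ∃ k ∈ K, k.1 o₀ = x := by
      intro x hx
      obtain ⟨a, c, hac⟩ := h.transOut (k₀.1 o₀) x hk₀ hx
      have he : (φ (qG a 0 c)).1 o₀ = o₀ := h.fixO a c o₀ ho₀
      have he' : (φ (qG a 0 c)).1.symm o₀ = o₀ := by
        rw [Equiv.symm_apply_eq]
        exact he.symm
      refine ⟨φ (qG a 0 c) * k₀ * (φ (qG a 0 c))⁻¹, hnorm _ (Model.mem_Q a 0 c) k₀ hk₀K, ?_⟩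
      rw [conj_apply, he']
      exact hac
    have all : ∀ x : GolayPt, ∃ k ∈ K, k.1 o₀ = x := by
      intro x
      by_cases hx : z.1 x = x
      · obtain ⟨a, u, c, hq⟩ := h.transO o₀ x ho₀ hx
        have hc : ∀ p : GolayPt, (φ (qG a u c)).1 (z.1 p) = z.1 ((φ (qG a u c)).1 p) := fun p =>
          congrArg (fun f : M24 => f.1 p) (h.toModel.comm_z (qG a u c))
        have hy : z.1 ((φ (qG a u c)).1.symm (k₀.1 o₀)) ≠ (φ (qG a u c)).1.symm (k₀.1 o₀) := by
          intro hcon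
          apply hk₀
          have h1 := hc ((φ (qG a u c)).1.symm (k₀.1 o₀))
          rw [hcon, Equiv.apply_symm_apply] at h1
          exact h1.symm
        obtain ⟨k₁, hk₁K, hk₁⟩ := out _ hy
        have hk₂ : ((φ (qG a u c) * k₁ * (φ (qG a u c))⁻¹ : M24) : Equiv.Perm GolayPt) x =
            k₀.1 o₀ := by
          rw [conj_apply, ← hq, Equiv.symm_apply_apply, hk₁, Equiv.apply_symm_apply]
        refine ⟨(φ (qG a u c) * k₁ * (φ (qG a u c))⁻¹)⁻¹ * k₀,
          K.mul_mem (K.inv_mem (hnorm _ (Model.mem_Q a u c) k₁ hk₁K)) hk₀K, ?_⟩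
        show ((φ (qG a u c) * k₁ * (φ (qG a u c))⁻¹ : M24) : Equiv.Perm GolayPt).symm (k₀.1 o₀) = x
        rw [Equiv.symm_apply_eq]
        exact hk₂.symm
      · exact out x hx
    have horb : MulAction.orbit K o₀ = Set.univ := by
      rw [Set.eq_univ_iff_forall]
      intro x
      obtain ⟨k, hk, hkx⟩ := all x
      exact ⟨⟨k, hk⟩, hkx⟩
    have hcard := card_eq_orbit_mul_inf K o₀
    have h24' : Nat.card GolayPt = 24 := by rw [Nat.card_eq_fintype_card, card_golayPt]
    rw [horb, Set.ncard_univ, h24'] at hcard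
    rw [hcard] at hK
    have h24 : Even (24 * Nat.card ↥(K ⊓ MulAction.stabilizer (↥M24) o₀)) :=
      Even.mul_right (by decide) _
    exact (Nat.not_even_iff_odd.mpr hK) h24
  -- step 2: `K` centralises the translations
  have hcommE : ∀ k ∈ K, ∀ (a : ZMod 2) (c : Fin 3 → ZMod 2),
      k * φ (qG a 0 c) = φ (qG a 0 c) * k := by
    intro k hk a c
    apply comm_of_conj_eq_one
    have hwK : k * φ (qG a 0 c) * k⁻¹ * (φ (qG a 0 c))⁻¹ ∈ K := by
      have h1 := hnorm _ (Model.mem_Q (φ := φ) a 0 c) k⁻¹ (K.inv_mem hk)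
      have h2 := K.mul_mem hk h1
      have h3 : k * (φ (qG a 0 c) * k⁻¹ * (φ (qG a 0 c))⁻¹) =
          k * φ (qG a 0 c) * k⁻¹ * (φ (qG a 0 c))⁻¹ := by group
      rw [h3] at h2
      exact h2
    apply eq_one_of_sq_of_odd K hK hwK
    have hfixw : ∀ o : GolayPt, z.1 o = o →
        ((k * φ (qG a 0 c) * k⁻¹ * (φ (qG a 0 c))⁻¹ : M24) : Equiv.Perm GolayPt) o = o := by
      intro o ho
      have he : (φ (qG a 0 c)).1 o = o := h.fixO a c o ho
      have he' : (φ (qG a 0 c)).1.symm o = o := by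
        rw [Equiv.symm_apply_eq]
        exact he.symm
      have hk' : z.1 (k.1.symm o) = k.1.symm o := hpres k⁻¹ (K.inv_mem hk) o ho
      show k.1 ((φ (qG a 0 c)).1 (k.1.symm ((φ (qG a 0 c)).1.symm o))) = o
      rw [he', h.fixO a c _ hk', Equiv.apply_symm_apply]
    have hmem : ((k * φ (qG a 0 c) * k⁻¹ * (φ (qG a 0 c))⁻¹ : M24) : Equiv.Perm GolayPt) ∈
        M24 ⊓ fixingSubgroup (Equiv.Perm GolayPt)
          (((Finset.univ.filter fun p : GolayPt => (z : Equiv.Perm GolayPt) p = p) :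
            Finset GolayPt) : Set GolayPt) := by
      refine Subgroup.mem_inf.mpr ⟨(k * φ (qG a 0 c) * k⁻¹ * (φ (qG a 0 c))⁻¹).2, ?_⟩
      rw [mem_fixingSubgroup_iff]
      intro o ho
      rw [Finset.mem_coe, Finset.mem_filter] at ho
      exact hfixw o ho.2
    exact Subtype.ext ((octad_fixer hO).2 _ hmem)
  -- step 3: `K` centralises `Q`
  have hKQ : QG.map φ ⊓ K = ⊥ :=
    Cfsg.Agent.H92.inf_eq_bot_of_two_odd (QG.map φ) K h.toModel.isPGroup_Q hK
  rw [eq_bot_iff]
  intro k hk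
  have hkz : k * z = z * k := by
    have h1 := hcommE k hk 1 0
    rw [h.toModel.map_s0] at h1
    exact h1
  obtain ⟨M, hM⟩ := h.toModel.exists_of_comm hkz
  have hcent : k ∈ Subgroup.centralizer ((QG.map φ : Subgroup M24) : Set M24) := by
    rw [Subgroup.mem_centralizer_iff]
    intro q hq
    symm
    apply comm_of_conj_eq_one
    have hv : k * q * k⁻¹ * q⁻¹ ∈ QG.map φ ⊓ K := by
      constructor
      · have h1 : k * q * k⁻¹ ∈ QG.map φ := by
          rw [← hM]
          exact Model.conj_mem_Q M hq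
        exact (QG.map φ).mul_mem h1 ((QG.map φ).inv_mem hq)
      · have h1 := hnorm q hq k⁻¹ (K.inv_mem hk)
        have h2 := K.mul_mem hk h1
        have h3 : k * (q * k⁻¹ * q⁻¹) = k * q * k⁻¹ * q⁻¹ := by group
        rw [h3] at h2
        exact h2
    rw [hKQ, Subgroup.mem_bot] at hv
    exact hv
  rw [h.toModel.centralizer_Q, Cfsg.Agent.H92.mem_centerMap_iff] at hcent
  have h1 : k ∈ QG.map φ ⊓ K := ⟨hcent.1, hk⟩
  rw [hKQ] at h1
  exact h1

end Cfsg.Agent.H98.C2A
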