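import Mathlib
import Cfsg.Agent.H98.C2F

set_option autoImplicit false

/-!
# The centraliser of a `2A`-involution of `M24`: conjugacy and the main statement (helper98)
-/

namespace Cfsg.Agent.H98.C2A

open Cfsg Cfsg.Agent.H9 Matrix Cfsg.Agent.H98.TransvCent
open scoped Pointwise

/-! ### Involutions fixing an octad pointwise are conjugate -/

/-- packed elements of `M24` conjugating `z0` to the other translations -/
def cjCodes : List ℕ :=
  [0xbdab49ca307b9ac5a928398a418820, 0xbdab49ca307b9ac5a928398a418820, 0x706b45ca36315aa0106938aec43e13, 0x2c2b404a2115da49b1033bdca49acb,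
   0xb81d43ca28595aa206c234eaf1c189, 0xba4b434a22255a17b01099dcb1a156, 0xb81cd6563331684505225a2501bcf6, 0xbd8ad5d62254a8181c0f431c61cc89,
   0xb80ad4c9cc446b6306627aa8419d70, 0x881d5350ac9ddab4850282a4419ecf, 0x95a951b8a1346f301169389a863e0a, 0x8c295038b6136e45218b3be5349823,
   0x901a585eac5d1d3786c232a2419d09, 0x9268535ea27c5c122007541ab1b276, 0x68257450aa346a49d9221b1d05bce1, 0x682579968c35630405225a9c419df6]

/-- the conjugating code of a translation -/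
def cjCode (a c0 c1 c2 : ZMod 2) : ℕ :=
  cjCodes.getD (a.val + 2 * c0.val + 4 * c1.val + 8 * c2.val) 0

theorem cjCodes_spec : ∀ a c0 c1 c2 : ZMod 2, (a ≠ 0 ∨ c0 ≠ 0 ∨ c1 ≠ 0 ∨ c2 ≠ 0) →
    (validP (cjCode a c0 c1 c2) && chkM24 (cjCode a c0 c1 c2) &&
      allB (fun i => Nat.beq (lk (cjCode a c0 c1 c2) (lk Pz i))
        (lk (qCodes.getD (qIdx a 0 0 0 c0 c1 c2) 0) (lk (cjCode a c0 c1 c2) i))) 24) = true := by
  decide +kernel

theorem conj_translation (a : ZMod 2) (c : Fin 3 → ZMod 2) (hac : a ≠ 0 ∨ c ≠ 0) :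
    ∃ g : M24, phi0 (qG a 0 c) = g * zM * g⁻¹ := by
  have hne : a ≠ 0 ∨ c 0 ≠ 0 ∨ c 1 ≠ 0 ∨ c 2 ≠ 0 := by
    by_contra hcon
    simp only [not_or, not_not] at hcon
    obtain ⟨h0, h1, h2, h3⟩ := hcon
    rcases hac with h | h
    · exact h h0
    · apply h
      rw [eta3 c, h1, h2, h3, zero3]
  have hspec := cjCodes_spec a (c 0) (c 1) (c 2) hne
  simp only [Bool.and_eq_true] at hspec
  obtain ⟨⟨hv, hchk⟩, hcomm⟩ := hspec
  obtain ⟨g, hg⟩ := exists_rep hv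
  have hgM : g ∈ M24 := mem_M24_of_chk hg hchk
  have ht := rep_phi0 a 0 0 0 (c 0) (c 1) (c 2)
  rw [← zero3, ← eta3] at ht
  have hgz : g * z0 = (phi0 (qG a 0 c)).1 * g := by
    refine Equiv.ext fun p => gIdx_injective ?_
    show gIdx (g (z0 p)) = gIdx ((phi0 (qG a 0 c)).1 (g p))
    rw [hg, rep_z0, ht, hg]
    exact Nat.eq_of_beq_eq_true ((allB_iff _ _).mp hcomm (gIdx p) (gIdx_lt p))
  refine ⟨⟨g, hgM⟩, ?_⟩
  have h1 : (⟨g, hgM⟩ : M24) * zM = phi0 (qG a 0 c) * ⟨g, hgM⟩ := Subtype.ext hgz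
  rw [h1]
  group

theorem fix_zM : (Finset.univ.filter fun p : GolayPt => z0 p = p) = fs 0xb66020 := by decide

theorem O0_mem : fs 0xb66020 ∈ octads :=
  fs_mem_octads (by decide +kernel) (by decide +kernel)

theorem fix_zM' : ∀ p : GolayPt, p ∈ fs 0xb66020 ↔ z0 p = p := by
  intro p
  rw [← fix_zM, Finset.mem_filter]
  simp

/-- every involution of `M24` whose fixed points form an octad is conjugate to `zM` -/
theorem exists_conj (z : M24) (hz : orderOf z = 2)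
    (hfix : (Finset.univ.filter fun p : GolayPt => (z : Equiv.Perm GolayPt) p = p) ∈ octads) :
    ∃ g : M24, z = g * zM * g⁻¹ := by
  obtain ⟨h, hh, hO⟩ := exists_smul_octad hfix O0_mem
  have hz1 : z ≠ 1 := by
    intro h1
    rw [h1, orderOf_one] at hz
    omega
  -- the conjugate of `z` fixing the standard octad
  have hz'fix : ∀ p ∈ fs 0xb66020,
      (((⟨h, hh⟩ : M24) * z * (⟨h, hh⟩ : M24)⁻¹ : M24) : Equiv.Perm GolayPt) p = p := by
    intro p hp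
    rw [← hO, Finset.mem_smul_finset] at hp
    obtain ⟨q, hq, rfl⟩ := hp
    rw [Finset.mem_filter] at hq
    show h (z.1 (h.symm (h q))) = h q
    rw [Equiv.symm_apply_apply, hq.2]
  have hcard := (octad_fixer O0_mem).1
  have hmemF : ∀ (a : ZMod 2) (c : Fin 3 → ZMod 2), (phi0 (qG a 0 c)).1 ∈
      M24 ⊓ fixingSubgroup (Equiv.Perm GolayPt) ((fs 0xb66020 : Finset GolayPt) : Set GolayPt) := by
    intro a c
    refine Subgroup.mem_inf.mpr ⟨(phi0 (qG a 0 c)).2, ?_⟩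
    rw [mem_fixingSubgroup_iff]
    intro o ho
    rw [Finset.mem_coe, fix_zM'] at ho
    exact model24_zM.fixO a c o ho
  let f : ZMod 2 × (Fin 3 → ZMod 2) →
      ↥(M24 ⊓ fixingSubgroup (Equiv.Perm GolayPt) ((fs 0xb66020 : Finset GolayPt) : Set GolayPt)) :=
    fun x => ⟨(phi0 (qG x.1 0 x.2)).1, hmemF x.1 x.2⟩
  have hf : Function.Injective f := by
    rintro ⟨a, c⟩ ⟨a', c'⟩ hx
    have h0 : (f (a, c)).1 = (f (a', c')).1 := congrArg Subtype.val hx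
    have h1 : (phi0 (qG a 0 c)).1 = (phi0 (qG a' 0 c')).1 := h0
    obtain ⟨h2, _, h3⟩ := qG_inj (model_zM.inj (Subtype.ext h1))
    exact Prod.ext h2 h3
  have hbij : Function.Bijective f := by
    rw [Nat.bijective_iff_injective_and_card]
    refine ⟨hf, ?_⟩
    rw [hcard, Nat.card_eq_fintype_card]
    simp [ZMod.card]
  have hz'mem : (((⟨h, hh⟩ : M24) * z * (⟨h, hh⟩ : M24)⁻¹ : M24) : Equiv.Perm GolayPt) ∈
      M24 ⊓ fixingSubgroup (Equiv.Perm GolayPt) ((fs 0xb66020 : Finset GolayPt) : Set GolayPt) := by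
    refine Subgroup.mem_inf.mpr ⟨((⟨h, hh⟩ : M24) * z * (⟨h, hh⟩ : M24)⁻¹).2, ?_⟩
    rw [mem_fixingSubgroup_iff]
    intro o ho
    exact hz'fix o (Finset.mem_coe.mp ho)
  obtain ⟨⟨a, c⟩, hac⟩ := hbij.2 ⟨_, hz'mem⟩
  have hac0 : (f (a, c)).1 =
      (((⟨h, hh⟩ : M24) * z * (⟨h, hh⟩ : M24)⁻¹ : M24) : Equiv.Perm GolayPt) :=
    congrArg Subtype.val hac
  have hz' : phi0 (qG a 0 c) = (⟨h, hh⟩ : M24) * z * (⟨h, hh⟩ : M24)⁻¹ := Subtype.ext hac0
  have hne : a ≠ 0 ∨ c ≠ 0 := by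
    by_contra hcon
    simp only [not_or, not_not] at hcon
    rw [hcon.1, hcon.2, qG_one, map_one] at hz'
    apply hz1
    have h1 : z = (⟨h, hh⟩ : M24)⁻¹ * ((⟨h, hh⟩ : M24) * z * (⟨h, hh⟩ : M24)⁻¹) * ⟨h, hh⟩ := by
      group
    rw [h1, ← hz']
    group
  obtain ⟨g, hg⟩ := conj_translation a c hne
  refine ⟨(⟨h, hh⟩ : M24)⁻¹ * g, ?_⟩
  have h1 : z = (⟨h, hh⟩ : M24)⁻¹ * ((⟨h, hh⟩ : M24) * z * (⟨h, hh⟩ : M24)⁻¹) * ⟨h, hh⟩ := by
    group
  rw [h1, ← hz', hg]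
  group

/-- the main statement -/
theorem main5425 (z : ↥Cfsg.M24) (hz : orderOf z = 2)
    (hfix : (Finset.univ.filter fun p : Cfsg.GolayPt => (z : Equiv.Perm Cfsg.GolayPt) p = p) ∈
      Cfsg.octads)
    (Q : Subgroup ↥Cfsg.M24)
    (hQ : Q = (Cfsg.pCore 2 ↥(Subgroup.centralizer ({z} : Set ↥Cfsg.M24))).map
      (Subgroup.centralizer ({z} : Set ↥Cfsg.M24)).subtype) :
    Cfsg.IsExtraspecial 2 ↥Q ∧ Nat.card ↥Q = 2 ^ 7 ∧
      (∃ E : Subgroup ↥Cfsg.M24, E ≤ Q ∧ Cfsg.IsElementaryAbelian 2 E ∧ Nat.card ↥E = 2 ^ 4) ∧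
      Cfsg.IsLargeExtraspecial Q ∧
      ∃ K : Subgroup ↥Cfsg.M24, K ≤ Subgroup.centralizer ({z} : Set ↥Cfsg.M24) ∧ Q ⊓ K = ⊥ ∧
        Q ⊔ K = Subgroup.centralizer ({z} : Set ↥Cfsg.M24) ∧
        Nonempty (↥K ≃* Matrix.SpecialLinearGroup (Fin 3) (ZMod 2)) := by
  obtain ⟨g, rfl⟩ := exists_conj z hz hfix
  have hm := model24_zM.conj g
  have hQ' : Q = QG.map ((MulAut.conj g).toMonoidHom.comp phi0) := hQ.trans hm.toModel.pCore_eq
  subst hQ'
  exact ⟨hm.toModel.extraspecial, hm.toModel.card_Q, hm.toModel.exists_E,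
    ⟨hm.toModel.extraspecial, hm.toModel.centralizer_Q, hm.toModel.cent_le_normalizer,
      fun K hK hQK => hm.odd_trivial hfix K hK hQK⟩, hm.toModel.exists_K⟩

end Cfsg.Agent.H98.C2A
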