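import Mathlib
import Cfsg.Agent.H98.C2D
import Cfsg.Agent.H13.PCore
import Cfsg.Agent.H21.SylowInter

set_option autoImplicit false

/-!
# Sylow 2-subgroups of a centraliser of transvection type (helper98)

If the centraliser of an involution `z` of a finite group `G` is isomorphic to the centraliser of
a transvection of `SL(5, 2)`, then its Sylow `2`-subgroups are Sylow `2`-subgroups of `G`.
-/

namespace Cfsg.Agent.H98.C2A

open Cfsg Matrix Cfsg.Agent.H98.TransvCent

theorem center_Gam_elt {M : Gam} (h : ∀ N : Gam, N * M = M * N) : M = 1 ∨ M = qG 1 0 0 := by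
  obtain ⟨a, rfl⟩ := cent_QG (fun a' u' c' => h (qG a' u' c'))
  exact Model.qG_zero_or a

/-- an isomorphism of the centraliser of an involution with `Gam` gives a model -/
theorem model_of_equiv {G : Type*} [Group G] (z : G) (hz : orderOf z = 2)
    (e : (Subgroup.centralizer ({z} : Set G)) ≃* Gam) :
    Model z ((Subgroup.centralizer ({z} : Set G)).subtype.comp e.symm.toMonoidHom) where
  inj := (Subgroup.centralizer ({z} : Set G)).subtype_injective.comp e.symm.injective
  range := by
    ext x
    constructor
    · rintro ⟨M, rfl⟩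
      exact (e.symm M).2
    · intro hx
      refine ⟨e ⟨x, hx⟩, ?_⟩
      show ((e.symm (e ⟨x, hx⟩) : Subgroup.centralizer ({z} : Set G)) : G) = x
      rw [MulEquiv.symm_apply_apply]
  map_s0 := by
    have hzC : z ∈ Subgroup.centralizer ({z} : Set G) := by
      rw [Subgroup.mem_centralizer_iff]
      intro y hy
      rw [Set.mem_singleton_iff] at hy
      rw [hy]
    have hcen : ∀ N : Gam, N * e ⟨z, hzC⟩ = e ⟨z, hzC⟩ * N := by
      intro N
      have h1 : e.symm N * ⟨z, hzC⟩ = ⟨z, hzC⟩ * e.symm N := by
        apply Subtype.ext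
        have h2 := Subgroup.mem_centralizer_iff.mp (e.symm N).2 z rfl
        exact h2.symm
      have h3 := congrArg e h1
      rw [map_mul, map_mul, MulEquiv.apply_symm_apply] at h3
      exact h3
    have hne : e ⟨z, hzC⟩ ≠ 1 := by
      intro h1
      have h2 : (⟨z, hzC⟩ : Subgroup.centralizer ({z} : Set G)) = 1 := by
        apply e.injective
        rw [h1, map_one]
      have h3 : z = 1 := congrArg Subtype.val h2
      rw [h3, orderOf_one] at hz
      omega
    have h4 : e ⟨z, hzC⟩ = qG 1 0 0 := (center_Gam_elt hcen).resolve_left hne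
    show ((e.symm (qG 1 0 0) : Subgroup.centralizer ({z} : Set G)) : G) = z
    rw [← h4, MulEquiv.symm_apply_apply]

theorem Model.center_le {G : Type*} [Group G] {z : G} {φ : Gam →* G} (h : Model z φ)
    {T : Subgroup G} (hQT : QG.map φ ≤ T) {x : G} (hx : x ∈ T) (hc : ∀ t ∈ T, t * x = x * t) :
    x = 1 ∨ x = z := by
  have h1 : x ∈ Subgroup.centralizer ((QG.map φ : Subgroup G) : Set G) := by
    rw [Subgroup.mem_centralizer_iff]
    exact fun q hq => hc q (hQT hq)
  rw [h.centralizer_Q, Cfsg.Agent.H92.mem_centerMap_iff] at h1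
  obtain ⟨a, u, c, rfl⟩ := Model.exists_of_mem_Q h1.1
  have h2 : ∀ (a' : ZMod 2) (u' c' : Fin 3 → ZMod 2),
      qG a' u' c' * qG a u c = qG a u c * qG a' u' c' := by
    intro a' u' c'
    apply h.inj
    rw [map_mul, map_mul]
    exact h1.2 _ (Model.mem_Q a' u' c')
  obtain ⟨hu, hc'⟩ := qG_central h2
  rw [hu, hc', ← h.map_s0]
  rcases Model.qG_zero_or a with h3 | h3
  · left
    rw [h3, map_one]
  · right
    rw [h3]

/-- the main statement -/
theorem sylow_of_model {G : Type*} [Group G] [Finite G] {z : G} {φ : Gam →* G} (h : Model z φ)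
    (T : Sylow 2 (Subgroup.centralizer ({z} : Set G))) :
    ¬ 2 ∣ ((T : Subgroup (Subgroup.centralizer ({z} : Set G))).map
      (Subgroup.subtype (Subgroup.centralizer ({z} : Set G)))).index := by
  have : Fact (Nat.Prime 2) := ⟨Nat.prime_two⟩
  have hQT : QG.map φ ≤ (T : Subgroup (Subgroup.centralizer ({z} : Set G))).map
      (Subgroup.subtype (Subgroup.centralizer ({z} : Set G))) := by
    rw [← h.pCore_eq]
    exact Subgroup.map_mono (Cfsg.Agent.H13.pCore_le_sylow T)
  have hT' : IsPGroup 2 ((T : Subgroup (Subgroup.centralizer ({z} : Set G))).map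
      (Subgroup.subtype (Subgroup.centralizer ({z} : Set G)))) := T.2.map _
  obtain ⟨S, hS⟩ := hT'.exists_le_sylow
  have hzT := hQT h.z_mem_Q
  have heq : (T : Subgroup (Subgroup.centralizer ({z} : Set G))).map
      (Subgroup.subtype (Subgroup.centralizer ({z} : Set G))) = S := by
    by_contra hne
    have hlt := lt_of_le_of_ne hS hne
    obtain ⟨x, hxS, hxN, hxT⟩ := Cfsg.Agent.H21.exists_normalizer_not_mem S.2 hlt
    rw [Subgroup.mem_normalizer_iff] at hxN
    -- `x` centralises `z`
    have h1 : x * z * x⁻¹ = 1 ∨ x * z * x⁻¹ = z := by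
      apply h.center_le hQT ((hxN z).mp hzT)
      intro t ht
      have h2 : x⁻¹ * t * x ∈ (T : Subgroup (Subgroup.centralizer ({z} : Set G))).map
          (Subgroup.subtype (Subgroup.centralizer ({z} : Set G))) := by
        rw [hxN]
        have h3 : x * (x⁻¹ * t * x) * x⁻¹ = t := by group
        rw [h3]
        exact ht
      obtain ⟨y, _, hy⟩ := h2
      have h4 : (x⁻¹ * t * x) * z = z * (x⁻¹ * t * x) := by
        rw [← hy]
        exact (Subgroup.mem_centralizer_iff.mp y.2 z rfl).symm
      calc t * (x * z * x⁻¹) = x * ((x⁻¹ * t * x) * z) * x⁻¹ := by group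
        _ = x * (z * (x⁻¹ * t * x)) * x⁻¹ := by rw [h4]
        _ = x * z * x⁻¹ * t := by group
    have hxz : x * z = z * x := by
      rcases h1 with h1 | h1
      · exfalso
        apply h.z_ne_one
        have h2 : z = x⁻¹ * (x * z * x⁻¹) * x := by group
        rw [h2, h1]
        group
      · calc x * z = (x * z * x⁻¹) * x := by group
          _ = z * x := by rw [h1]
    have hxC : x ∈ Subgroup.centralizer ({z} : Set G) := by
      rw [Subgroup.mem_centralizer_iff]
      intro y hy
      rw [Set.mem_singleton_iff] at hy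
      rw [hy]
      exact hxz.symm
    -- the Sylow subgroup `S` meets the centraliser in `T`
    have hP : IsPGroup 2 ((S : Subgroup G).subgroupOf (Subgroup.centralizer ({z} : Set G))) :=
      S.2.comap_subtype
    have hle : (T : Subgroup (Subgroup.centralizer ({z} : Set G))) ≤
        (S : Subgroup G).subgroupOf (Subgroup.centralizer ({z} : Set G)) := by
      intro y hy
      rw [Subgroup.mem_subgroupOf]
      exact hS (Subgroup.mem_map_of_mem _ hy)
    have hmax := T.3 hP hle
    apply hxT
    have h5 : (⟨x, hxC⟩ : Subgroup.centralizer ({z} : Set G)) ∈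
        (S : Subgroup G).subgroupOf (Subgroup.centralizer ({z} : Set G)) := by
      rw [Subgroup.mem_subgroupOf]
      exact hxS
    rw [hmax] at h5
    exact ⟨⟨x, hxC⟩, h5, rfl⟩
  rw [heq]
  exact S.not_dvd_index

end Cfsg.Agent.H98.C2A
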