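import Mathlib
import Cfsg.Agent.H81.DihBDefs

/-!
# S4481 team project, piece LATD: the vector `u · h` and the final shape of the matrix `u`.
-/

set_option autoImplicit false

namespace Cfsg.Agent.H98.DihB

open Cfsg.Agent.H81.DihB

universe u

section Aux

variable {ι : Type*} [Fintype ι]

theorem sum_three (f : ι → ℤ) (a b c : ι) (hab : a ≠ b) (hac : a ≠ c) (hbc : b ≠ c)
    (h0 : ∀ i, i ≠ a → i ≠ b → i ≠ c → f i = 0) : ∑ i, f i = f a + f b + f c := by
  classical
  rw [← Finset.sum_subset (Finset.subset_univ ({a, b, c} : Finset ι))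
    (by
      intro i _ hi
      simp only [Finset.mem_insert, Finset.mem_singleton, not_or] at hi
      exact h0 i hi.1 hi.2.1 hi.2.2)]
  rw [Finset.sum_insert (by simp [hab, hac]), Finset.sum_pair hbc]
  ring

theorem sum_sq_pair_le (v : ι → ℤ) (a b : ι) (hab : a ≠ b) :
    v a ^ 2 + v b ^ 2 ≤ ∑ i, v i ^ 2 := by
  classical
  have h1 : ∑ i ∈ ({a, b} : Finset ι), v i ^ 2 = v a ^ 2 + v b ^ 2 := Finset.sum_pair hab
  rw [← h1]
  exact Finset.sum_le_sum_of_subset_of_nonneg (Finset.subset_univ _) (fun i _ _ => sq_nonneg _)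

theorem zero_outside (v : ι → ℤ) (s : Finset ι) (hs : ∑ i ∈ s, v i ^ 2 = ∑ i, v i ^ 2) :
    ∀ i, i ∉ s → v i = 0 := by
  classical
  intro i hi
  have h1 := Finset.sum_add_sum_compl s (fun i => v i ^ 2)
  have h2 : ∑ i ∈ sᶜ, v i ^ 2 = 0 := by linarith
  have h3 := (Finset.sum_eq_zero_iff_of_nonneg (fun i _ => sq_nonneg (v i))).mp h2 i
    (Finset.mem_compl.mpr hi)
  exact pow_eq_zero_iff (two_ne_zero) |>.mp h3

theorem sq_two (w : ι → ℤ) (hw : ∑ i, w i ^ 2 = 2) :
    ∃ a b, a ≠ b ∧ (w a = 1 ∨ w a = -1) ∧ (w b = 1 ∨ w b = -1) ∧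
      ∀ i, i ≠ a → i ≠ b → w i = 0 := by
  classical
  have hval : ∀ i, w i = 0 ∨ w i = 1 ∨ w i = -1 := by
    intro i
    have h1 : w i ^ 2 ≤ ∑ i, w i ^ 2 :=
      Finset.single_le_sum (f := fun i => w i ^ 2) (fun i _ => sq_nonneg _) (Finset.mem_univ i)
    rw [hw] at h1
    have h2 : -1 ≤ w i := by nlinarith
    have h3 : w i ≤ 1 := by nlinarith
    omega
  have hcard : (Finset.univ.filter (fun i => w i ≠ 0)).card = 2 := by
    have h1 : ∑ i, w i ^ 2 = ∑ i, (if w i ≠ 0 then (1 : ℤ) else 0) := by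
      apply Finset.sum_congr rfl
      intro i _
      rcases hval i with h | h | h <;> simp [h]
    rw [hw, Finset.sum_boole] at h1
    exact_mod_cast h1.symm
  obtain ⟨a, b, hab, hs⟩ := Finset.card_eq_two.mp hcard
  have ha : a ∈ Finset.univ.filter (fun i => w i ≠ 0) := by rw [hs]; simp
  have hb : b ∈ Finset.univ.filter (fun i => w i ≠ 0) := by rw [hs]; simp
  refine ⟨a, b, hab, ?_, ?_, ?_⟩
  · have h1 := (Finset.mem_filter.mp ha).2
    rcases hval a with h | h | h
    · exact absurd h h1
    · exact Or.inl h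
    · exact Or.inr h
  · have h1 := (Finset.mem_filter.mp hb).2
    rcases hval b with h | h | h
    · exact absurd h h1
    · exact Or.inl h
    · exact Or.inr h
  · intro i hia hib
    by_contra hne
    have h1 : i ∈ Finset.univ.filter (fun i => w i ≠ 0) :=
      Finset.mem_filter.mpr ⟨Finset.mem_univ _, hne⟩
    rw [hs] at h1
    simp only [Finset.mem_insert, Finset.mem_singleton] at h1
    rcases h1 with h | h
    · exact hia h
    · exact hib h

theorem sum_sq_erase2 [DecidableEq ι] (v : ι → ℤ) (p q : ι) (hpq : p ≠ q) :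
    ∑ i, (if i = p ∨ i = q then 0 else v i) ^ 2 = ∑ i, v i ^ 2 - v p ^ 2 - v q ^ 2 := by
  have h1 : ∀ i, v i ^ 2 = (if i = p ∨ i = q then 0 else v i) ^ 2 +
      (if i = p then v p ^ 2 else 0) + (if i = q then v q ^ 2 else 0) := by
    intro i
    by_cases hp : i = p
    · subst hp; simp [hpq]
    · by_cases hq : i = q
      · subst hq; simp [hp]
      · simp [hp, hq]
  have h2 : ∑ i, v i ^ 2 = ∑ i, ((if i = p ∨ i = q then 0 else v i) ^ 2 +
      (if i = p then v p ^ 2 else 0) + (if i = q then v q ^ 2 else 0)) :=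
    Finset.sum_congr rfl (fun i _ => h1 i)
  rw [Finset.sum_add_distrib, Finset.sum_add_distrib, Finset.sum_ite_eq', Finset.sum_ite_eq'] at h2
  simp only [Finset.mem_univ, if_true] at h2
  linarith

/-- If the squares of `v` outside `p`, `q` sum to `2`, there are exactly two further nonzero
entries, both `±1`. -/
theorem two_others (v : ι → ℤ) (p q : ι) (hpq : p ≠ q)
    (hsum : ∑ i, v i ^ 2 - v p ^ 2 - v q ^ 2 = 2) :
    ∃ a b, a ≠ b ∧ a ≠ p ∧ a ≠ q ∧ b ≠ p ∧ b ≠ q ∧ (v a = 1 ∨ v a = -1) ∧
      (v b = 1 ∨ v b = -1) ∧ ∀ i, i ≠ p → i ≠ q → i ≠ a → i ≠ b → v i = 0 := by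
  classical
  have hw : ∑ i, (if i = p ∨ i = q then 0 else v i) ^ 2 = 2 := by
    rw [sum_sq_erase2 v p q hpq]; exact hsum
  obtain ⟨a, b, hab, ha, hb, hz⟩ := sq_two _ hw
  have key : ∀ x, ((if x = p ∨ x = q then 0 else v x) = 1 ∨
      (if x = p ∨ x = q then 0 else v x) = -1) → x ≠ p ∧ x ≠ q ∧ (v x = 1 ∨ v x = -1) := by
    intro x hx
    by_cases hc : x = p ∨ x = q
    · rw [if_pos hc] at hx; omega
    · rw [if_neg hc] at hx
      exact ⟨fun h => hc (Or.inl h), fun h => hc (Or.inr h), hx⟩
  obtain ⟨ha1, ha2, ha3⟩ := key a ha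
  obtain ⟨hb1, hb2, hb3⟩ := key b hb
  refine ⟨a, b, hab, ha1, ha2, hb1, hb2, ha3, hb3, ?_⟩
  intro i hip hiq hia hib
  have h1 := hz i hia hib
  rw [if_neg (not_or.mpr ⟨hip, hiq⟩)] at h1
  exact h1

end Aux

theorem latD : StmtLatD.{u} := by
  intro ι _ m h d u i₀ L hsym i₁ δ₁ j hC
  classical
  obtain ⟨hδ, hi₁, hgen, hjinj⟩ := hC
  have hm := L.hm
  have hh := L.hh
  have hh0 : 0 < h := by omega
  have hhm : h < m := by omega
  have V1 : ∑ i, u i h ^ 2 = 4 := by
    have h1 := L.hG h h hh0 hhm hh0 hhm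
    rw [if_pos rfl, if_pos (by omega)] at h1
    have h2 : ∑ i, u i h ^ 2 = ∑ i, u i h * u i h := Finset.sum_congr rfl (fun i _ => by ring)
    rw [h2, h1]; norm_num
  have V2 : ∑ i, u i h * (d i : ℤ) = 0 := L.hD h hh0 hhm
  have V3 : u i₀ h = -1 := L.hu0 h hh0 hhm
  have G : ∀ k, 0 < k → k < m → k ≠ h → u (j k) h - u i₁ h = δ₁ := by
    intro k hk0 hkm hkh
    obtain ⟨hj0, hj1, hu1, hujk, hoth⟩ := hgen k hk0 hkm hkh
    have h1 := L.hG h k hh0 hhm hk0 hkm
    rw [if_neg (by omega), if_neg (by omega)] at h1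
    have h2 : ∑ i, u i h * u i k =
        u i₀ h * u i₀ k + u i₁ h * u i₁ k + u (j k) h * u (j k) k :=
      sum_three (fun i => u i h * u i k) i₀ i₁ (j k) (Ne.symm hi₁) (Ne.symm hj0) (Ne.symm hj1)
        (by
          intro i h1 h2 h3
          show u i h * u i k = 0
          rw [hoth i h1 h2 h3]; ring)
    rw [h2, L.hu0 k hk0 hkm, V3, hu1, hujk] at h1
    rcases hδ with rfl | rfl <;> linarith
  have F4 : ∀ s, 0 < s → s < m → s ≠ h → j (m - s) = j s := by
    intro s hs0 hsm hsh
    by_contra hne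
    obtain ⟨hj0, hj1, hu1, hujk, hoth⟩ := hgen s hs0 hsm hsh
    obtain ⟨-, -, -, -, hoth'⟩ := hgen (m - s) (by omega) (by omega) (by omega)
    have h1 := hoth' (j s) hj0 hj1 (fun h => hne h.symm)
    rw [hsym s hs0 hsm (j s), hujk] at h1
    rcases hδ with rfl | rfl <;> omega
  have F5 : ∀ s s', 0 < s → s < h → 0 < s' → s' < h → j s = j s' → s = s' := by
    intro s s' hs0 hsh hs'0 hs'h hjj
    rcases hjinj s s' hs0 (by omega) (by omega) hs'0 (by omega) (by omega) hjj with h1 | h1
    · exact h1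
    · omega
  have hb : u i₁ h = -δ₁ ∨ u i₁ h = δ₁ ∨ u i₁ h = 0 := by
    have h1 : u i₀ h ^ 2 + u i₁ h ^ 2 ≤ ∑ i, u i h ^ 2 :=
      sum_sq_pair_le (fun i => u i h) i₀ i₁ (Ne.symm hi₁)
    rw [V1, V3] at h1
    have h2 : -1 ≤ u i₁ h := by nlinarith
    have h3 : u i₁ h ≤ 1 := by nlinarith
    rcases hδ with rfl | rfl <;> omega
  rcases hb with hA | hB | hC0
  · -- Case A: `u i₁ h = -δ₁`
    have hsum : ∑ i, u i h ^ 2 - u i₀ h ^ 2 - u i₁ h ^ 2 = 2 := by
      rw [V1, V3, hA]
      rcases hδ with rfl | rfl <;> norm_num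
    obtain ⟨a, b, hab, ha0, ha1, hb0, hb1, hva, hvb, hz⟩ :=
      two_others (fun i => u i h) i₀ i₁ (Ne.symm hi₁) hsum
    have hva' : u a h = 1 ∨ u a h = -1 := hva
    have hvb' : u b h = 1 ∨ u b h = -1 := hvb
    have hz' : ∀ i, i ≠ i₀ → i ≠ i₁ → i ≠ a → i ≠ b → u i h = 0 := hz
    have hjk0 : ∀ k, 0 < k → k < m → k ≠ h → u (j k) h = 0 := by
      intro k hk0 hkm hkh
      have h1 := G k hk0 hkm hkh
      rw [hA] at h1; linarith
    refine ⟨i₁, a, b, fun t => j ((t : ℕ) + 1), δ₁, u a h, u b h, hδ, hva', hvb', ?_, hi₁, ha0,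
      hb0, Ne.symm ha1, Ne.symm hb1, hab, ?_, ?_⟩
    · intro t t' htt
      have ht := t.2
      have ht' := t'.2
      have h1 := F5 _ _ (by omega) (by omega) (by omega) (by omega) htt
      exact Fin.ext (by omega)
    · intro t
      have ht := t.2
      obtain ⟨hj0, hj1, -⟩ := hgen ((t : ℕ) + 1) (by omega) (by omega) (by omega)
      have hz0 := hjk0 ((t : ℕ) + 1) (by omega) (by omega) (by omega)
      refine ⟨hj0, hj1, ?_, ?_⟩
      · intro heq
        have heq' : j ((t : ℕ) + 1) = a := heq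
        rw [heq'] at hz0
        rcases hva' with h | h <;> omega
      · intro heq
        have heq' : j ((t : ℕ) + 1) = b := heq
        rw [heq'] at hz0
        rcases hvb' with h | h <;> omega
    · intro k hk0 hkm
      by_cases hkh : k = h
      · subst hkh
        refine ⟨hA, by rw [if_pos rfl], by rw [if_pos rfl], ?_, ?_⟩
        · intro t
          have ht := t.2
          rw [if_neg (by omega)]
          exact hjk0 ((t : ℕ) + 1) (by omega) (by omega) (by omega)
        · intro i h0 h1 h2 h3 _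
          exact hz' i h0 h1 h2 h3
      · obtain ⟨hj0, hj1, hu1, hujk, hoth⟩ := hgen k hk0 hkm hkh
        have hjka : j k ≠ a := by
          intro heq
          have h1 := hjk0 k hk0 hkm hkh
          rw [heq] at h1
          rcases hva' with h | h <;> omega
        have hjkb : j k ≠ b := by
          intro heq
          have h1 := hjk0 k hk0 hkm hkh
          rw [heq] at h1
          rcases hvb' with h | h <;> omega
        refine ⟨hu1, ?_, ?_, ?_, ?_⟩
        · rw [if_neg hkh]; exact hoth a ha0 ha1 (Ne.symm hjka)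
        · rw [if_neg hkh]; exact hoth b hb0 hb1 (Ne.symm hjkb)
        · intro t
          have ht := t.2
          show u (j ((t : ℕ) + 1)) k = _
          by_cases hc : k = (t : ℕ) + 1 ∨ k + ((t : ℕ) + 1) = m
          · rw [if_pos hc]
            rcases hc with hc | hc
            · rw [← hc]; exact hujk
            · have h1 : j ((t : ℕ) + 1) = j k := by
                have h2 := F4 ((t : ℕ) + 1) (by omega) (by omega) (by omega)
                rw [← h2]; congr 1; omega
              rw [h1]; exact hujk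
          · rw [if_neg hc]
            obtain ⟨hj0', hj1', -⟩ := hgen ((t : ℕ) + 1) (by omega) (by omega) (by omega)
            apply hoth _ hj0' hj1'
            intro heq
            rcases hjinj ((t : ℕ) + 1) k (by omega) (by omega) (by omega) hk0 hkm hkh heq
              with h | h
            · exact hc (Or.inl h.symm)
            · exact hc (Or.inr (by omega))
        · intro i h0 h1 h2 h3 hjt
          apply hoth i h0 h1
          by_cases hlt : k < h
          · have h4 : i ≠ j (k - 1 + 1) := hjt ⟨k - 1, by omega⟩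
            rwa [show k - 1 + 1 = k by omega] at h4
          · have h4 : i ≠ j (m - k - 1 + 1) := hjt ⟨m - k - 1, by omega⟩
            have e : j (m - k - 1 + 1) = j k := by
              have h5 := F4 k hk0 hkm hkh
              rw [← h5]; congr 1; omega
            rwa [e] at h4
  · -- Case B: `u i₁ h = δ₁` is impossible
    exfalso
    have hg1 := G 1 (by omega) (by omega) (by omega)
    obtain ⟨hj0, -⟩ := hgen 1 (by omega) (by omega) (by omega)
    have h1 : u i₀ h ^ 2 + u (j 1) h ^ 2 ≤ ∑ i, u i h ^ 2 :=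
      sum_sq_pair_le (fun i => u i h) i₀ (j 1) (Ne.symm hj0)
    have h2 : u (j 1) h = 2 * δ₁ := by linarith
    rw [V1, V3, h2] at h1
    rcases hδ with rfl | rfl <;> norm_num at h1
  · -- Case C: `u i₁ h = 0`
    by_cases h2 : h = 2
    · subst h2
      obtain rfl : m = 4 := by omega
      have hg1 := G 1 (by omega) (by omega) (by omega)
      rw [hC0] at hg1
      have hvj1 : u (j 1) 2 = δ₁ := by linarith
      obtain ⟨hj0, hj1, hu1, hujk, hoth⟩ := hgen 1 (by omega) (by omega) (by omega)
      have hj3 : j 3 = j 1 := by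
        have h1 := F4 1 (by omega) (by omega) (by omega)
        rw [← h1]
      obtain ⟨hj0', hj1', hu1', hujk', hoth'⟩ := hgen 3 (by omega) (by omega) (by omega)
      rw [hj3] at hj0' hj1' hujk' hoth'
      have hsum : ∑ i, u i 2 ^ 2 - u i₀ 2 ^ 2 - u (j 1) 2 ^ 2 = 2 := by
        rw [V1, V3, hvj1]
        rcases hδ with rfl | rfl <;> norm_num
      obtain ⟨a, b, hab, ha0, ha1, hb0, hb1, hva, hvb, hz⟩ :=
        two_others (fun i => u i 2) i₀ (j 1) (Ne.symm hj0) hsum
      have hva' : u a 2 = 1 ∨ u a 2 = -1 := hva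
      have hvb' : u b 2 = 1 ∨ u b 2 = -1 := hvb
      have hz' : ∀ i, i ≠ i₀ → i ≠ j 1 → i ≠ a → i ≠ b → u i 2 = 0 := hz
      have hai₁ : a ≠ i₁ := by
        intro heq
        rw [heq] at hva'
        rcases hva' with h | h <;> omega
      have hbi₁ : b ≠ i₁ := by
        intro heq
        rw [heq] at hvb'
        rcases hvb' with h | h <;> omega
      refine ⟨j 1, a, b, fun _ => i₁, -δ₁, u a 2, u b 2, ?_, hva', hvb', ?_, hj0, ha0, hb0,
        Ne.symm ha1, Ne.symm hb1, hab, ?_, ?_⟩
      · rcases hδ with rfl | rfl <;> simp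
      · intro t t' _
        have ht := t.2
        have ht' := t'.2
        exact Fin.ext (by omega)
      · intro t
        exact ⟨hi₁, Ne.symm hj1, Ne.symm hai₁, Ne.symm hbi₁⟩
      · intro k hk0 hkm
        have hk : k = 1 ∨ k = 2 ∨ k = 3 := by omega
        rcases hk with rfl | rfl | rfl
        · refine ⟨by rw [hujk]; ring, ?_, ?_, ?_, ?_⟩
          · rw [if_neg (by omega)]; exact hoth a ha0 hai₁ ha1
          · rw [if_neg (by omega)]; exact hoth b hb0 hbi₁ hb1
          · intro t
            have ht := t.2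
            rw [if_pos (by omega)]; exact hu1
          · intro i h0 h1 h2 h3 hjt
            exact hoth i h0 (hjt ⟨0, by omega⟩) h1
        · refine ⟨by rw [hvj1]; ring, by rw [if_pos rfl], by rw [if_pos rfl], ?_, ?_⟩
          · intro t
            have ht := t.2
            rw [if_neg (by omega)]; exact hC0
          · intro i h0 h1 h2 h3 _
            exact hz' i h0 h1 h2 h3
        · refine ⟨by rw [hujk']; ring, ?_, ?_, ?_, ?_⟩
          · rw [if_neg (by omega)]; exact hoth' a ha0 hai₁ ha1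
          · rw [if_neg (by omega)]; exact hoth' b hb0 hbi₁ hb1
          · intro t
            have ht := t.2
            rw [if_pos (by omega)]; exact hu1'
          · intro i h0 h1 h2 h3 hjt
            exact hoth' i h0 (hjt ⟨0, by omega⟩) h1
    · -- `h ≥ 4` is impossible
      exfalso
      have h4 : 4 ≤ h := by
        obtain ⟨c, hc⟩ := L.he
        omega
      have g1 := G 1 (by omega) (by omega) (by omega)
      have g2 := G 2 (by omega) (by omega) (by omega)
      have g3 := G 3 (by omega) (by omega) (by omega)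
      rw [hC0] at g1 g2 g3
      have e1 : u (j 1) h = δ₁ := by linarith
      have e2 : u (j 2) h = δ₁ := by linarith
      have e3 : u (j 3) h = δ₁ := by linarith
      obtain ⟨hj10, -⟩ := hgen 1 (by omega) (by omega) (by omega)
      obtain ⟨hj20, -⟩ := hgen 2 (by omega) (by omega) (by omega)
      obtain ⟨hj30, -⟩ := hgen 3 (by omega) (by omega) (by omega)
      have h12 : j 1 ≠ j 2 := fun e => by
        have := F5 1 2 (by omega) (by omega) (by omega) (by omega) e
        omega
      have h13 : j 1 ≠ j 3 := fun e => by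
        have := F5 1 3 (by omega) (by omega) (by omega) (by omega) e
        omega
      have h23 : j 2 ≠ j 3 := fun e => by
        have := F5 2 3 (by omega) (by omega) (by omega) (by omega) e
        omega
      have hn1 : i₀ ∉ ({j 1, j 2, j 3} : Finset ι) := by
        simp [Ne.symm hj10, Ne.symm hj20, Ne.symm hj30]
      have hn2 : j 1 ∉ ({j 2, j 3} : Finset ι) := by
        simp [h12, h13]
      have hs : ∑ i ∈ ({i₀, j 1, j 2, j 3} : Finset ι), u i h ^ 2 = ∑ i, u i h ^ 2 := by
        rw [V1, Finset.sum_insert hn1, Finset.sum_insert hn2, Finset.sum_pair h23, V3, e1, e2, e3]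
        rcases hδ with rfl | rfl <;> norm_num
      have hz := zero_outside (fun i => u i h) _ hs
      have hd' : ∑ i, u i h * (d i : ℤ) =
          ∑ i ∈ ({i₀, j 1, j 2, j 3} : Finset ι), u i h * (d i : ℤ) := by
        symm
        apply Finset.sum_subset (Finset.subset_univ _)
        intro i _ hi
        have h1 : u i h = 0 := hz i hi
        rw [h1]; ring
      rw [hd', Finset.sum_insert hn1, Finset.sum_insert hn2, Finset.sum_pair h23, V3, e1, e2, e3,
        L.hd0] at V2
      have p1 := L.hd (j 1)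
      have p2 := L.hd (j 2)
      have p3 := L.hd (j 3)
      rcases hδ with rfl | rfl
      · push_cast at V2; omega
      · push_cast at V2; omega

example : Cfsg.Agent.H81.DihB.StmtLatD.{u} := latD

end Cfsg.Agent.H98.DihB
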