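import Mathlib
import Cfsg.Agent.H42.EqDefs2
import Cfsg.Agent.H99.EmDefs2
import Cfsg.Agent.H53.EqCntB
import Cfsg.Agent.H98.EmCntA

/-!
# EQ-CNTA (helper98, for helper42, S5988)

If the fixed space `K` of an isometry `x` with `x ^ r = 1` of the standard plus space has
dimension `< c` and `m < dim K`, `m < c`, the number of nondegenerate minus-type `m`-spaces is
prime to `r`: fixed-point congruence for `W ↦ x W`; the fixed points are the minus-type
`m`-spaces inside `K = range (x - 1)^⊥`, and their number is prime to `r` by G-CNTORB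
(port of `Cfsg.Agent.H98.Em.cntA`).
-/

set_option autoImplicit false
open scoped MatrixGroups
open scoped Matrix

namespace Cfsg.Agent.H98.Eq

open Cfsg.Agent.H45 Cfsg.Agent.H42.Spd Cfsg.Agent.H42.Ti Cfsg.Agent.H48.Ep Cfsg.Agent.H42.Eq
  Cfsg.Agent.H98.Ep Cfsg.Agent.H98.Em Module

universe u

/-- **EQ-CNTA**. -/
theorem cntA (hS : Cfsg.Agent.H48.Ep.StStruct.{u, u}) (hBr : Cfsg.Agent.H48.Ep.StBridge.{u})
    (hCO : Cfsg.Agent.H99.Em.StCntOrb.{u}) : Cfsg.Agent.H42.Eq.StCntA.{u} := by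
  intro F _ _ p _ _ r hr hr2 hrp d m hd hm hm2 hmc x hx hxr hmK0 hKc0
  classical
  obtain ⟨hNdTop, hPlusTop, hfr, -, hIso⟩ := hBr F d m
  have hEW : ∀ W : Submodule F (Fin d ⊕ Fin d → F), IsEll F d m W ↔
      (finrank F W = m ∧ QNd (Cfsg.Agent.H49.QP d F) W ∧
        ¬ QPlus (Cfsg.Agent.H49.QP d F) W) := fun W => Cfsg.Agent.H53.Eq.isEll_iff d m W
  have hrF : (r : F) ≠ 0 := by
    intro h0
    have h1 := (CharP.cast_eq_zero_iff F p r).mp h0
    exact hrp ((Nat.prime_dvd_prime_iff_eq Fact.out hr).mp h1).symm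
  have hEven : Even (finrank F (Fin d ⊕ Fin d → F)) := by
    rw [hfr]
    exact even_two_mul d
  have hpowOf : ∀ g : GL (Fin d ⊕ Fin d) F, g ^ r = 1 →
      (Matrix.toLin' (g : Matrix (Fin d ⊕ Fin d) (Fin d ⊕ Fin d) F) :
        Module.End F (Fin d ⊕ Fin d → F)) ^ r = 1 := by
    intro g hgr
    have h1 : ((g ^ r : GL (Fin d ⊕ Fin d) F) :
        Matrix (Fin d ⊕ Fin d) (Fin d ⊕ Fin d) F) = 1 := by
      rw [hgr]
      rfl
    have h2' : (g : Matrix (Fin d ⊕ Fin d) (Fin d ⊕ Fin d) F) ^ r = 1 := by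
      rw [← h1]
      exact (Units.val_pow_eq_pow_val g r).symm
    have h3 := congrArg (Matrix.toLinAlgEquiv' (R := F)) h2'
    rw [map_pow, map_one] at h3
    exact h3
  obtain ⟨T, hT⟩ : ∃ T : Module.End F (Fin d ⊕ Fin d → F),
      T = Matrix.toLin' (x : Matrix (Fin d ⊕ Fin d) (Fin d ⊕ Fin d) F) := ⟨_, rfl⟩
  have hmK : m < finrank F ↥(LinearMap.ker (T - 1)) := by
    rw [hT]
    exact hmK0
  have hKc : finrank F ↥(LinearMap.ker (T - 1)) < cc F r := by
    rw [hT]
    exact hKc0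
  have hTiso : ∀ v, Cfsg.Agent.H49.QP d F (T v) = Cfsg.Agent.H49.QP d F v := by
    rw [hT]
    exact (hIso x).mp hx
  have hTpow : T ^ r = 1 := by
    rw [hT]
    exact hpowOf x hxr
  have hkktop : ∀ S : Module.End F (Fin d ⊕ Fin d → F),
      kk S ⊤ = finrank F ↥(LinearMap.ker (S - 1)) := by
    intro S
    unfold kk
    rw [top_inf_eq]
  obtain ⟨-, A, -, -, hExist, hUp⟩ := hS F (Fin d ⊕ Fin d → F) (Cfsg.Agent.H49.QP d F) T r True
    hr hr2 hrF hNdTop hTiso hTpow hEven (iff_true_intro hPlusTop)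
  -- powers of `T`
  have hTk_iso : ∀ (j : ℕ) (v : Fin d ⊕ Fin d → F),
      Cfsg.Agent.H49.QP d F ((T ^ j) v) = Cfsg.Agent.H49.QP d F v := by
    intro j
    induction j with
    | zero => intro v; simp
    | succ j ih =>
      intro v
      rw [pow_succ, Module.End.mul_apply, ih, hTiso]
  have hTinj : Function.Injective T := by
    intro u v huv
    have h1 : (T ^ r) u = (T ^ r) v := by
      obtain ⟨j, hj⟩ : ∃ j, r = j + 1 := ⟨r - 1, by have := hr.pos; omega⟩
      rw [hj, pow_succ, Module.End.mul_apply, Module.End.mul_apply, huv]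
    rw [hTpow] at h1
    exact h1
  have hTsurj : Function.Surjective T := by
    intro v
    refine ⟨(T ^ (r - 1)) v, ?_⟩
    have h1 : T ((T ^ (r - 1)) v) = (T ^ r) v := by
      obtain ⟨j, hj⟩ : ∃ j, r = j + 1 := ⟨r - 1, by have := hr.pos; omega⟩
      rw [hj, Nat.add_sub_cancel, pow_succ', Module.End.mul_apply]
    rw [h1, hTpow, Module.End.one_apply]
  have hTk_inj : ∀ j : ℕ, Function.Injective (T ^ j) := by
    intro j
    induction j with
    | zero => intro u v huv; simpa using huv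
    | succ j ih =>
      intro u v huv
      rw [pow_succ, Module.End.mul_apply, Module.End.mul_apply] at huv
      exact hTinj (ih huv)
  have hmapk : ∀ (j : ℕ) (W : Submodule F (Fin d ⊕ Fin d → F)),
      (W.map T).map (T ^ j) = W.map (T ^ (j + 1)) := by
    intro j W
    rw [pow_succ, Module.End.mul_eq_comp, Submodule.map_comp]
  have hmapr : ∀ W : Submodule F (Fin d ⊕ Fin d → F), W.map (T ^ r) = W := by
    intro W
    rw [hTpow, Module.End.one_eq_id, Submodule.map_id]
  have hEWmap : ∀ W : Submodule F (Fin d ⊕ Fin d → F),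
      IsEll F d m W → IsEll F d m (W.map T) := by
    intro W hW
    obtain ⟨h1, h2', h3⟩ := (hEW W).mp hW
    refine (hEW _).mpr ⟨?_, cntB_nd_map _ T hTiso W h2', ?_⟩
    · rw [← (Submodule.equivMapOfInjective T hTinj W).finrank_eq]
      exact h1
    · intro hP
      apply h3
      have h4 := cntB_plus_map _ (T ^ (r - 1)) (hTk_iso (r - 1)) (hTk_inj (r - 1)) _ hP
      rw [hmapk, Nat.sub_add_cancel hr.pos, hmapr] at h4
      exact h4
  have hfinS : Finite (Submodule F (Fin d ⊕ Fin d → F)) :=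
    Finite.of_injective (fun W : Submodule F (Fin d ⊕ Fin d → F) =>
      (W : Set (Fin d ⊕ Fin d → F))) SetLike.coe_injective
  obtain ⟨τ, hτ⟩ : ∃ τ : {W : Submodule F (Fin d ⊕ Fin d → F) // IsEll F d m W} →
      {W : Submodule F (Fin d ⊕ Fin d → F) // IsEll F d m W},
      ∀ W, (τ W).1 = W.1.map T := ⟨fun W => ⟨W.1.map T, hEWmap W.1 W.2⟩, fun _ => rfl⟩
  have hiter : ∀ (j : ℕ) (W : {W : Submodule F (Fin d ⊕ Fin d → F) // IsEll F d m W}),
      (τ^[j] W).1 = W.1.map (T ^ j) := by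
    intro j
    induction j with
    | zero =>
      intro W
      rw [Function.iterate_zero, id, pow_zero, Module.End.one_eq_id, Submodule.map_id]
    | succ j ih =>
      intro W
      rw [Function.iterate_succ_apply, ih, hτ, hmapk]
  have hτr : ∀ W, τ^[r] W = W := by
    intro W
    apply Subtype.ext
    rw [hiter, hmapr]
  have hmod := cntB_card_modEq_fix τ r hr hτr
  -- the fixed points are the minus-type `m`-spaces inside `ker (T - 1)`
  have hfixle : ∀ W : Submodule F (Fin d ⊕ Fin d → F), IsEll F d m W →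
      W.map T ≤ W → W ≤ LinearMap.ker (T - 1) := by
    intro W hW hinv
    obtain ⟨h1, h2', h3⟩ := (hEW W).mp hW
    have hWinv : W ∈ T.invtSubmodule := by
      rw [Module.End.mem_invtSubmodule, ← Submodule.map_le_iff_le_comap]
      exact hinv
    have hWe : Even (finrank F W) := by
      rw [h1]
      exact hm
    obtain ⟨j, -, hj1, -, -, -⟩ := hUp W False hWinv h2' hWe (iff_false_intro h3)
    have hj0 : j = 0 := by
      by_contra hne
      have h4 : cc F r * 1 ≤ cc F r * j := Nat.mul_le_mul_left _ (Nat.pos_of_ne_zero hne)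
      omega
    rw [hj0, mul_zero, zero_add] at hj1
    have h4 : finrank F ↥(W ⊓ LinearMap.ker (T - 1)) = finrank F W := hj1.symm
    have h5 : W ⊓ LinearMap.ker (T - 1) = W := Submodule.eq_of_le_of_finrank_eq inf_le_left h4
    exact inf_eq_left.mp h5
  have hlefix : ∀ W : Submodule F (Fin d ⊕ Fin d → F),
      W ≤ LinearMap.ker (T - 1) → W.map T = W := by
    intro W hle
    have hfixv : ∀ w ∈ W, T w = w := by
      intro w hw
      have h1 := LinearMap.mem_ker.mp (hle hw)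
      rw [LinearMap.sub_apply, Module.End.one_apply, sub_eq_zero] at h1
      exact h1
    apply le_antisymm
    · rintro _ ⟨w, hw, rfl⟩
      rw [hfixv w hw]
      exact hw
    · intro w hw
      exact ⟨w, hw, hfixv w hw⟩
  have hperp : perp (QuadraticMap.polarBilin (Cfsg.Agent.H49.QP d F))
      (LinearMap.range (T - 1)) = LinearMap.ker (T - 1) :=
    cntA_perp_range _ T hTiso hTsurj hNdTop
  have hRnd : QNd (Cfsg.Agent.H49.QP d F) (LinearMap.range (T - 1)) := by
    unfold QNd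
    rw [hperp]
    exact cntA_range_inf_ker T r hrF hTpow
  have hto : ∀ W : {W : Submodule F (Fin d ⊕ Fin d → F) // IsEll F d m W}, τ W = W →
      (finrank F W.1 = m ∧ QNd (Cfsg.Agent.H49.QP d F) W.1 ∧
        (QPlus (Cfsg.Agent.H49.QP d F) W.1 ↔ False) ∧
        W.1 ≤ perp (QuadraticMap.polarBilin (Cfsg.Agent.H49.QP d F))
          (LinearMap.range (T - 1))) := by
    intro W hW
    obtain ⟨h1, h2', h3⟩ := (hEW W.1).mp W.2
    refine ⟨h1, h2', iff_false_intro h3, ?_⟩
    rw [hperp]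
    apply hfixle W.1 W.2
    rw [← hτ, hW]
  have hfrom1 : ∀ W : Submodule F (Fin d ⊕ Fin d → F),
      (finrank F W = m ∧ QNd (Cfsg.Agent.H49.QP d F) W ∧
        (QPlus (Cfsg.Agent.H49.QP d F) W ↔ False) ∧
        W ≤ perp (QuadraticMap.polarBilin (Cfsg.Agent.H49.QP d F))
          (LinearMap.range (T - 1))) → IsEll F d m W := by
    intro W hW
    exact (hEW W).mpr ⟨hW.1, hW.2.1, fun h => hW.2.2.1.mp h⟩
  have hfrom2 : ∀ (W : Submodule F (Fin d ⊕ Fin d → F))
      (hW : finrank F W = m ∧ QNd (Cfsg.Agent.H49.QP d F) W ∧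
        (QPlus (Cfsg.Agent.H49.QP d F) W ↔ False) ∧
        W ≤ perp (QuadraticMap.polarBilin (Cfsg.Agent.H49.QP d F))
          (LinearMap.range (T - 1))),
      τ ⟨W, hfrom1 W hW⟩ = ⟨W, hfrom1 W hW⟩ := by
    intro W hW
    apply Subtype.ext
    rw [hτ]
    apply hlefix
    rw [← hperp]
    exact hW.2.2.2
  have hcard : Nat.card {W : {W : Submodule F (Fin d ⊕ Fin d → F) // IsEll F d m W} // τ W = W} =
      Nat.card {W : Submodule F (Fin d ⊕ Fin d → F) // finrank F W = m ∧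
        QNd (Cfsg.Agent.H49.QP d F) W ∧
        (QPlus (Cfsg.Agent.H49.QP d F) W ↔ False) ∧
        W ≤ perp (QuadraticMap.polarBilin (Cfsg.Agent.H49.QP d F))
          (LinearMap.range (T - 1))} := by
    apply Nat.card_congr
    exact ⟨fun W => ⟨W.1.1, hto W.1 W.2⟩, fun W => ⟨⟨W.1, hfrom1 W.1 W.2⟩, hfrom2 W.1 W.2⟩,
      fun W => rfl, fun W => rfl⟩
  -- no isometry of order `r` fixes `range (T - 1)` pointwise
  have hrk := LinearMap.finrank_range_add_finrank_ker (T - 1)
  rw [hfr] at hrk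
  have hg : ∀ g : GL (Fin d ⊕ Fin d) F, g ∈ Cfsg.isometryGroup F ⇑(Cfsg.Agent.H49.QP d F) →
      (∀ v ∈ LinearMap.range (T - 1), Matrix.toLin' (g : Matrix (Fin d ⊕ Fin d) (Fin d ⊕ Fin d) F) v = v) →
      g ^ r = 1 → g = 1 := by
    intro g hg hgR hgr
    obtain ⟨-, A', hA', -, -, -⟩ := hS F (Fin d ⊕ Fin d → F) (Cfsg.Agent.H49.QP d F)
      (Matrix.toLin' (g : Matrix (Fin d ⊕ Fin d) (Fin d ⊕ Fin d) F)) r True
      hr hr2 hrF hNdTop ((hIso g).mp hg) (hpowOf g hgr) hEven (iff_true_intro hPlusTop)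
    rw [hkktop, hfr] at hA'
    have h1 : finrank F ↥(LinearMap.range (T - 1)) ≤
        finrank F ↥(LinearMap.ker (Matrix.toLin' (g : Matrix (Fin d ⊕ Fin d) (Fin d ⊕ Fin d) F) - 1)) := by
      apply Submodule.finrank_mono
      intro v hv
      rw [LinearMap.mem_ker, LinearMap.sub_apply, Module.End.one_apply, hgR v hv, sub_self]
    have hA0 : A' = 0 := by
      by_contra hne
      have h4 : cc F r * 1 ≤ cc F r * A' := Nat.mul_le_mul_left _ (Nat.pos_of_ne_zero hne)
      omega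
    rw [hA0, mul_zero, add_zero] at hA'
    have h5 : LinearMap.ker (Matrix.toLin' (g : Matrix (Fin d ⊕ Fin d) (Fin d ⊕ Fin d) F) - 1) = ⊤ :=
      Submodule.eq_top_of_finrank_eq (by rw [hfr]; exact hA'.symm)
    have h6 : Matrix.toLin' (g : Matrix (Fin d ⊕ Fin d) (Fin d ⊕ Fin d) F) = 1 :=
      sub_eq_zero.mp (LinearMap.ker_eq_top.mp h5)
    apply Units.ext
    apply Matrix.toLin'.injective
    rw [h6, Units.val_one, Matrix.toLin'_one]
    rfl
  -- a minus-type `m`-space inside `ker (T - 1)`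
  have hexW : ∃ W : Submodule F (Fin d ⊕ Fin d → F), finrank F W = m ∧
      QNd (Cfsg.Agent.H49.QP d F) W ∧
      (QPlus (Cfsg.Agent.H49.QP d F) W ↔ False) ∧
      W ≤ perp (QuadraticMap.polarBilin (Cfsg.Agent.H49.QP d F))
        (LinearMap.range (T - 1)) := by
    have hkT : kk T ⊤ = finrank F ↥(LinearMap.ker (T - 1)) := hkktop T
    obtain ⟨W, hWinv, hWnd, hWm, hWp⟩ := hExist 0 m False (Nat.zero_le A)
      (by rw [hkT]; exact le_of_lt hmK) hm (fun h => absurd h (by omega))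
      (fun h _ => absurd h (by rw [hkT]; omega))
    rw [mul_zero, zero_add] at hWm
    have hWE : IsEll F d m W := (hEW W).mpr ⟨hWm, hWnd, fun h => hWp.mp h⟩
    refine ⟨W, hWm, hWnd, hWp, ?_⟩
    rw [hperp]
    apply hfixle W hWE
    rw [Submodule.map_le_iff_le_comap, ← Module.End.mem_invtSubmodule]
    exact hWinv
  have hcard4 : Fintype.card (Fin d ⊕ Fin d) ≠ 4 := by
    simp only [Fintype.card_sum, Fintype.card_fin]
    omega
  have hOrb' := hCO F (Fin d ⊕ Fin d) (Cfsg.Agent.H49.QP d F) r m False hNdTop (Or.inr hcard4) hr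
    hm (LinearMap.range (T - 1)) hRnd hg hexW
  intro hdvd
  apply hOrb'
  rw [← hcard]
  exact (hmod.dvd_iff (dvd_refl r)).mp hdvd

example (hS : Cfsg.Agent.H48.Ep.StStruct.{u, u}) (hBr : Cfsg.Agent.H48.Ep.StBridge.{u})
    (hCO : Cfsg.Agent.H99.Em.StCntOrb.{u}) : Cfsg.Agent.H42.Eq.StCntA.{u} := cntA hS hBr hCO

end Cfsg.Agent.H98.Eq

#print axioms Cfsg.Agent.H98.Eq.cntA
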