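import Mathlib
import Cfsg.Agent.H98.FpfGroup

/-!
# Fixed-point-free irreducible representations of Frobenius complements in characteristic 0
(helper98)

`exists_fpf_rep`: over any field `K` of characteristic zero, a Frobenius complement `G` has an
irreducible matrix representation `G →* GL (Fin n) K`, `n > 0`, in which no nonidentity element
has a nonzero fixed vector (in particular it is faithful).  The representation is a minimal left
ideal of `K[G]` inside the ideal of fpf elements (`Cfsg.Agent.H98.FpfLift`).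
-/

set_option autoImplicit false

namespace Cfsg.Agent.H98.FpfLift

open MonoidAlgebra

theorem eq_zero_of_fixed {K G : Type*} [Field K] [CharZero K] [Group G] [Finite G]
    (x : MonoidAlgebra K G) (hx : IsFpfElt K x) (g : G) (hg1 : g ≠ 1)
    (h1 : MonoidAlgebra.of K G g * x = x) : x = 0 := by
  have hog : orderOf g ≠ 1 := fun h => hg1 (orderOf_eq_one_iff.mp h)
  obtain ⟨q, hqdef⟩ : ∃ q, q = (orderOf g).minFac := ⟨_, rfl⟩
  have hq : q.Prime := hqdef ▸ Nat.minFac_prime hog
  have hqd : q ∣ orderOf g := hqdef ▸ Nat.minFac_dvd _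
  have hoc : orderOf (g ^ (orderOf g / q)) = q :=
    orderOf_pow_orderOf_div (orderOf_pos g).ne' hqd
  have h2 : ∀ i : ℕ, MonoidAlgebra.of K G g ^ i * x = x := by
    intro i
    induction i with
    | zero => rw [pow_zero, one_mul]
    | succ i ih => rw [pow_succ, mul_assoc, h1, ih]
  have h3 : ∀ i : ℕ, MonoidAlgebra.of K G (g ^ (orderOf g / q)) ^ i * x = x := by
    intro i
    rw [map_pow, ← pow_mul]
    exact h2 _
  have h4 : Nel K (g ^ (orderOf g / q)) * x = (q : MonoidAlgebra K G) * x := by
    unfold Nel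
    rw [Finset.sum_mul, Finset.sum_congr rfl (fun i _ => h3 i), Finset.sum_const,
      Finset.card_range, hoc, nsmul_eq_mul]
  have h5 : Nel K (g ^ (orderOf g / q)) * x = 0 := hx _ (by rw [hoc]; exact hq)
  rw [h4] at h5
  have hqt : (q : K) ≠ 0 := Nat.cast_ne_zero.mpr hq.ne_zero
  apply MonoidAlgebra.coeff_injective
  ext y
  have h10 := congrArg (fun z => MonoidAlgebra.coeff z y) h5
  simp only [MonoidAlgebra.natCast_def, MonoidAlgebra.coeff_single_one_mul,
    MonoidAlgebra.coeff_zero, Finsupp.coe_zero, Pi.zero_apply] at h10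
  exact (mul_eq_zero.mp h10).resolve_left hqt

theorem exists_fpf_rep (K : Type*) [Field K] [CharZero K] {G : Type*} [Group G] [Finite G]
    (hFC : ∃ (L : Type) (_ : Group L) (_ : Finite L) (H : Subgroup L),
      Cfsg.IsFrobeniusComplement H ∧ Nonempty (G ≃* H)) :
    ∃ (n : ℕ) (ρ : G →* GL (Fin n) K), 0 < n ∧ Function.Injective ρ ∧
      (∀ W : Submodule K (Fin n → K),
        (∀ g : G, ∀ w ∈ W, ((ρ g : GL (Fin n) K) : Matrix (Fin n) (Fin n) K).mulVec w ∈ W) →
          W = ⊥ ∨ W = ⊤) ∧
      ∀ g : G, g ≠ 1 → ∀ v : Fin n → K,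
        ((ρ g : GL (Fin n) K) : Matrix (Fin n) (Fin n) K).mulVec v = v → v = 0 := by
  classical
  obtain ⟨w, hw0, hw⟩ := exists_fpfElt_of_frob hFC
  have hinj : Function.Injective (MonoidAlgebra.mapRingHom G (Int.castRingHom K)) :=
    MonoidAlgebra.map_injective (M := G) ((Int.castRingHom K : ℤ →+* K) : ℤ →+ K)
      (fun _ _ h => Int.cast_injective h)
  have hwK0 : MonoidAlgebra.mapRingHom G (Int.castRingHom K) w ≠ 0 :=
    fun h => hw0 (hinj (h.trans (map_zero _).symm))
  have hwK : IsFpfElt K (MonoidAlgebra.mapRingHom G (Int.castRingHom K) w) := by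
    intro a ha
    rw [← mapRingHom_Nel (Int.castRingHom K) a, ← map_mul, hw a ha, map_zero]
  let Λ : Submodule (MonoidAlgebra K G) (MonoidAlgebra K G) :=
    { carrier := {x | IsFpfElt K x}
      add_mem' := by
        intro x y hx hy a ha
        rw [mul_add, hx a ha, hy a ha, add_zero]
      zero_mem' := fun a _ => mul_zero _
      smul_mem' := fun c x hx => hx.mul_left c }
  have hΛ : Λ ≠ ⊥ := by
    intro h
    have h1 : MonoidAlgebra.mapRingHom G (Int.castRingHom K) w ∈ Λ := hwK
    rw [h, Submodule.mem_bot] at h1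
    exact hwK0 h1
  haveI : IsArtinianRing (MonoidAlgebra K G) := IsArtinianRing.of_finite K (MonoidAlgebra K G)
  obtain ⟨U, hU, hUΛ⟩ := (IsAtomic.eq_bot_or_exists_atom_le Λ).resolve_left hΛ
  haveI : Nontrivial U := (Submodule.nontrivial_iff_ne_bot).mpr hU.1
  have hnpos : 0 < Module.finrank K U := Module.finrank_pos
  let b : Module.Basis (Fin (Module.finrank K U)) K U := Module.finBasis K U
  let φ0 : MonoidAlgebra K G →ₐ[K] Module.End K U := Algebra.lsmul K K U
  let ψ : G →* Module.End K U :=
    (φ0 : MonoidAlgebra K G →* Module.End K U).comp (MonoidAlgebra.of K G)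
  have hψ : ∀ (g : G) (u : U),
      ((ψ g u : U) : MonoidAlgebra K G) = MonoidAlgebra.of K G g * u := fun g u => rfl
  let ρ₀ : G →* Matrix (Fin (Module.finrank K U)) (Fin (Module.finrank K U)) K :=
    { toFun := fun g => LinearMap.toMatrix b b (ψ g)
      map_one' := by
        show LinearMap.toMatrix b b (ψ 1) = 1
        rw [map_one]
        exact LinearMap.toMatrix_one b
      map_mul' := fun g h => by
        show LinearMap.toMatrix b b (ψ (g * h))
          = LinearMap.toMatrix b b (ψ g) * LinearMap.toMatrix b b (ψ h)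
        rw [map_mul]
        exact LinearMap.toMatrix_mul b _ _ }
  have hρ : ∀ (g : G) (u : U),
      ((ρ₀.toHomUnits g : GL (Fin (Module.finrank K U)) K) :
          Matrix (Fin (Module.finrank K U)) (Fin (Module.finrank K U)) K).mulVec (b.equivFun u)
        = b.equivFun (ψ g u) := by
    intro g u
    rw [MonoidHom.coe_toHomUnits, Module.Basis.equivFun_apply, Module.Basis.equivFun_apply]
    exact LinearMap.toMatrix_mulVec_repr b b (ψ g) u
  have hfix : ∀ g : G, g ≠ 1 → ∀ v : Fin (Module.finrank K U) → K,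
      ((ρ₀.toHomUnits g : GL (Fin (Module.finrank K U)) K) :
          Matrix (Fin (Module.finrank K U)) (Fin (Module.finrank K U)) K).mulVec v = v →
        v = 0 := by
    intro g hg v hv
    obtain ⟨u, rfl⟩ := b.equivFun.surjective v
    rw [hρ] at hv
    have h1 : ψ g u = u := b.equivFun.injective hv
    have h2 : MonoidAlgebra.of K G g * (u : MonoidAlgebra K G) = u := by
      rw [← hψ, h1]
    have h3 : (u : MonoidAlgebra K G) = 0 := eq_zero_of_fixed _ (hUΛ u.2) g hg h2
    have h4 : u = 0 := Subtype.ext h3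
    rw [h4, map_zero]
  refine ⟨Module.finrank K U, ρ₀.toHomUnits, hnpos, ?_, ?_, hfix⟩
  · intro g h hgh
    by_contra hne
    have h1 : g⁻¹ * h ≠ 1 := fun h2 => hne (inv_mul_eq_one.mp h2)
    have h2 : ρ₀.toHomUnits (g⁻¹ * h) = 1 := by
      rw [map_mul, map_inv, hgh, inv_mul_cancel]
    have h3 := hfix _ h1 (fun _ => 1) (by rw [h2]; simp)
    have h4 := congrFun h3 ⟨0, hnpos⟩
    exact one_ne_zero h4
  · intro W hW
    let U' : Submodule (MonoidAlgebra K G) (MonoidAlgebra K G) :=
      { carrier := {x | ∃ hx : x ∈ U, b.equivFun ⟨x, hx⟩ ∈ W}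
        add_mem' := by
          rintro x y ⟨hx, hxW⟩ ⟨hy, hyW⟩
          refine ⟨U.add_mem hx hy, ?_⟩
          have h1 : (⟨x + y, U.add_mem hx hy⟩ : U) = ⟨x, hx⟩ + ⟨y, hy⟩ := rfl
          rw [h1, map_add]
          exact W.add_mem hxW hyW
        zero_mem' := ⟨U.zero_mem, by
          have h1 : (⟨0, U.zero_mem⟩ : U) = 0 := rfl
          rw [h1, map_zero]
          exact W.zero_mem⟩
        smul_mem' := by
          rintro c x ⟨hx, hxW⟩
          refine ⟨U.smul_mem c hx, ?_⟩
          have h1 : (⟨c • x, U.smul_mem c hx⟩ : U) = c • (⟨x, hx⟩ : U) := rfl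
          rw [h1]
          clear h1
          induction c using MonoidAlgebra.induction_on with
          | of g =>
            have h1 : (MonoidAlgebra.of K G g) • (⟨x, hx⟩ : U) = ψ g ⟨x, hx⟩ := rfl
            rw [h1, ← hρ]
            exact hW g _ hxW
          | add c1 c2 h1 h2 =>
            rw [add_smul, map_add]
            exact W.add_mem h1 h2
          | smul r c h1 =>
            rw [smul_assoc, map_smul]
            exact W.smul_mem r h1 }
    have hU'U : U' ≤ U := fun x hx => hx.1
    rcases hU.le_iff.mp hU'U with h | h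
    · left
      rw [eq_bot_iff]
      intro v hv
      obtain ⟨u, rfl⟩ := b.equivFun.surjective v
      have h1 : (u : MonoidAlgebra K G) ∈ U' := ⟨u.2, hv⟩
      rw [h, Submodule.mem_bot] at h1
      have h2 : u = 0 := Subtype.ext h1
      rw [h2, map_zero]
      exact Submodule.zero_mem _
    · right
      rw [eq_top_iff]
      intro v _
      obtain ⟨u, rfl⟩ := b.equivFun.surjective v
      have h1 : (u : MonoidAlgebra K G) ∈ U' := by
        rw [h]
        exact u.2
      obtain ⟨hx, hxW⟩ := h1
      exact hxW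

end Cfsg.Agent.H98.FpfLift
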