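import Mathlib
import Cfsg.Agent.H66.GrossDefs

/-!
# Gross's theorem (S3795): the common "commutant subgroup → R2" core of pieces LA and ULINB

For a representation `ρ'` of a finite group `G` of odd order with a fixed-point-free intertwiner
`X'` (level `k`), and a set `D0 ⊆ G` acting by scalars, containing all commutators and all
`a * τ' a`: the subgroup `commSub ρ'` of the elements whose image is central in `ρ'(G)` satisfies
the hypotheses of `R2Statement` as soon as `ρ'(G)` is not commutative.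
-/

set_option autoImplicit false

namespace Cfsg.Agent.H98.Gross

open Cfsg Cfsg.Agent.H66.Gross

universe u

/-- The subgroup of the elements whose image commutes with the whole image of `ρ`. -/
def commSub {G : Type*} [Group G] {K : Type*} [Field K] {W : Type*} [AddCommGroup W] [Module K W]
    (ρ : G →* Module.End K W) : Subgroup G where
  carrier := {a | ∀ b, ρ a * ρ b = ρ b * ρ a}
  one_mem' := by
    intro b
    rw [map_one, one_mul, mul_one]
  mul_mem' := by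
    intro a a' ha ha' b
    rw [map_mul, mul_assoc, ha' b, ← mul_assoc, ha b, mul_assoc]
  inv_mem' := by
    intro a ha b
    have e1 : ρ a * ρ a⁻¹ = 1 := by rw [← map_mul, mul_inv_cancel, map_one]
    have e2 : ρ a⁻¹ * ρ a = 1 := by rw [← map_mul, inv_mul_cancel, map_one]
    calc ρ a⁻¹ * ρ b = ρ a⁻¹ * ρ b * (ρ a * ρ a⁻¹) := by rw [e1, mul_one]
      _ = ρ a⁻¹ * (ρ b * ρ a) * ρ a⁻¹ := by simp only [mul_assoc]
      _ = ρ a⁻¹ * (ρ a * ρ b) * ρ a⁻¹ := by rw [ha b]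
      _ = (ρ a⁻¹ * ρ a) * ρ b * ρ a⁻¹ := by simp only [mul_assoc]
      _ = ρ b * ρ a⁻¹ := by rw [e2, one_mul]

theorem mem_commSub {G : Type*} [Group G] {K : Type*} [Field K] {W : Type*} [AddCommGroup W]
    [Module K W] (ρ : G →* Module.End K W) (a : G) :
    a ∈ commSub ρ ↔ ∀ b, ρ a * ρ b = ρ b * ρ a := Iff.rfl

/-- If `ρ a` and `ρ b` commute then `ρ` kills the commutator `a * b * a⁻¹ * b⁻¹`. -/
theorem rho_comm_eq_one {G : Type*} [Group G] {K : Type*} [Field K] {W : Type*} [AddCommGroup W]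
    [Module K W] (ρ : G →* Module.End K W) (a b : G) (h : ρ a * ρ b = ρ b * ρ a) :
    ρ (a * b * a⁻¹ * b⁻¹) = 1 := by
  calc ρ (a * b * a⁻¹ * b⁻¹) = ρ a * ρ b * ρ a⁻¹ * ρ b⁻¹ := by rw [map_mul, map_mul, map_mul]
    _ = ρ b * ρ a * ρ a⁻¹ * ρ b⁻¹ := by rw [h]
    _ = ρ (b * a * a⁻¹ * b⁻¹) := by rw [map_mul, map_mul, map_mul]
    _ = 1 := by rw [mul_inv_cancel_right, mul_inv_cancel, map_one]

/-- The common core of LA and ULINB. -/
theorem core_R2 (hR1 : R1Statement.{u}) (hR2 : R2Statement.{u}) (hFree : FreeStatement.{u})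
    (G : Type u) [Group G] [Finite G] (hodd : Odd (Nat.card G)) (K : Type) [Field K]
    [IsAlgClosed K] (W : Type u) [AddCommGroup W] [Module K W] [FiniteDimensional K W]
    [Nontrivial W] (ρ' : G →* Module.End K W) (k : ℕ) (hk : 0 < k) (h2 : (2 : K) ≠ 0)
    (hcard : (Nat.card G : K) ≠ 0) (σ' : MulAut G) (X' : Module.End K W)
    (hfpf : IsFpfMod σ' k ρ' X') (D0 : Set G) (hD0 : ∀ d ∈ D0, ∃ c : K, ρ' d = c • 1)
    (hcomm : ∀ a b : G, a * b * a⁻¹ * b⁻¹ ∈ D0)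
    (hinv : ∀ a : G, a * (σ' ^ (2 ^ (k - 1))) a ∈ D0)
    (hne : ∃ a b : G, ρ' a * ρ' b ≠ ρ' b * ρ' a) :
    (commSub ρ').index = (2 ^ k - 1) ^ 2 ∧
      ∀ U : Submodule K W, (∀ a : G, ∀ u ∈ U, ρ' a u ∈ U) → U ≠ ⊤ →
        ∃ v w : W, (X' ^ (2 ^ (k - 1))) v = -v ∧ (X' ^ (2 ^ (k - 1))) w = -w ∧
          ∀ a b : K, a • v + b • w ∈ U → a = 0 ∧ b = 0 := by
  obtain ⟨hσ, hX, hXρ, hfix⟩ := id hfpf
  have hD0Z : ∀ d ∈ D0, d ∈ commSub ρ' := by
    intro d hd b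
    obtain ⟨c, hc⟩ := hD0 d hd
    rw [hc, smul_mul_assoc, one_mul, mul_smul_comm, mul_one]
  have hXinv : X' * X' ^ (2 ^ k - 1) = 1 := by
    rw [← pow_succ', Nat.sub_add_cancel Nat.one_le_two_pow, hX]
  have hZσ : ∀ z ∈ commSub ρ', σ' z ∈ commSub ρ' := by
    intro z hz b
    obtain ⟨b', rfl⟩ : ∃ b', σ' b' = b := ⟨σ'.symm b, σ'.apply_symm_apply b⟩
    have h1 : ρ' (σ' z) * ρ' (σ' b') * X' = ρ' (σ' b') * ρ' (σ' z) * X' := by
      calc ρ' (σ' z) * ρ' (σ' b') * X' = ρ' (σ' z) * (X' * ρ' b') := by rw [mul_assoc, hXρ b']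
        _ = X' * (ρ' z * ρ' b') := by rw [← mul_assoc, ← hXρ z, mul_assoc]
        _ = X' * (ρ' b' * ρ' z) := by rw [hz b']
        _ = ρ' (σ' b') * (X' * ρ' z) := by rw [← mul_assoc, hXρ b', mul_assoc]
        _ = ρ' (σ' b') * ρ' (σ' z) * X' := by rw [hXρ z, mul_assoc]
    have h3 := congrArg (fun f => f * X' ^ (2 ^ k - 1)) h1
    simp only [mul_assoc, hXinv, mul_one] at h3
    exact h3
  have hcardZ : (Nat.card (commSub ρ') : K) ≠ 0 := by
    intro h0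
    apply hcard
    rw [← Subgroup.card_mul_index (commSub ρ'), Nat.cast_mul, h0, zero_mul]
  have hτ : ∀ b ∈ commSub ρ', ρ' ((σ' ^ (2 ^ (k - 1))) b) = ρ' b :=
    hR1 G σ' k hk K W ρ' X' hfpf (commSub ρ') hZσ (fun a ha b _ => ha b) hcardZ
  have hZs : ∀ z ∈ commSub ρ', ∃ c : K, ρ' z = c • 1 := by
    intro z hz
    obtain ⟨c, hc⟩ := hD0 _ (hinv z)
    rw [map_mul, hτ z hz] at hc
    have hzodd : Odd (orderOf z) := Odd.of_dvd_nat hodd (orderOf_dvd_natCard z)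
    obtain ⟨t, ht⟩ := hzodd
    have hz2 : z = (z * z) ^ (t + 1) := by
      rw [← pow_two, ← pow_mul, show 2 * (t + 1) = orderOf z + 1 by omega, pow_succ,
        pow_orderOf_eq_one, one_mul]
    refine ⟨c ^ (t + 1), ?_⟩
    calc ρ' z = ρ' ((z * z) ^ (t + 1)) := by rw [← hz2]
      _ = (ρ' z * ρ' z) ^ (t + 1) := by rw [map_pow, map_mul]
      _ = (c • (1 : Module.End K W)) ^ (t + 1) := by rw [hc]
      _ = c ^ (t + 1) • 1 := by rw [smul_pow, one_pow]
  have hnd : ∀ a : G, (∀ b : G, ρ' (b * a * b⁻¹ * a⁻¹) = 1) → a ∈ commSub ρ' := by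
    intro a ha b
    have h1 : b * a = (b * a * b⁻¹ * a⁻¹) * (a * b) := by group
    have h3 : ρ' (b * a) = ρ' ((b * a * b⁻¹ * a⁻¹) * (a * b)) := by rw [← h1]
    rw [map_mul ρ' (b * a * b⁻¹ * a⁻¹), ha b, one_mul, map_mul, map_mul] at h3
    exact h3.symm
  have hcomm' : ∀ a b : G, a * b * a⁻¹ * b⁻¹ ∈ commSub ρ' := fun a b => hD0Z _ (hcomm a b)
  have hfree := hFree G hodd σ' k hk hσ (commSub ρ') hZσ hcomm' (fun a => hD0Z _ (hinv a))
  have hZtop : commSub ρ' ≠ ⊤ := by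
    intro htop
    obtain ⟨a, b, hab⟩ := hne
    exact hab ((htop ▸ Subgroup.mem_top a : a ∈ commSub ρ') b)
  exact hR2 G K W ρ' (commSub ρ') k hk h2 hcard hcomm' hZs hnd hZtop σ' X' hfpf hfree

end Cfsg.Agent.H98.Gross
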