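import Mathlib
import Cfsg.Agent.H66.GrossDefs
import Cfsg.Agent.H98.GrossCore

/-!
# Gross's theorem (S3795), piece LA

The radical `Zg` of the commutator form of the inverted part `Cm` of a critical pair at a common
eigenvector `w` of `Z`.
-/

set_option autoImplicit false

namespace Cfsg.Agent.H98.Gross

open Cfsg Cfsg.Agent.H66.Gross

open scoped commutatorElement

universe u

/-- A finite group with a fixed-point-free automorphism of `2`-power order has odd order. -/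
theorem odd_card_of_fpf {H : Type*} [Group H] [Finite H] (σ : MulAut H) (n : ℕ)
    (hσ : σ ^ (2 ^ n) = 1) (hσfix : ∀ h : H, σ h = h → h = 1) : Odd (Nat.card H) := by
  classical
  have : Fintype H := Fintype.ofFinite H
  rw [← Nat.not_even_iff_odd, even_iff_two_dvd]
  intro h2'
  have : Fact (Nat.Prime 2) := ⟨Nat.prime_two⟩
  have h1 : ∀ (m : ℕ) (g : H), ((σ.toEquiv : Equiv.Perm H) ^ m) g = (σ ^ m) g := by
    intro m
    induction m with
    | zero => intro g; rfl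
    | succ m ih =>
      intro g
      rw [pow_succ, pow_succ, Equiv.Perm.mul_apply, MulAut.mul_apply, ih]
      rfl
  have hπ : (σ.toEquiv : Equiv.Perm H) ^ 2 ^ n = 1 := by
    ext g
    rw [h1, hσ]
    rfl
  obtain ⟨b, hb, hb1⟩ := Equiv.Perm.exists_fixed_point_of_prime'
    (by rw [← Nat.card_eq_fintype_card]; exact h2') hπ (a := (1 : H)) (map_one σ)
  exact hb1 (hσfix b hb)

theorem la_holds (hR1 : R1Statement.{u}) (hR2 : R2Statement.{u}) (hWS : WSStatement.{u})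
    (hFree : FreeStatement.{u}) : LAStatement.{u} := by
  intro H _ _ σ n hn q _ K _ _ V _ _ _ ρ X hfpf h2 hqK hσfix C Z Cm hcrit hCm w hw hwZ
  obtain ⟨hCq, hZC, hCσ, hZσ, hCZcomm, hCC, hCq', hτZ⟩ := hcrit
  classical
  have hodd : Odd (Nat.card H) := odd_card_of_fpf σ n hfpf.1 hσfix
  have hmemCm : ∀ x, x ∈ Cm ↔ x ∈ C ∧ x * (σ ^ (2 ^ (n - 1))) x ∈ Z := by
    intro x
    rw [← SetLike.mem_coe, hCm]
    rfl
  have hCmC : Cm ≤ C := fun x hx => ((hmemCm x).1 hx).1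
  have hστ : ∀ a, (σ ^ (2 ^ (n - 1))) (σ a) = σ ((σ ^ (2 ^ (n - 1))) a) := fun a => by
    rw [← MulAut.mul_apply, ← MulAut.mul_apply, ← pow_succ, ← pow_succ']
  have hCmσ : ∀ a ∈ Cm, σ a ∈ Cm := by
    intro a ha
    rw [hmemCm] at ha ⊢
    refine ⟨hCσ a ha.1, ?_⟩
    rw [hστ, ← map_mul]
    exact hZσ _ ha.2
  let χ : H → K := fun h => if hz : h ∈ Z then Classical.choose (hwZ h hz) else 0
  have hwχ : ∀ a ∈ Z, ρ a w = χ a • w := by
    intro a ha
    have h1 := Classical.choose_spec (hwZ a ha)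
    simp only [χ, dif_pos ha]
    exact h1
  have hcommZCm : ∀ a ∈ Z, ∀ b ∈ Cm, ρ a * ρ b = ρ b * ρ a := by
    intro a ha b hb
    rw [← map_mul, ← map_mul, hCZcomm b (hCmC hb) a ha]
  have hτZ' : ∀ a ∈ Z, ρ ((σ ^ (2 ^ (n - 1))) a) = ρ a := fun a ha => by rw [hτZ a ha]
  obtain ⟨j, k, σ', ρ', X', hk, hjk, hχj, hσ'coe, hτ', hρ', hX'coe, hX'τ, hfpf'⟩ :=
    hWS H σ n hn K V ρ X hfpf Z Cm hZσ hCmσ hcommZCm hτZ' χ w hw hwχ
  have hwW : w ∈ wtSp ρ Z χ := hwχ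
  have : Nontrivial (wtSp ρ Z χ) := ⟨⟨⟨w, hwW⟩, 0, fun h => hw (congrArg Subtype.val h)⟩⟩
  have hoddCm : Odd (Nat.card Cm) := Odd.of_dvd_nat hodd (Subgroup.card_subgroup_dvd_card Cm)
  have hcardCm : (Nat.card Cm : K) ≠ 0 := by
    obtain ⟨m, hm⟩ := IsPGroup.iff_card.1 (hCq.to_le hCmC)
    rw [hm, Nat.cast_pow]
    exact pow_ne_zero _ hqK
  have hZCm : Z ≤ Cm := by
    intro z hz
    rw [hmemCm]
    refine ⟨hZC hz, ?_⟩
    rw [hτZ z hz]
    exact Z.mul_mem hz hz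
  have hD0 : ∀ d ∈ {a : Cm | (a : H) ∈ Z}, ∃ c : K, ρ' d = c • 1 := by
    intro d hd
    refine ⟨χ (d : H), ?_⟩
    apply LinearMap.ext
    intro u
    apply Subtype.ext
    rw [hρ']
    exact u.2 _ hd
  have hcomm : ∀ a b : Cm, a * b * a⁻¹ * b⁻¹ ∈ {a : Cm | (a : H) ∈ Z} := by
    intro a b
    show ((a * b * a⁻¹ * b⁻¹ : Cm) : H) ∈ Z
    have h1 := hCC a (hCmC a.2) b (hCmC b.2)
    rw [commutatorElement_def] at h1
    exact h1
  have hinv : ∀ a : Cm, a * (σ' ^ (2 ^ (k - 1))) a ∈ {a : Cm | (a : H) ∈ Z} := by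
    intro a
    show ((a * (σ' ^ (2 ^ (k - 1))) a : Cm) : H) ∈ Z
    rw [Subgroup.coe_mul, hτ']
    exact ((hmemCm a).1 a.2).2
  have hZZg : ∀ z ∈ Z, z ∈ (commSub ρ').map Cm.subtype := by
    intro z hz
    refine ⟨⟨z, hZCm hz⟩, ?_, rfl⟩
    intro b
    obtain ⟨c, hc⟩ := hD0 ⟨z, hZCm hz⟩ hz
    rw [hc, smul_mul_assoc, one_mul, mul_smul_comm, mul_one]
  refine ⟨(commSub ρ').map Cm.subtype, Subgroup.map_subtype_le _,
    fun x hx y hy => hZZg _ (hCC x (hCmC hx) y (hCmC hy)),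
    fun x hx => hZZg _ (hCq' x (hCmC hx)), ?_, ?_⟩
  · rintro a ⟨a', ha', rfl⟩ y hy
    have h1 := rho_comm_eq_one ρ' a' ⟨y, hy⟩ (ha' _)
    have h3 := congrArg (fun f => ((f ⟨w, hwW⟩ : wtSp ρ Z χ) : V)) h1
    simp only [hρ'] at h3
    rw [commutatorElement_def]
    exact h3
  · by_cases hne : ∃ a b : Cm, ρ' a * ρ' b ≠ ρ' b * ρ' a
    · right
      obtain ⟨hidx, -⟩ := core_R2 hR1 hR2 hFree Cm hoddCm K (wtSp ρ Z χ) ρ' k hk h2 hcardCm σ' X'
        hfpf' _ hD0 hcomm hinv hne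
      refine ⟨k, hk, ?_⟩
      rw [Subgroup.card_map_of_injective Cm.subtype_injective, ← hidx, mul_comm,
        Subgroup.card_mul_index]
    · left
      push Not at hne
      have htop : commSub ρ' = ⊤ := (Subgroup.eq_top_iff' _).2 (fun a b => hne a b)
      rw [htop, ← MonoidHom.range_eq_map, Subgroup.range_subtype]

end Cfsg.Agent.H98.Gross
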