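import Mathlib
import Cfsg.Agent.H66.GrossDefs
import Cfsg.Agent.H98.GrossCore

/-!
# Gross's theorem (S3795), piece ULINB

Nontrivial weight vectors of `D = ⁅S, S⁆` lie in the radical of every admissible form.
-/

set_option autoImplicit false

namespace Cfsg.Agent.H98.Gross

open Cfsg Cfsg.Agent.H66.Gross

open scoped commutatorElement

universe u

theorem ulinb_holds (hR1 : R1Statement.{u}) (hR2 : R2Statement.{u}) (hWS : WSStatement.{u})
    (hFree : FreeStatement.{u}) (hPair : PairStatement.{u}) : ULinBStatement.{u} := by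
  intro P _ _ σ n hn s _ hP hodd K _ _ V _ _ _ ρ X hfpf hsK h2 S D hD hSσ hDσ hinvD hcommDS hτD
    β hβ χ v hvχ hd0 y0
  by_contra hβv
  have hv0 : v ≠ 0 := by
    rintro rfl
    exact hβv (by simp)
  obtain ⟨j, k, σ', ρ', X', hk, hjk, hχj, hσ'coe, hτ', hρ', hX'coe, hX'τ, hfpf'⟩ :=
    hWS P σ n hn K V ρ X hfpf D S hDσ hSσ hcommDS hτD χ v hv0 hvχ
  obtain ⟨halt, hρinv, hTinv, hrank⟩ := hβ
  have hvW : v ∈ wtSp ρ D χ := hvχ
  have : Nontrivial (wtSp ρ D χ) := ⟨⟨⟨v, hvW⟩, 0, fun h => hv0 (congrArg Subtype.val h)⟩⟩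
  have hoddS : Odd (Nat.card S) := Odd.of_dvd_nat hodd (Subgroup.card_subgroup_dvd_card S)
  have hcardS : (Nat.card S : K) ≠ 0 := by
    obtain ⟨m, hm⟩ := IsPGroup.iff_card.1 (hP.to_subgroup S)
    rw [hm, Nat.cast_pow]
    exact pow_ne_zero _ hsK
  have hD0 : ∀ d ∈ {a : S | (a : P) ∈ D}, ∃ c : K, ρ' d = c • 1 := by
    intro d hd
    refine ⟨χ (d : P), ?_⟩
    apply LinearMap.ext
    intro u
    apply Subtype.ext
    rw [hρ']
    exact u.2 _ hd
  have hcomm : ∀ a b : S, a * b * a⁻¹ * b⁻¹ ∈ {a : S | (a : P) ∈ D} := by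
    intro a b
    show ((a * b * a⁻¹ * b⁻¹ : S) : P) ∈ D
    rw [hD]
    have h1 := Subgroup.commutator_mem_commutator a.2 b.2
    rw [commutatorElement_def] at h1
    exact h1
  have hinv : ∀ a : S, a * (σ' ^ (2 ^ (k - 1))) a ∈ {a : S | (a : P) ∈ D} := by
    intro a
    show ((a * (σ' ^ (2 ^ (k - 1))) a : S) : P) ∈ D
    rw [Subgroup.coe_mul, hτ']
    exact hinvD a a.2
  obtain ⟨d0, hd0D, hd0χ⟩ := hd0
  have hne : ∃ a b : S, ρ' a * ρ' b ≠ ρ' b * ρ' a := by
    by_contra hall
    push Not at hall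
    have hall' : ∀ d ∈ D, ρ d v = v := by
      intro d hd
      rw [hD, Subgroup.commutator_def] at hd
      induction hd using Subgroup.closure_induction with
      | mem x hx =>
        obtain ⟨g₁, hg₁, g₂, hg₂, rfl⟩ := hx
        have h1 := rho_comm_eq_one ρ' ⟨g₁, hg₁⟩ ⟨g₂, hg₂⟩ (hall _ _)
        have h3 := congrArg (fun f => ((f ⟨v, hvW⟩ : wtSp ρ D χ) : V)) h1
        simp only [hρ'] at h3
        rw [commutatorElement_def]
        exact h3
      | one => simp
      | mul x y _ _ hx hy => rw [map_mul, Module.End.mul_apply, hy, hx]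
      | inv x _ hx =>
        have h5 : ρ x⁻¹ (ρ x v) = v := by
          rw [← Module.End.mul_apply, ← map_mul, inv_mul_cancel, map_one, Module.End.one_apply]
        rw [hx] at h5
        exact h5
    have h4 := hvχ d0 hd0D
    rw [hall' d0 hd0D] at h4
    apply hd0χ
    have h5 : (1 : K) • v = χ d0 • v := by rw [one_smul]; exact h4
    exact (smul_left_injective K hv0 h5).symm
  obtain ⟨-, hb⟩ := core_R2 hR1 hR2 hFree S hoddS K (wtSp ρ D χ) ρ' k hk h2 hcardS σ' X' hfpf'
    _ hD0 hcomm hinv hne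
  let U : Submodule K (wtSp ρ D χ) :=
    { carrier := {u | ∀ y : V, β (u : V) y = 0}
      add_mem' := by
        intro a b ha hb y
        show β ((a : V) + (b : V)) y = 0
        rw [map_add, LinearMap.add_apply, ha y, hb y, add_zero]
      zero_mem' := by
        intro y
        show β (0 : V) y = 0
        rw [map_zero, LinearMap.zero_apply]
      smul_mem' := by
        intro c a ha y
        show β (c • (a : V)) y = 0
        rw [map_smul, LinearMap.smul_apply, ha y, smul_zero] }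
  have hUinv : ∀ a : S, ∀ u ∈ U, ρ' a u ∈ U := by
    intro a u hu y
    rw [hρ']
    have h1 : ρ (a : P) (ρ ((a : P)⁻¹) y) = y := by
      rw [← Module.End.mul_apply, ← map_mul, mul_inv_cancel, map_one, Module.End.one_apply]
    rw [← h1, hρinv]
    exact hu _
  have hUtop : U ≠ ⊤ := by
    intro htop
    have h1 : (⟨v, hvW⟩ : wtSp ρ D χ) ∈ U := htop ▸ Submodule.mem_top
    exact hβv (h1 y0)
  obtain ⟨v1, w1, hv1, hw1, hind⟩ := hb U hUinv hUtop
  have hTv1 : (X ^ (2 ^ (n - 1))) (v1 : V) = -(v1 : V) := by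
    rw [← hX'τ, hv1]
    rfl
  have hTw1 : (X ^ (2 ^ (n - 1))) (w1 : V) = -(w1 : V) := by
    rw [← hX'τ, hw1]
    rfl
  have hχodd : χ d0 * χ d0 ≠ 1 := by
    intro h
    apply hd0χ
    have hpow : ∀ i : ℕ, ρ (d0 ^ i) v = χ d0 ^ i • v := by
      intro i
      induction i with
      | zero => simp
      | succ i ih =>
        rw [pow_succ, map_mul, Module.End.mul_apply, hvχ d0 hd0D, map_smul, ih, smul_smul,
          pow_succ, mul_comm]
    have hm := hpow (orderOf d0)
    rw [pow_orderOf_eq_one, map_one, Module.End.one_apply] at hm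
    have hm1 : χ d0 ^ orderOf d0 = 1 := by
      have h5 : (1 : K) • v = χ d0 ^ orderOf d0 • v := by rw [one_smul]; exact hm
      exact (smul_left_injective K hv0 h5).symm
    obtain ⟨t, ht⟩ := Odd.of_dvd_nat hodd (orderOf_dvd_natCard d0)
    rw [ht, pow_succ, pow_mul, pow_two, h, one_pow, one_mul] at hm1
    exact hm1
  have hiso : β (v1 : V) (w1 : V) = 0 := by
    have h1 := hρinv d0 (v1 : V) (w1 : V)
    rw [v1.2 d0 hd0D, w1.2 d0 hd0D] at h1
    simp only [map_smul, LinearMap.smul_apply, smul_eq_mul] at h1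
    by_contra hne0
    apply hχodd
    apply mul_right_cancel₀ hne0
    rw [one_mul, mul_assoc]
    exact h1
  have hTT : X ^ (2 ^ (n - 1)) * X ^ (2 ^ (n - 1)) = 1 := by
    rw [← pow_add, ← two_mul, ← pow_succ', Nat.sub_add_cancel hn]
    exact hfpf.2.1
  obtain ⟨a, b, hab, hrad⟩ := hPair K V h2 (X ^ (2 ^ (n - 1))) β hTT halt hTinv hrank
    (v1 : V) (w1 : V) hTv1 hTw1 hiso
  exact hab (hind a b (fun y => hrad y))

end Cfsg.Agent.H98.Gross
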