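import Mathlib
import Cfsg.Agent.H66.GrossDefs

/-!
# Gross's theorem (S3795), piece WS: restriction to a weight space

`ws_holds : WSStatement` — for a fixed-point-free `σ`-module `(ρ, X)` of level `n`, a
`σ`-invariant subgroup `A` with `ρ(τ a) = ρ a`, a `σ`-invariant subgroup `Γ` whose image
commutes with that of `A`, and a weight `χ` of `A` with a nonzero weight vector: the weight space
is a fixed-point-free `σ ^ j`-module of level `k` for `Γ`, where `j * 2 ^ k = 2 ^ n`, `0 < k`.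
-/

set_option autoImplicit false

namespace Cfsg.Agent.H98.Gross

open Cfsg Cfsg.Agent.H66.Gross

universe u

section Weights

variable {K : Type*} [Field K] {V : Type*} [AddCommGroup V] [Module K V]

/-- Weight vectors for pairwise distinct weights are independent (sum zero forces all zero). -/
theorem wt_indep {ι Z : Type*} [DecidableEq ι] (T : Z → Module.End K V) (A : Set Z)
    (χ : ι → Z → K) :
    ∀ (s : Finset ι), (∀ i ∈ s, ∀ j ∈ s, i ≠ j → ∃ z ∈ A, χ i z ≠ χ j z) → ∀ (v : ι → V),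
      (∀ i ∈ s, ∀ z ∈ A, T z (v i) = χ i z • v i) → ∑ i ∈ s, v i = 0 → ∀ i ∈ s, v i = 0 := by
  intro s
  induction s using Finset.induction_on with
  | empty => intro _ _ _ _ i hi; simp at hi
  | insert j s hj ih =>
    intro hdist v hv hsum
    have hs' : ∀ i ∈ s, v i = 0 := by
      intro i hi
      obtain ⟨z, hzA, hz⟩ := hdist i (Finset.mem_insert_of_mem hi) j (Finset.mem_insert_self j s)
        (fun h => hj (h ▸ hi))
      have h2 : ∑ i' ∈ insert j s, (χ i' z - χ j z) • v i' = 0 := by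
        calc ∑ i' ∈ insert j s, (χ i' z - χ j z) • v i'
            = ∑ i' ∈ insert j s, (T z (v i') - χ j z • v i') :=
              Finset.sum_congr rfl (fun i' hi' => by rw [hv i' hi' z hzA, sub_smul])
          _ = T z (∑ i' ∈ insert j s, v i') - χ j z • ∑ i' ∈ insert j s, v i' := by
              rw [map_sum, Finset.smul_sum, Finset.sum_sub_distrib]
          _ = 0 := by rw [hsum, map_zero, smul_zero, sub_zero]
      rw [Finset.sum_insert hj, sub_self, zero_smul, zero_add] at h2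
      have h3 := ih (fun a ha b hb hab =>
          hdist a (Finset.mem_insert_of_mem ha) b (Finset.mem_insert_of_mem hb) hab)
        (fun i' => (χ i' z - χ j z) • v i')
        (fun i' hi' z' hz' => by
          rw [map_smul, hv i' (Finset.mem_insert_of_mem hi') z' hz', smul_comm]) h2 i hi
      rcases smul_eq_zero.mp h3 with h4 | h4
      · exact absurd (sub_eq_zero.mp h4) hz
      · exact h4
    intro i hi
    rcases Finset.mem_insert.mp hi with rfl | hi
    · rw [Finset.sum_insert hj, Finset.sum_eq_zero (fun i' hi' => hs' i' hi'), add_zero] at hsum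
      exact hsum
    · exact hs' i hi

end Weights

section Aut

variable {H : Type*} [Group H]

/-- Restriction of an automorphism to a subgroup invariant under it and its inverse. -/
def resAut (τ : MulAut H) (Γ : Subgroup H) (h1 : ∀ a ∈ Γ, τ a ∈ Γ) (h2 : ∀ a ∈ Γ, τ⁻¹ a ∈ Γ) :
    MulAut Γ where
  toFun a := ⟨τ a, h1 a a.2⟩
  invFun a := ⟨τ⁻¹ a, h2 a a.2⟩
  left_inv a := by
    apply Subtype.ext
    show τ⁻¹ (τ (a : H)) = a
    rw [← MulAut.mul_apply, inv_mul_cancel, MulAut.one_apply]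
  right_inv a := by
    apply Subtype.ext
    show τ (τ⁻¹ (a : H)) = a
    rw [← MulAut.mul_apply, mul_inv_cancel, MulAut.one_apply]
  map_mul' a b := by
    apply Subtype.ext
    show τ ((a : H) * (b : H)) = τ (a : H) * τ (b : H)
    exact map_mul τ _ _

theorem resAut_apply (τ : MulAut H) (Γ : Subgroup H) (h1 : ∀ a ∈ Γ, τ a ∈ Γ)
    (h2 : ∀ a ∈ Γ, τ⁻¹ a ∈ Γ) (a : Γ) : ((resAut τ Γ h1 h2 a : Γ) : H) = τ (a : H) := rfl

theorem resAut_pow_apply (τ : MulAut H) (Γ : Subgroup H) (h1 : ∀ a ∈ Γ, τ a ∈ Γ)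
    (h2 : ∀ a ∈ Γ, τ⁻¹ a ∈ Γ) (m : ℕ) :
    ∀ a : Γ, ((((resAut τ Γ h1 h2) ^ m) a : Γ) : H) = (τ ^ m) (a : H) := by
  induction m with
  | zero => intro a; simp
  | succ m ih =>
    intro a
    rw [pow_succ, pow_succ, MulAut.mul_apply, MulAut.mul_apply, ih]
    rfl

end Aut

theorem ws_holds : WSStatement.{u} := by
  intro H _ _ σ n hn K _ _ V _ _ _ ρ X hfpf A Γ hAσ hΓσ hcomm hτ χ w hw hwχ
  obtain ⟨hσ, hX, hXρ, hfix⟩ := hfpf
  have hApow : ∀ m : ℕ, ∀ a ∈ A, (σ ^ m) a ∈ A := by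
    intro m
    induction m with
    | zero => intro a ha; simpa using ha
    | succ m ih => intro a ha; rw [pow_succ, MulAut.mul_apply]; exact ih _ (hAσ a ha)
  have hΓpow : ∀ m : ℕ, ∀ a ∈ Γ, (σ ^ m) a ∈ Γ := by
    intro m
    induction m with
    | zero => intro a ha; simpa using ha
    | succ m ih => intro a ha; rw [pow_succ, MulAut.mul_apply]; exact ih _ (hΓσ a ha)
  have hXpow : ∀ (m : ℕ) (h : H), X ^ m * ρ h = ρ ((σ ^ m) h) * X ^ m := by
    intro m
    induction m with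
    | zero => intro h; simp
    | succ m ih =>
      intro h
      calc X ^ (m + 1) * ρ h = X ^ m * (X * ρ h) := by rw [pow_succ, mul_assoc]
        _ = X ^ m * ρ (σ h) * X := by rw [hXρ h, mul_assoc]
        _ = ρ ((σ ^ m) (σ h)) * (X ^ m * X) := by rw [ih (σ h), mul_assoc]
        _ = ρ ((σ ^ (m + 1)) h) * X ^ (m + 1) := by
            rw [← pow_succ, pow_succ σ, MulAut.mul_apply]
  have hJtau : ∀ a ∈ A, χ ((σ ^ (2 ^ (n - 1))) a) = χ a := by
    intro a ha
    have h1 := hwχ _ (hApow (2 ^ (n - 1)) a ha)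
    rw [hτ a ha, hwχ a ha] at h1
    exact (smul_left_injective K hw h1).symm
  have hex : ∃ j : ℕ, 0 < j ∧ ∀ a ∈ A, χ ((σ ^ j) a) = χ a :=
    ⟨2 ^ (n - 1), by positivity, hJtau⟩
  classical
  obtain ⟨j, hj, hjmin⟩ : ∃ j : ℕ, (0 < j ∧ ∀ a ∈ A, χ ((σ ^ j) a) = χ a) ∧
      ∀ m : ℕ, 0 < m → (∀ a ∈ A, χ ((σ ^ m) a) = χ a) → j ≤ m :=
    ⟨Nat.find hex, Nat.find_spec hex, fun m hm h => Nat.find_min' hex ⟨hm, h⟩⟩
  have hmul : ∀ q : ℕ, ∀ a ∈ A, χ ((σ ^ (q * j)) a) = χ a := by
    intro q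
    induction q with
    | zero => intro a ha; simp
    | succ q ih =>
      intro a ha
      rw [Nat.succ_mul, pow_add, MulAut.mul_apply, ih _ (hApow j a ha), hj.2 a ha]
  have hsub : ∀ i i' : ℕ, i ≤ i' → (∀ a ∈ A, χ ((σ ^ i) a) = χ a) →
      (∀ a ∈ A, χ ((σ ^ i') a) = χ a) → ∀ a ∈ A, χ ((σ ^ (i' - i)) a) = χ a := by
    intro i i' hii h1 h2 a ha
    have h3 := h1 _ (hApow (i' - i) a ha)
    rw [← MulAut.mul_apply, ← pow_add, Nat.add_sub_cancel' hii, h2 a ha] at h3
    exact h3.symm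
  have hjdvd : j ∣ 2 ^ (n - 1) := by
    by_contra hnd
    have hr : 0 < 2 ^ (n - 1) % j := Nat.pos_of_ne_zero (fun h => hnd (Nat.dvd_of_mod_eq_zero h))
    have hlt : 2 ^ (n - 1) % j < j := Nat.mod_lt _ hj.1
    have h3 := hsub ((2 ^ (n - 1) / j) * j) (2 ^ (n - 1)) (Nat.div_mul_le_self _ _) (hmul _) hJtau
    have h4 : 2 ^ (n - 1) - 2 ^ (n - 1) / j * j = 2 ^ (n - 1) % j := by
      have := Nat.div_add_mod (2 ^ (n - 1)) j
      rw [mul_comm] at this
      omega
    rw [h4] at h3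
    have := hjmin _ hr h3
    omega
  obtain ⟨e, he, hje⟩ := (Nat.dvd_prime_pow Nat.prime_two).1 hjdvd
  subst hje
  have hen : e + (n - e) = n := by omega
  have hk0 : 0 < n - e := by omega
  have hjk : 2 ^ e * 2 ^ (n - e) = 2 ^ n := by rw [← pow_add, hen]
  have hjk1 : 2 ^ e * 2 ^ (n - e - 1) = 2 ^ (n - 1) := by
    rw [← pow_add]; congr 1; omega
  have hjle : 2 ^ e ≤ 2 ^ n := Nat.pow_le_pow_right (by norm_num) (by omega)
  have hWΓ : ∀ b ∈ Γ, ∀ v ∈ wtSp ρ A χ, ρ b v ∈ wtSp ρ A χ := by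
    intro b hb v hv a ha
    have h1 := hcomm a ha b hb
    calc ρ a (ρ b v) = (ρ a * ρ b) v := rfl
      _ = (ρ b * ρ a) v := by rw [h1]
      _ = ρ b (ρ a v) := rfl
      _ = χ a • ρ b v := by rw [hv a ha, map_smul]
  have hinv : ∀ i : ℕ, i ≤ 2 ^ n → ∀ a : H, (σ ^ i) ((σ ^ (2 ^ n - i)) a) = a := by
    intro i hi a
    rw [← MulAut.mul_apply, ← pow_add, Nat.add_sub_cancel' hi, hσ]
    rfl
  have htrans : ∀ i : ℕ, i ≤ 2 ^ n → ∀ v ∈ wtSp ρ A χ, ∀ a ∈ A,
      ρ a ((X ^ i) v) = χ ((σ ^ (2 ^ n - i)) a) • (X ^ i) v := by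
    intro i hi v hv a ha
    have h1 := hXpow i ((σ ^ (2 ^ n - i)) a)
    rw [hinv i hi a] at h1
    calc ρ a ((X ^ i) v) = (ρ a * X ^ i) v := rfl
      _ = (X ^ i * ρ ((σ ^ (2 ^ n - i)) a)) v := by rw [h1]
      _ = (X ^ i) (ρ ((σ ^ (2 ^ n - i)) a) v) := rfl
      _ = χ ((σ ^ (2 ^ n - i)) a) • (X ^ i) v := by rw [hv _ (hApow _ a ha), map_smul]
  have hWX : ∀ v ∈ wtSp ρ A χ, (X ^ (2 ^ e)) v ∈ wtSp ρ A χ := by
    intro v hv a ha
    rw [htrans _ hjle v hv a ha]
    congr 1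
    have h1 := hj.2 _ (hApow (2 ^ n - 2 ^ e) a ha)
    rw [hinv _ hjle a] at h1
    exact h1.symm
  have hσinv : (σ ^ (2 ^ e))⁻¹ = σ ^ (2 ^ n - 2 ^ e) := by
    rw [inv_eq_iff_mul_eq_one, ← pow_add, Nat.add_sub_cancel' hjle, hσ]
  let σ' : MulAut Γ := resAut (σ ^ (2 ^ e)) Γ (hΓpow _) (by rw [hσinv]; exact hΓpow _)
  let ρ' : Γ →* Module.End K (wtSp ρ A χ) :=
    { toFun := fun b => (ρ (b : H)).restrict (hWΓ b b.2)
      map_one' := by
        apply LinearMap.ext
        intro v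
        apply Subtype.ext
        simp
      map_mul' := by
        intro a b
        apply LinearMap.ext
        intro v
        apply Subtype.ext
        simp }
  let X' : Module.End K (wtSp ρ A χ) := (X ^ (2 ^ e)).restrict hWX
  have hσ'pow : ∀ (m : ℕ) (a : Γ), (((σ' ^ m) a : Γ) : H) = ((σ ^ (2 ^ e)) ^ m) (a : H) :=
    fun m a => resAut_pow_apply _ _ _ _ m a
  have hX'pow : ∀ (m : ℕ) (v : wtSp ρ A χ),
      (((X' ^ m) v : wtSp ρ A χ) : V) = (X ^ (2 ^ e * m)) (v : V) := by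
    intro m
    induction m with
    | zero => intro v; simp
    | succ m ih =>
      intro v
      rw [pow_succ, Module.End.mul_apply, ih, Nat.mul_succ, pow_add, Module.End.mul_apply]
      rfl
  refine ⟨2 ^ e, n - e, σ', ρ', X', hk0, hjk, hj.2, fun a => rfl, ?_, fun a v => rfl,
    fun v => rfl, ?_, ?_⟩
  · intro a
    rw [hσ'pow, ← pow_mul, hjk1]
  · intro v
    rw [hX'pow, hjk1]
  · refine ⟨?_, ?_, ?_, ?_⟩
    · apply MulEquiv.ext
      intro a
      apply Subtype.ext
      rw [hσ'pow, ← pow_mul, hjk, hσ]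
      rfl
    · apply LinearMap.ext
      intro v
      apply Subtype.ext
      rw [hX'pow, hjk, hX]
      rfl
    · intro b
      apply LinearMap.ext
      intro v
      apply Subtype.ext
      show (X ^ (2 ^ e)) (ρ (b : H) (v : V)) = ρ ((σ ^ (2 ^ e)) (b : H)) ((X ^ (2 ^ e)) (v : V))
      exact LinearMap.congr_fun (hXpow (2 ^ e) (b : H)) (v : V)
    · intro v hv
      have hXv : (X ^ (2 ^ e)) (v : V) = v := congrArg Subtype.val hv
      have hXu : X (∑ i ∈ Finset.range (2 ^ e), (X ^ i) (v : V)) =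
          ∑ i ∈ Finset.range (2 ^ e), (X ^ i) (v : V) := by
        rw [map_sum]
        have h1 : ∀ i : ℕ, X ((X ^ i) (v : V)) = (X ^ (i + 1)) (v : V) := fun i => by
          rw [pow_succ', Module.End.mul_apply]
        simp only [h1]
        have h2 := Finset.sum_range_succ' (fun i => (X ^ i) (v : V)) (2 ^ e)
        have h3 := Finset.sum_range_succ (fun i => (X ^ i) (v : V)) (2 ^ e)
        rw [h3] at h2
        simp only [pow_zero, Module.End.one_apply, hXv] at h2
        exact (add_right_cancel h2).symm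
      have hsum0 : ∑ i ∈ Finset.range (2 ^ e), (X ^ i) (v : V) = 0 := hfix _ hXu
      have hdist : ∀ i i' : ℕ, i < i' → i' < 2 ^ e →
          ∃ z ∈ A, χ ((σ ^ (2 ^ n - i)) z) ≠ χ ((σ ^ (2 ^ n - i')) z) := by
        intro i i' hii hi'
        by_contra hcon
        push Not at hcon
        have h5 : ∀ b ∈ A, χ ((σ ^ (i' - i)) b) = χ b := by
          intro b hb
          have h6 := hcon _ (hApow i' b hb)
          rw [← MulAut.mul_apply, ← MulAut.mul_apply, ← pow_add, ← pow_add] at h6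
          rw [show 2 ^ n - i + i' = (i' - i) + 2 ^ n by omega,
            show 2 ^ n - i' + i' = 2 ^ n by omega, pow_add, hσ, mul_one] at h6
          simpa using h6
        have h7 := hjmin (i' - i) (by omega) h5
        omega
      have h0 := wt_indep (fun z : H => ρ z) (A : Set H)
        (fun (i : ℕ) (a : H) => χ ((σ ^ (2 ^ n - i)) a)) (Finset.range (2 ^ e)) (by
          intro i hi i' hi' hne
          rcases lt_or_gt_of_ne hne with h | h
          · exact hdist i i' h (Finset.mem_range.1 hi')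
          · obtain ⟨z, hz, hzne⟩ := hdist i' i h (Finset.mem_range.1 hi)
            exact ⟨z, hz, hzne.symm⟩) (fun i => (X ^ i) (v : V)) (by
          intro i hi z hz
          exact htrans i (le_of_lt (lt_of_lt_of_le (Finset.mem_range.1 hi) hjle)) (v : V) v.2 z hz)
        hsum0 0 (Finset.mem_range.2 (by positivity))
      apply Subtype.ext
      simpa using h0

end Cfsg.Agent.H98.Gross
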