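import Mathlib
import Cfsg.Agent.H98.GuDefs
import Cfsg.Agent.H42.ElusSpA

/-!
# S5976 team project (helper98): basic facts on skew roots
-/

set_option autoImplicit false

namespace Cfsg.Agent.H98.Gu

open Matrix

universe u

section Basic

variable {F : Type u} [Field F]

theorem isSkewRoot_of_mat (d : ℕ) (δ : F) (M : Matrix (Fin d ⊕ Fin d) (Fin d ⊕ Fin d) F)
    (h1 : M * M = δ • (1 : Matrix (Fin d ⊕ Fin d) (Fin d ⊕ Fin d) F))
    (h2 : Mᵀ * Matrix.J (Fin d) F = -(Matrix.J (Fin d) F * M)) : IsSkewRoot d δ M := by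
  refine ⟨h1, fun u v => ?_⟩
  unfold Cfsg.sympForm
  have e : -(u ⬝ᵥ (Matrix.J (Fin d) F *ᵥ (M *ᵥ v))) = u ⬝ᵥ ((Mᵀ * Matrix.J (Fin d) F) *ᵥ v) := by
    rw [h2, Matrix.neg_mulVec, dotProduct_neg, Matrix.mulVec_mulVec]
  rw [e, ← Matrix.mulVec_mulVec, Matrix.dotProduct_mulVec u, Matrix.vecMul_transpose]

theorem isSkewRoot_J0 (n : ℕ) (δ : F) : IsSkewRoot n δ (J0 n δ) := by
  apply isSkewRoot_of_mat
  · rw [J0, Matrix.fromBlocks_multiply]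
    simp only [mul_zero, zero_mul, add_zero, zero_add, mul_one, one_mul]
    rw [← Matrix.fromBlocks_one, Matrix.fromBlocks_smul, smul_zero]
  · rw [J0, Matrix.J, Matrix.fromBlocks_transpose, Matrix.fromBlocks_multiply,
      Matrix.fromBlocks_multiply, Matrix.fromBlocks_neg]
    simp

/-- Conjugating a skew root by a symplectic matrix. -/
theorem isSkewRoot_conj (d : ℕ) (δ : F) (J : Matrix (Fin d ⊕ Fin d) (Fin d ⊕ Fin d) F)
    (hJ : IsSkewRoot d δ J) (g : Matrix.GeneralLinearGroup (Fin d ⊕ Fin d) F)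
    (hg : g ∈ Cfsg.spGL d F) :
    IsSkewRoot d δ ((g : Matrix (Fin d ⊕ Fin d) (Fin d ⊕ Fin d) F) * J *
      ((g⁻¹ : Matrix.GeneralLinearGroup (Fin d ⊕ Fin d) F) :
        Matrix (Fin d ⊕ Fin d) (Fin d ⊕ Fin d) F)) := by
  have h1 : ((g⁻¹ : Matrix.GeneralLinearGroup (Fin d ⊕ Fin d) F) :
      Matrix (Fin d ⊕ Fin d) (Fin d ⊕ Fin d) F) * (g : Matrix (Fin d ⊕ Fin d) (Fin d ⊕ Fin d) F)
      = 1 := by
    rw [← Units.val_mul, inv_mul_cancel, Units.val_one]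
  have h2 : (g : Matrix (Fin d ⊕ Fin d) (Fin d ⊕ Fin d) F) *
      ((g⁻¹ : Matrix.GeneralLinearGroup (Fin d ⊕ Fin d) F) :
        Matrix (Fin d ⊕ Fin d) (Fin d ⊕ Fin d) F) = 1 := by
    rw [← Units.val_mul, mul_inv_cancel, Units.val_one]
  have hgp := (Cfsg.Agent.H42.mem_spGL_iff' g).1 hg
  set gm := (g : Matrix (Fin d ⊕ Fin d) (Fin d ⊕ Fin d) F) with hgm
  set gi := ((g⁻¹ : Matrix.GeneralLinearGroup (Fin d ⊕ Fin d) F) :
    Matrix (Fin d ⊕ Fin d) (Fin d ⊕ Fin d) F) with hgi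
  refine ⟨?_, fun u v => ?_⟩
  · calc gm * J * gi * (gm * J * gi) = gm * J * (gi * gm) * J * gi := by simp only [mul_assoc]
      _ = gm * (J * J) * gi := by rw [h1, mul_one]; simp only [mul_assoc]
      _ = δ • (1 : Matrix (Fin d ⊕ Fin d) (Fin d ⊕ Fin d) F) := by
          rw [hJ.1, Matrix.mul_smul, Matrix.smul_mul, mul_one, h2]
  · have e1 : (gm * J * gi) *ᵥ u = gm *ᵥ (J *ᵥ (gi *ᵥ u)) := by
      rw [Matrix.mulVec_mulVec, Matrix.mulVec_mulVec, mul_assoc]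
    have e2 : (gm * J * gi) *ᵥ v = gm *ᵥ (J *ᵥ (gi *ᵥ v)) := by
      rw [Matrix.mulVec_mulVec, Matrix.mulVec_mulVec, mul_assoc]
    have e3 : v = gm *ᵥ (gi *ᵥ v) := by rw [Matrix.mulVec_mulVec, h2, Matrix.one_mulVec]
    have e4 : u = gm *ᵥ (gi *ᵥ u) := by rw [Matrix.mulVec_mulVec, h2, Matrix.one_mulVec]
    rw [e1, e2]
    nth_rewrite 1 [e3]
    nth_rewrite 2 [e4]
    rw [hgp, hgp, hJ.2]

end Basic

end Cfsg.Agent.H98.Gu
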