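import Cfsg.Agent.H98.GuDefs
import Cfsg.Agent.H45.IsoSp
import Cfsg.Agent.H45.SpInvol
import Cfsg.Agent.H42.ElusSpA

set_option autoImplicit false

/-!
Piece S5976-CONJ of the team project S5976 (helper98): the symplectic group is transitive on the
skew roots of a non-square `δ`.  For a skew root `J` the matrix `a • 1 + b • J` with
`a ^ 2 - δ * b ^ 2 = 1` is a semisimple symplectic matrix with characteristic polynomial
`(X ^ 2 - 2 a X + 1) ^ d`; semisimple symplectic matrices with the same characteristic polynomial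
are conjugate in the symplectic group.
-/

namespace Cfsg.Agent.H98.Gu

open Matrix Polynomial

universe u

section

variable {F : Type u} [Field F]

/-- If `M + N = t` and `M * N = 1`, then `χ_M χ_N = (X² - t X + 1)^n`. -/
theorem charpoly_mul_of_add_mul {ι : Type*} [Fintype ι] [DecidableEq ι] (M N : Matrix ι ι F)
    (t : F) (hadd : M + N = t • (1 : Matrix ι ι F)) (hmul : M * N = 1) :
    M.charpoly * N.charpoly = (X ^ 2 - C t * X + 1) ^ Fintype.card ι := by
  have hN : (C : F →+* F[X]).mapMatrix N =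
      (C t : F[X]) • (1 : Matrix ι ι F[X]) - (C : F →+* F[X]).mapMatrix M := by
    rw [eq_sub_iff_add_eq, add_comm, ← map_add, hadd]
    ext i j
    by_cases hij : i = j <;> simp [hij]
  have hMN : (C : F →+* F[X]).mapMatrix M * (C : F →+* F[X]).mapMatrix N = 1 := by
    rw [← map_mul, hmul, map_one]
  have h1 : M.charmatrix * N.charmatrix =
      (X ^ 2 - C t * X + 1 : F[X]) • (1 : Matrix ι ι F[X]) := by
    unfold Matrix.charmatrix
    rw [Matrix.scalar_apply, ← Matrix.smul_one_eq_diagonal]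
    have e1 : ((X : F[X]) • (1 : Matrix ι ι F[X]) - (C : F →+* F[X]).mapMatrix M) *
        ((X : F[X]) • (1 : Matrix ι ι F[X]) - (C : F →+* F[X]).mapMatrix N) =
        (X : F[X]) • ((X : F[X]) • (1 : Matrix ι ι F[X])) -
          (X : F[X]) • ((C : F →+* F[X]).mapMatrix M + (C : F →+* F[X]).mapMatrix N) +
          (C : F →+* F[X]).mapMatrix M * (C : F →+* F[X]).mapMatrix N := by
      simp only [Matrix.sub_mul, Matrix.mul_sub, Matrix.smul_mul, Matrix.mul_smul, Matrix.one_mul,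
        Matrix.mul_one]
      module
    rw [e1, hMN, hN]
    module
  rw [Matrix.charpoly, Matrix.charpoly, ← Matrix.det_mul, h1, Matrix.det_smul, Matrix.det_one,
    mul_one]

theorem quad_monic (t : F) : (X ^ 2 - C t * X + 1 : F[X]).Monic := by
  have h : (X ^ 2 - C t * X + 1 : F[X]) = X ^ 2 + (-(C t) * X + 1) := by ring
  rw [h]
  apply Polynomial.monic_X_pow_add
  have h1 : (-(C t) * X + 1 : F[X]) = C (-t) * X + C 1 := by
    rw [C_neg, C_1]
  rw [h1]
  exact lt_of_le_of_lt (Polynomial.degree_linear_le) (by norm_num)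

theorem quad_natDegree (t : F) : (X ^ 2 - C t * X + 1 : F[X]).natDegree = 2 := by
  have h : (X ^ 2 - C t * X + 1 : F[X]) = X ^ 2 + (-(C t) * X + 1) := by ring
  rw [h]
  have h1 : (-(C t) * X + 1 : F[X]) = C (-t) * X + C 1 := by
    rw [C_neg, C_1]
  rw [h1]
  rw [Polynomial.natDegree_add_eq_left_of_natDegree_lt, natDegree_X_pow]
  rw [natDegree_X_pow]
  exact lt_of_le_of_lt Polynomial.natDegree_linear_le (by norm_num)

theorem quad_irreducible (t : F) (h : ∀ y : F, y ^ 2 - t * y + 1 ≠ 0) :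
    Irreducible (X ^ 2 - C t * X + 1 : F[X]) := by
  apply Polynomial.irreducible_of_degree_le_three_of_not_isRoot
  · rw [quad_natDegree]
    simp
  · intro y hy
    apply h y
    have := hy
    rw [IsRoot, eval_add, eval_sub, eval_pow, eval_mul, eval_X, eval_C, eval_one] at this
    exact this

/-- The characteristic polynomial of a matrix killed by an irreducible quadratic. -/
theorem charpoly_of_quad (d : ℕ) (M N : Matrix (Fin d ⊕ Fin d) (Fin d ⊕ Fin d) F) (t : F)
    (hadd : M + N = t • (1 : Matrix (Fin d ⊕ Fin d) (Fin d ⊕ Fin d) F)) (hmul : M * N = 1)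
    (h : ∀ y : F, y ^ 2 - t * y + 1 ≠ 0) : M.charpoly = (X ^ 2 - C t * X + 1) ^ d := by
  have hprod := charpoly_mul_of_add_mul M N t hadd hmul
  have hirr := quad_irreducible t h
  have hdvd : M.charpoly ∣ (X ^ 2 - C t * X + 1) ^ Fintype.card (Fin d ⊕ Fin d) :=
    Dvd.intro _ hprod
  obtain ⟨i, -, hi⟩ := (dvd_prime_pow hirr.prime _).1 hdvd
  have heq : M.charpoly = (X ^ 2 - C t * X + 1) ^ i :=
    Polynomial.eq_of_monic_of_associated (Matrix.charpoly_monic M) ((quad_monic t).pow i) hi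
  have hdeg : M.charpoly.natDegree = 2 * d := by
    rw [Matrix.charpoly_natDegree_eq_dim, Fintype.card_sum, Fintype.card_fin, two_mul]
  rw [heq, (quad_monic t).natDegree_pow, quad_natDegree] at hdeg
  have hid : i = d := by omega
  rw [heq, hid]

/-- `Cfsg.Agent.H45.sp_good` with the semisimplicity as a hypothesis. -/
theorem sp_good_ss {n : ℕ}
    (A : Matrix (Fin n ⊕ Fin n) (Fin n ⊕ Fin n) F) (hA : A ∈ Matrix.symplecticGroup (Fin n) F)
    (hss : Module.End.IsSemisimple (Matrix.toLin' A)) :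
    Cfsg.Agent.H45.Good (RingHom.id F) (-1) (Matrix.toLinearMap₂' F (Matrix.J (Fin n) F))
      (Matrix.toLin' A) := by
  have hsym : ∀ x y : Fin n ⊕ Fin n → F,
      y ⬝ᵥ (Matrix.J (Fin n) F *ᵥ x) = -(x ⬝ᵥ (Matrix.J (Fin n) F *ᵥ y)) := by
    intro x y
    rw [Matrix.dotProduct_mulVec, ← Matrix.mulVec_transpose, Matrix.J_transpose, Matrix.neg_mulVec,
      neg_dotProduct, dotProduct_comm]
  refine ⟨?_, ?_, ?_, ?_, hss⟩
  · intro x y
    rw [Matrix.toLinearMap₂'_apply', Matrix.toLinearMap₂'_apply', RingHom.id_apply, hsym]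
    ring
  · intro x hx
    have h1 : ∀ z, x ⬝ᵥ z = 0 := by
      intro z
      have := hx (-(Matrix.J (Fin n) F *ᵥ z))
      rw [Matrix.toLinearMap₂'_apply', Matrix.mulVec_neg, Matrix.mulVec_mulVec, Matrix.J_squared,
        Matrix.neg_mulVec, neg_neg, Matrix.one_mulVec] at this
      exact this
    funext i
    have := h1 (Pi.single i 1)
    rw [dotProduct_single, mul_one] at this
    exact this
  · intro _ x
    rw [Matrix.toLinearMap₂'_apply']
    exact Cfsg.Agent.H45.J_form_alt n x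
  · intro x y
    rw [Matrix.toLinearMap₂'_apply', Matrix.toLinearMap₂'_apply', Matrix.toLin'_apply,
      Matrix.toLin'_apply, Cfsg.Agent.H45.form_mulVec, SymplecticGroup.mem_iff'.mp hA]

/-- Semisimple symplectic matrices with the same characteristic polynomial are conjugate by a
symplectic matrix (`Cfsg.Agent.H45.sp_conj` with the semisimplicity as a hypothesis). -/
theorem sp_conj_ss [Finite F] {n : ℕ}
    (A A' : Matrix (Fin n ⊕ Fin n) (Fin n ⊕ Fin n) F)
    (hA : A ∈ Matrix.symplecticGroup (Fin n) F) (hA' : A' ∈ Matrix.symplecticGroup (Fin n) F)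
    (hss : Module.End.IsSemisimple (Matrix.toLin' A))
    (hss' : Module.End.IsSemisimple (Matrix.toLin' A'))
    (hc : A.charpoly = A'.charpoly) :
    ∃ P ∈ Matrix.symplecticGroup (Fin n) F, P * A = A' * P := by
  classical
  obtain ⟨e, he, hiso⟩ := Cfsg.Agent.H45.isoConj_of_charpoly_eq (RingHom.id F) (fun a => rfl) (-1) _
    (Matrix.toLinearMap₂' F (Matrix.J (Fin n) F)) (Matrix.toLinearMap₂' F (Matrix.J (Fin n) F))
    (Matrix.toLin' A) (Matrix.toLin' A') rfl (sp_good_ss A hA hss)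
    (sp_good_ss A' hA' hss') (by rw [Matrix.charpoly_toLin', Matrix.charpoly_toLin', hc])
  have hcomm : (e : (Fin n ⊕ Fin n → F) →ₗ[F] (Fin n ⊕ Fin n → F)) ∘ₗ Matrix.toLin' A =
      Matrix.toLin' A' ∘ₗ (e : (Fin n ⊕ Fin n → F) →ₗ[F] (Fin n ⊕ Fin n → F)) :=
    LinearMap.ext (fun v => he v)
  have hPA : LinearMap.toMatrix' (e : (Fin n ⊕ Fin n → F) →ₗ[F] (Fin n ⊕ Fin n → F)) * A =
      A' * LinearMap.toMatrix' (e : (Fin n ⊕ Fin n → F) →ₗ[F] (Fin n ⊕ Fin n → F)) := by
    have := congrArg LinearMap.toMatrix' hcomm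
    rwa [LinearMap.toMatrix'_comp, LinearMap.toMatrix'_comp, LinearMap.toMatrix'_toLin',
      LinearMap.toMatrix'_toLin'] at this
  refine ⟨LinearMap.toMatrix' (e : (Fin n ⊕ Fin n → F) →ₗ[F] (Fin n ⊕ Fin n → F)), ?_, hPA⟩
  rw [SymplecticGroup.mem_iff']
  apply (Matrix.toLinearMap₂' F (S₁ := F) (S₂ := F) (N₂ := F) (n := Fin n ⊕ Fin n)
    (m := Fin n ⊕ Fin n)).injective
  apply LinearMap.ext
  intro x
  apply LinearMap.ext
  intro y
  have h1 := hiso x y
  rw [Matrix.toLinearMap₂'_apply', Matrix.toLinearMap₂'_apply'] at h1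
  have h2 : ∀ z, e z =
      LinearMap.toMatrix' (e : (Fin n ⊕ Fin n → F) →ₗ[F] (Fin n ⊕ Fin n → F)) *ᵥ z := by
    intro z
    rw [← Matrix.toLin'_apply, Matrix.toLin'_toMatrix']
    rfl
  rw [h2, h2] at h1
  rw [Matrix.toLinearMap₂'_apply', Matrix.toLinearMap₂'_apply', ← h1, Cfsg.Agent.H45.form_mulVec]

theorem skew_elt_mul (d : ℕ) (δ a b : F) (J : Matrix (Fin d ⊕ Fin d) (Fin d ⊕ Fin d) F)
    (hJJ : J * J = δ • (1 : Matrix (Fin d ⊕ Fin d) (Fin d ⊕ Fin d) F))
    (hab : a ^ 2 - δ * b ^ 2 = 1) :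
    (a • (1 : Matrix (Fin d ⊕ Fin d) (Fin d ⊕ Fin d) F) + b • J) *
      (a • (1 : Matrix (Fin d ⊕ Fin d) (Fin d ⊕ Fin d) F) - b • J) = 1 := by
  have e : (a • (1 : Matrix (Fin d ⊕ Fin d) (Fin d ⊕ Fin d) F) + b • J) *
      (a • (1 : Matrix (Fin d ⊕ Fin d) (Fin d ⊕ Fin d) F) - b • J) =
      (a * a) • (1 : Matrix (Fin d ⊕ Fin d) (Fin d ⊕ Fin d) F) - (b * b) • (J * J) := by
    simp only [add_mul, mul_sub, smul_mul_assoc, mul_smul_comm, one_mul, mul_one]
    module
  rw [e, hJJ, smul_smul, ← sub_smul]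
  have h1 : a * a - b * b * δ = 1 := by linear_combination hab
  rw [h1, one_smul]

theorem skew_elt_add (d : ℕ) (a b : F) (J : Matrix (Fin d ⊕ Fin d) (Fin d ⊕ Fin d) F) :
    (a • (1 : Matrix (Fin d ⊕ Fin d) (Fin d ⊕ Fin d) F) + b • J) +
      (a • (1 : Matrix (Fin d ⊕ Fin d) (Fin d ⊕ Fin d) F) - b • J) =
      (2 * a) • (1 : Matrix (Fin d ⊕ Fin d) (Fin d ⊕ Fin d) F) := by
  module

theorem skew_elt_mem (d : ℕ) (δ a b : F) (J : Matrix (Fin d ⊕ Fin d) (Fin d ⊕ Fin d) F)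
    (hJ : IsSkewRoot d δ J) (hab : a ^ 2 - δ * b ^ 2 = 1) :
    (a • (1 : Matrix (Fin d ⊕ Fin d) (Fin d ⊕ Fin d) F) + b • J) ∈
      Matrix.symplecticGroup (Fin d) F := by
  rw [Cfsg.Agent.H17.mem_symplecticGroup_iff_form]
  intro u v
  have hg : ∀ w : Fin d ⊕ Fin d → F,
      (a • (1 : Matrix (Fin d ⊕ Fin d) (Fin d ⊕ Fin d) F) + b • J) *ᵥ w =
        a • w + b • (J *ᵥ w) := by
    intro w
    rw [Matrix.add_mulVec, Matrix.smul_mulVec, Matrix.smul_mulVec, Matrix.one_mulVec]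
  rw [hg, hg]
  simp only [Cfsg.Agent.H17.sympForm_add_left, Cfsg.Agent.H17.sympForm_add_right,
    Cfsg.Agent.H17.sympForm_smul_left, Cfsg.Agent.H17.sympForm_smul_right]
  have h1 := hJ.2 u v
  have h2 := hJ.2 u (J *ᵥ v)
  have h3 : J *ᵥ (J *ᵥ v) = δ • v := by
    rw [Matrix.mulVec_mulVec, hJ.1, Matrix.smul_mulVec, Matrix.one_mulVec]
  rw [h3, Cfsg.Agent.H17.sympForm_smul_right] at h2
  rw [h1, h2]
  linear_combination (Cfsg.sympForm d F u v) * hab

theorem skew_elt_ss (d : ℕ) (M N : Matrix (Fin d ⊕ Fin d) (Fin d ⊕ Fin d) F) (t : F)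
    (hadd : M + N = t • (1 : Matrix (Fin d ⊕ Fin d) (Fin d ⊕ Fin d) F)) (hmul : M * N = 1)
    (h : ∀ y : F, y ^ 2 - t * y + 1 ≠ 0) : Module.End.IsSemisimple (Matrix.toLin' M) := by
  apply Module.End.isSemisimple_of_squarefree_aeval_eq_zero (quad_irreducible t h).squarefree
  have hM : M * M - t • M + 1 = 0 := by
    have hN : N = t • (1 : Matrix (Fin d ⊕ Fin d) (Fin d ⊕ Fin d) F) - M := by
      rw [eq_sub_iff_add_eq, add_comm, hadd]
    rw [hN, mul_sub, mul_smul_comm, mul_one] at hmul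
    rw [← hmul]
    abel
  have h1 : Matrix.toLin' M =
      (Matrix.toLinAlgEquiv' : Matrix (Fin d ⊕ Fin d) (Fin d ⊕ Fin d) F ≃ₐ[F] _) M := rfl
  have h2 : aeval M (X ^ 2 - C t * X + 1 : F[X]) = 0 := by
    rw [map_add, map_sub, map_pow, map_mul, aeval_X, aeval_C, map_one, sq,
      Algebra.algebraMap_eq_smul_one, smul_mul_assoc, one_mul]
    exact hM
  rw [h1, ← AlgEquiv.coe_algHom, Polynomial.aeval_algHom_apply, h2, map_zero]

end

theorem conj : StConj.{u} := by
  intro F _ _ d δ J J' hodd hδ hJ hJ'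
  classical
  have h2 : (2 : F) ≠ 0 := by
    obtain ⟨p, hchar⟩ := CharP.exists F
    haveI := hchar
    haveI : Fact p.Prime := ⟨CharP.char_is_prime F p⟩
    have hp2 : p ≠ 2 := by
      intro h
      subst h
      have h1 : ringChar F = 2 := ringChar.eq F 2
      have h2 := FiniteField.even_card_iff_char_two.mp h1
      rcases hodd with ⟨k, hk⟩
      omega
    intro h
    have h1 : ((2 : ℕ) : F) = 0 := by exact_mod_cast h
    exact hp2 ((Nat.prime_dvd_prime_iff_eq Fact.out Nat.prime_two).mp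
      ((CharP.cast_eq_zero_iff F p 2).mp h1))
  have hδ1 : (1 : F) - δ ≠ 0 := by
    intro h
    apply hδ
    have h1 : δ = 1 := by linear_combination -h
    rw [h1]
    exact ⟨1, (mul_one 1).symm⟩
  obtain ⟨a, b, hb0, hab⟩ : ∃ a b : F, b ≠ 0 ∧ a ^ 2 - δ * b ^ 2 = 1 := by
    refine ⟨(1 + δ) / (1 - δ), 2 / (1 - δ), div_ne_zero h2 hδ1, ?_⟩
    field_simp
    ring
  have hquad : ∀ y : F, y ^ 2 - (2 * a) * y + 1 ≠ 0 := by
    intro y hy
    apply hδ
    refine ⟨(y - a) / b, ?_⟩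
    field_simp
    linear_combination -hy - hab
  have hadd := skew_elt_add d a b J
  have hadd' := skew_elt_add d a b J'
  have hmul := skew_elt_mul d δ a b J hJ.1 hab
  have hmul' := skew_elt_mul d δ a b J' hJ'.1 hab
  have hc : (a • (1 : Matrix (Fin d ⊕ Fin d) (Fin d ⊕ Fin d) F) + b • J).charpoly =
      (a • (1 : Matrix (Fin d ⊕ Fin d) (Fin d ⊕ Fin d) F) + b • J').charpoly := by
    rw [charpoly_of_quad d _ _ (2 * a) hadd hmul hquad,
      charpoly_of_quad d _ _ (2 * a) hadd' hmul' hquad]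
  obtain ⟨P, hP, hPg⟩ := sp_conj_ss _ _ (skew_elt_mem d δ a b J hJ hab)
    (skew_elt_mem d δ a b J' hJ' hab) (skew_elt_ss d _ _ (2 * a) hadd hmul hquad)
    (skew_elt_ss d _ _ (2 * a) hadd' hmul' hquad) hc
  have hPJ : P * J = J' * P := by
    rw [mul_add, add_mul, mul_smul_comm, smul_mul_assoc, mul_one, one_mul, mul_smul_comm,
      smul_mul_assoc] at hPg
    exact smul_right_injective _ hb0 (add_left_cancel hPg)
  have hdet := SymplecticGroup.symplectic_det hP
  refine ⟨Matrix.nonsingInvUnit P hdet, ?_, hPJ⟩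
  rw [Cfsg.Agent.H42.mem_spGL_iff']
  exact (Cfsg.Agent.H17.mem_symplecticGroup_iff_form d P).1 hP

example : StConj.{u} := conj

end Cfsg.Agent.H98.Gu
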