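import Cfsg.Agent.H98.GuDefs
import Cfsg.Agent.H82.GuInvPos

set_option autoImplicit false

/-!
Piece S5976-INVNEG of the team project S5976 (helper98): a symplectic matrix of square `-1`
anticommutes with a skew root of `δ`.  The model is `Matrix.J` itself, which anticommutes with
`[[a, b], [b, -a]]` where `a ^ 2 + b ^ 2 = δ`.
-/

namespace Cfsg.Agent.H98.Gu

open Matrix Polynomial

universe u

section

variable {F : Type u} [Field F]

/-- The model skew root anticommuting with `Matrix.J`. -/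
def negModel (d : ℕ) (a b : F) : Matrix (Fin d ⊕ Fin d) (Fin d ⊕ Fin d) F :=
  Matrix.fromBlocks (a • (1 : Matrix (Fin d) (Fin d) F)) (b • (1 : Matrix (Fin d) (Fin d) F))
    (b • (1 : Matrix (Fin d) (Fin d) F)) (-(a • (1 : Matrix (Fin d) (Fin d) F)))

theorem negModel_mul_self (d : ℕ) (a b δ : F) (h : a ^ 2 + b ^ 2 = δ) :
    negModel d a b * negModel d a b = δ • (1 : Matrix (Fin d ⊕ Fin d) (Fin d ⊕ Fin d) F) := by
  unfold negModel
  rw [Matrix.fromBlocks_multiply, ← Matrix.fromBlocks_one, Matrix.fromBlocks_smul, ← h]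
  simp only [Matrix.smul_mul, Matrix.mul_smul, Matrix.one_mul, Matrix.mul_one, Matrix.mul_neg,
    Matrix.neg_mul, smul_smul, neg_neg, smul_zero, smul_neg]
  congr 1 <;> module

theorem negModel_anti (d : ℕ) (a b : F) :
    Matrix.J (Fin d) F * negModel d a b = -(negModel d a b * Matrix.J (Fin d) F) := by
  unfold negModel Matrix.J
  rw [Matrix.fromBlocks_multiply, Matrix.fromBlocks_multiply, Matrix.fromBlocks_neg]
  simp

theorem negModel_skew (d : ℕ) (a b : F) (u v : Fin d ⊕ Fin d → F) :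
    Cfsg.sympForm d F (negModel d a b *ᵥ u) v = - Cfsg.sympForm d F u (negModel d a b *ᵥ v) := by
  apply Cfsg.Agent.H82.Gu.skew_of_transpose
  unfold negModel Matrix.J
  rw [Matrix.fromBlocks_transpose, Matrix.fromBlocks_multiply, Matrix.fromBlocks_multiply,
    Matrix.fromBlocks_neg]
  simp

end

theorem invNeg : StInvNeg.{u} := by
  intro F _ _ d δ hodd hδ x hx hxx
  classical
  obtain ⟨p, hchar⟩ := CharP.exists F
  haveI := hchar
  haveI : Fact p.Prime := ⟨CharP.char_is_prime F p⟩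
  have hp2 : p ≠ 2 := by
    intro h
    subst h
    have h1 : ringChar F = 2 := ringChar.eq F 2
    have h2 := FiniteField.even_card_iff_char_two.mp h1
    rcases hodd with ⟨k, hk⟩
    omega
  have hp4 : ¬ p ∣ 4 := by
    intro h
    have h4 : (4 : ℕ) = 2 ^ 2 := by norm_num
    rw [h4] at h
    exact hp2 ((Nat.prime_dvd_prime_iff_eq Fact.out Nat.prime_two).mp
      ((Fact.out : p.Prime).dvd_of_dvd_pow h))
  have h2 : (2 : F) ≠ 0 := by
    intro h
    have h1 : ((2 : ℕ) : F) = 0 := by exact_mod_cast h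
    exact hp2 ((Nat.prime_dvd_prime_iff_eq Fact.out Nat.prime_two).mp
      ((CharP.cast_eq_zero_iff F p 2).mp h1))
  obtain ⟨a, b, hab⟩ : ∃ a b : F, a ^ 2 + b ^ 2 = δ := by
    have hcard : Fintype.card F % 2 = 1 := Nat.odd_iff.mp hodd
    obtain ⟨a, b, h⟩ := FiniteField.exists_root_sum_quadratic (R := F) (f := X ^ 2)
      (g := X ^ 2 - C δ) (degree_X_pow 2) (degree_X_pow_sub_C (by norm_num) δ) hcard
    refine ⟨a, b, ?_⟩
    simp only [eval_pow, eval_X, eval_sub, eval_C] at h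
    linear_combination h
  have hAs : (x : Matrix (Fin d ⊕ Fin d) (Fin d ⊕ Fin d) F) ∈ Matrix.symplecticGroup (Fin d) F :=
    (Cfsg.Agent.H17.mem_symplecticGroup_iff_form d _).2 ((Cfsg.Agent.H42.mem_spGL_iff' x).1 hx)
  generalize (x : Matrix (Fin d ⊕ Fin d) (Fin d ⊕ Fin d) F) = A at hxx hAs ⊢
  have hJJ : Matrix.J (Fin d) F * Matrix.J (Fin d) F = -1 := Matrix.J_squared (Fin d) F
  have hJm : Matrix.J (Fin d) F ∈ Matrix.symplecticGroup (Fin d) F := SymplecticGroup.J_mem (Fin d) F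
  have hc : A.charpoly = (Matrix.J (Fin d) F).charpoly := by
    rw [Cfsg.Agent.H45.sp_sq_neg_charpoly h2 d A hAs hxx,
      Cfsg.Agent.H45.sp_sq_neg_charpoly h2 d _ hJm hJJ]
  have hpow4 : ∀ M : Matrix (Fin d ⊕ Fin d) (Fin d ⊕ Fin d) F, M * M = -1 → M ^ 4 = 1 := by
    intro M hM
    have h4 : (4 : ℕ) = 2 + 2 := rfl
    rw [h4, pow_add, sq, hM]
    simp
  obtain ⟨P, hP, hPA⟩ := Cfsg.Agent.H45.sp_conj p A (Matrix.J (Fin d) F) hAs hJm 4 4 hp4
    (hpow4 A hxx) hp4 (hpow4 _ hJJ) hc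
  have hdet := SymplecticGroup.symplectic_det hP
  have hPQ : P * P⁻¹ = 1 := Matrix.mul_nonsing_inv P hdet
  have hQP : P⁻¹ * P = 1 := Matrix.nonsing_inv_mul P hdet
  have hPf := (Cfsg.Agent.H17.mem_symplecticGroup_iff_form d P).1 hP
  have hPJ : ∀ w : Fin d ⊕ Fin d → F,
      P *ᵥ ((P⁻¹ * negModel d a b * P) *ᵥ w) = negModel d a b *ᵥ (P *ᵥ w) := by
    intro w
    rw [Matrix.mulVec_mulVec, ← Matrix.mul_assoc, ← Matrix.mul_assoc, hPQ, Matrix.one_mul,
      ← Matrix.mulVec_mulVec]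
  refine ⟨P⁻¹ * negModel d a b * P, ⟨?_, ?_⟩, Or.inr ?_⟩
  · calc P⁻¹ * negModel d a b * P * (P⁻¹ * negModel d a b * P)
        = P⁻¹ * negModel d a b * (P * P⁻¹) * negModel d a b * P := by
          simp only [Matrix.mul_assoc]
      _ = P⁻¹ * (negModel d a b * negModel d a b) * P := by
          rw [hPQ, Matrix.mul_one, Matrix.mul_assoc P⁻¹]
      _ = δ • 1 := by
          rw [negModel_mul_self d a b δ hab, Matrix.mul_smul, Matrix.mul_one, Matrix.smul_mul, hQP]
  · intro u v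
    rw [← hPf ((P⁻¹ * negModel d a b * P) *ᵥ u) v, hPJ, negModel_skew, ← hPJ, hPf]
  · have hAQ : A * P⁻¹ = P⁻¹ * Matrix.J (Fin d) F := by
      calc A * P⁻¹ = P⁻¹ * (P * A) * P⁻¹ := by rw [← Matrix.mul_assoc, hQP, Matrix.one_mul]
        _ = P⁻¹ * (Matrix.J (Fin d) F * P) * P⁻¹ := by rw [hPA]
        _ = P⁻¹ * Matrix.J (Fin d) F := by
          rw [Matrix.mul_assoc, Matrix.mul_assoc, hPQ, Matrix.mul_one]
    calc A * (P⁻¹ * negModel d a b * P) = (A * P⁻¹) * negModel d a b * P := by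
          simp only [Matrix.mul_assoc]
      _ = P⁻¹ * (Matrix.J (Fin d) F * negModel d a b) * P := by
        rw [hAQ]
        simp only [Matrix.mul_assoc]
      _ = -(P⁻¹ * (negModel d a b * Matrix.J (Fin d) F) * P) := by
        rw [negModel_anti, Matrix.mul_neg, Matrix.neg_mul]
      _ = -(P⁻¹ * negModel d a b * (Matrix.J (Fin d) F * P)) := by
        simp only [Matrix.mul_assoc]
      _ = -(P⁻¹ * negModel d a b * P * A) := by
        rw [← hPA]
        simp only [Matrix.mul_assoc]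

example : StInvNeg.{u} := invNeg

end Cfsg.Agent.H98.Gu
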