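import Mathlib
import Cfsg.Agent.H98.GuDefs
import Cfsg.Agent.H98.GuBasic
import Cfsg.Agent.H42.SpdEx
import Cfsg.Agent.H42.SpdMain
import Cfsg.Agent.H42.ElusSpA
import Cfsg.Agent.H7.Unitary
import Cfsg.Agent.H50.SpCard
import Cfsg.Agent.H99.SympBasic
import Cfsg.Agent.H17.Symp

/-!
# S5976 team project (helper98): glue lemmas and the assembly
-/

set_option autoImplicit false

namespace Cfsg.Agent.H98.Gu

open Matrix

universe u



section Card

variable {F : Type u} [Field F] [Fintype F]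

/-- The order of the centraliser of the standard skew root. -/
theorem card (hQExt : StQExt.{u}) (hCardIso : StCardIso.{u}) (n : ℕ) (δ : F)
    (hodd : Odd (Fintype.card F)) (hδ : ¬ IsSquare δ) :
    Nat.card ↥(Cfsg.spGL n F ⊓ centJ (J0 n δ)) = guCard (Fintype.card F) n := by
  obtain ⟨L, iL, iL', φ, ω, hL, hω⟩ := hQExt F δ hδ
  rw [hCardIso F L φ ω n δ hodd hδ hL hω]
  unfold guCard
  exact Cfsg.Agent.H7.card_GU hL n

/-- The order of the centraliser of any skew root. -/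
theorem cardJ (hConj : StConj.{u}) (hQExt : StQExt.{u}) (hCardIso : StCardIso.{u}) (d : ℕ) (δ : F)
    (hodd : Odd (Fintype.card F)) (hδ : ¬ IsSquare δ)
    (J : Matrix (Fin d ⊕ Fin d) (Fin d ⊕ Fin d) F) (hJ : IsSkewRoot d δ J) :
    Nat.card ↥(Cfsg.spGL d F ⊓ centJ J) = guCard (Fintype.card F) d := by
  obtain ⟨P, hP, hPJ⟩ := hConj F d δ (J0 d δ) J hodd hδ (isSkewRoot_J0 d δ) hJ
  rw [← card hQExt hCardIso d δ hodd hδ]
  symm
  have h1 : ((P⁻¹ : Matrix.GeneralLinearGroup (Fin d ⊕ Fin d) F) :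
      Matrix (Fin d ⊕ Fin d) (Fin d ⊕ Fin d) F) * (P : Matrix (Fin d ⊕ Fin d) (Fin d ⊕ Fin d) F)
      = 1 := by
    rw [← Units.val_mul, inv_mul_cancel, Units.val_one]
  have h2 : (P : Matrix (Fin d ⊕ Fin d) (Fin d ⊕ Fin d) F) *
      ((P⁻¹ : Matrix.GeneralLinearGroup (Fin d ⊕ Fin d) F) :
        Matrix (Fin d ⊕ Fin d) (Fin d ⊕ Fin d) F) = 1 := by
    rw [← Units.val_mul, mul_inv_cancel, Units.val_one]
  apply Nat.card_congr
  refine Equiv.subtypeEquiv (MulAut.conj P).toEquiv ?_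
  intro g
  change g ∈ Cfsg.spGL d F ⊓ centJ (J0 d δ) ↔ P * g * P⁻¹ ∈ Cfsg.spGL d F ⊓ centJ J
  rw [Subgroup.mem_inf, Subgroup.mem_inf, mem_centJ, mem_centJ]
  have hsp : g ∈ Cfsg.spGL d F ↔ P * g * P⁻¹ ∈ Cfsg.spGL d F := by
    constructor
    · intro h
      exact mul_mem (mul_mem hP h) (inv_mem hP)
    · intro h
      have := mul_mem (mul_mem (inv_mem hP) h) hP
      have e : P⁻¹ * (P * g * P⁻¹) * P = g := by group
      rw [e] at this
      exact this
  rw [← hsp]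
  apply and_congr_right
  intro _
  rw [Units.val_mul, Units.val_mul]
  set Pm := (P : Matrix (Fin d ⊕ Fin d) (Fin d ⊕ Fin d) F) with hPm
  set Pi := ((P⁻¹ : Matrix.GeneralLinearGroup (Fin d ⊕ Fin d) F) :
    Matrix (Fin d ⊕ Fin d) (Fin d ⊕ Fin d) F) with hPi
  set gm := (g : Matrix (Fin d ⊕ Fin d) (Fin d ⊕ Fin d) F) with hgm
  have hJe : J = Pm * J0 d δ * Pi := by
    rw [hPJ, mul_assoc, h2, mul_one]
  constructor
  · intro h
    rw [hJe]
    calc Pm * gm * Pi * (Pm * J0 d δ * Pi) = Pm * gm * (Pi * Pm) * J0 d δ * Pi := by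
          simp only [mul_assoc]
      _ = Pm * (gm * J0 d δ) * Pi := by rw [h1, mul_one]; simp only [mul_assoc]
      _ = Pm * (J0 d δ * gm) * Pi := by rw [h]
      _ = Pm * J0 d δ * (Pi * Pm) * gm * Pi := by rw [h1, mul_one]; simp only [mul_assoc]
      _ = Pm * J0 d δ * Pi * (Pm * gm * Pi) := by simp only [mul_assoc]
  · intro h
    rw [hJe] at h
    have h3 : Pm * (gm * J0 d δ) * Pi = Pm * (J0 d δ * gm) * Pi := by
      calc Pm * (gm * J0 d δ) * Pi = Pm * gm * (Pi * Pm) * J0 d δ * Pi := by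
            rw [h1, mul_one]; simp only [mul_assoc]
        _ = Pm * gm * Pi * (Pm * J0 d δ * Pi) := by simp only [mul_assoc]
        _ = Pm * J0 d δ * Pi * (Pm * gm * Pi) := h
        _ = Pm * J0 d δ * (Pi * Pm) * gm * Pi := by simp only [mul_assoc]
        _ = Pm * (J0 d δ * gm) * Pi := by rw [h1, mul_one]; simp only [mul_assoc]
    have h4 : Pi * (Pm * (gm * J0 d δ) * Pi) * Pm = Pi * (Pm * (J0 d δ * gm) * Pi) * Pm := by
      rw [h3]
    calc gm * J0 d δ = (Pi * Pm) * (gm * J0 d δ) * (Pi * Pm) := by rw [h1, one_mul, mul_one]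
      _ = Pi * (Pm * (gm * J0 d δ) * Pi) * Pm := by simp only [mul_assoc]
      _ = Pi * (Pm * (J0 d δ * gm) * Pi) * Pm := h4
      _ = (Pi * Pm) * (J0 d δ * gm) * (Pi * Pm) := by simp only [mul_assoc]
      _ = J0 d δ * gm := by rw [h1, one_mul, mul_one]

end Card

section Main

variable {F : Type u} [Field F] [Fintype F]

omit [Fintype F] in
/-- Transfer of a commutation relation through a conjugation. -/
theorem conj_comm {ι : Type} [Fintype ι] [DecidableEq ι] (g x : Matrix.GeneralLinearGroup ι F)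
    (J : Matrix ι ι F)
    (h : ((g⁻¹ * x * g : Matrix.GeneralLinearGroup ι F) : Matrix ι ι F) * J =
      J * ((g⁻¹ * x * g : Matrix.GeneralLinearGroup ι F) : Matrix ι ι F)) :
    (x : Matrix ι ι F) * ((g : Matrix ι ι F) * J *
        ((g⁻¹ : Matrix.GeneralLinearGroup ι F) : Matrix ι ι F)) =
      ((g : Matrix ι ι F) * J * ((g⁻¹ : Matrix.GeneralLinearGroup ι F) : Matrix ι ι F)) *
        (x : Matrix ι ι F) := by
  have h1 : ((g⁻¹ : Matrix.GeneralLinearGroup ι F) : Matrix ι ι F) * (g : Matrix ι ι F) = 1 := by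
    rw [← Units.val_mul, inv_mul_cancel, Units.val_one]
  have h2 : (g : Matrix ι ι F) * ((g⁻¹ : Matrix.GeneralLinearGroup ι F) : Matrix ι ι F) = 1 := by
    rw [← Units.val_mul, mul_inv_cancel, Units.val_one]
  rw [Units.val_mul, Units.val_mul] at h
  set gm := (g : Matrix ι ι F) with hgm
  set gi := ((g⁻¹ : Matrix.GeneralLinearGroup ι F) : Matrix ι ι F) with hgi
  set xm := (x : Matrix ι ι F) with hxm
  calc xm * (gm * J * gi) = (gm * gi) * xm * gm * J * gi := by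
        rw [h2, one_mul]; simp only [mul_assoc]
    _ = gm * (gi * xm * gm * J) * gi := by simp only [mul_assoc]
    _ = gm * (J * (gi * xm * gm)) * gi := by rw [h]
    _ = gm * J * gi * xm * (gm * gi) := by simp only [mul_assoc]
    _ = gm * J * gi * xm := by rw [h2, mul_one]

set_option maxHeartbeats 1000000 in
/-- The assembly of S5976 from the pieces. -/
theorem main (hKstr : StKstr.{u}) (hNorm : StNorm.{u}) (hConj : StConj.{u})
    (hInvPos : StInvPos.{u}) (hInvNeg : StInvNeg.{u}) (hTv : StTv.{u})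
    (hRestrict : StRestrict.{u}) (hQExt : StQExt.{u}) (hCardIso : StCardIso.{u})
    (hA : StArithA) (hB : StArithB)
    {p : ℕ} [Fact p.Prime] [CharP F p] {q : ℕ} (hq : Fintype.card F = q)
    (hodd : Odd q) (d : ℕ) (hd : 2 ≤ d)
    (K : Subalgebra F (Matrix (Fin d ⊕ Fin d) (Fin d ⊕ Fin d) F))
    (hK : Cfsg.Geo.IsFieldSubalgebra 2 K)
    (hKf : Cfsg.Geo.IsAdjointClosedFor (Cfsg.sympForm d F) K)
    (hKns : ¬ Cfsg.Geo.IsSelfAdjointFor (Cfsg.sympForm d F) K)
    (r : ℕ) [Fact r.Prime]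
    (hΩ : r ∣ (Cfsg.Geo.subalgebraNormalizer K).relIndex (Cfsg.spGL d F)) :
    (∀ x ∈ Cfsg.spGL d F,
      (∃ z : F, ((x ^ r : Matrix.GeneralLinearGroup (Fin d ⊕ Fin d) F) :
        Matrix (Fin d ⊕ Fin d) (Fin d ⊕ Fin d) F) =
          z • (1 : Matrix (Fin d ⊕ Fin d) (Fin d ⊕ Fin d) F)) →
      (∀ z : F, (x : Matrix (Fin d ⊕ Fin d) (Fin d ⊕ Fin d) F) ≠
        z • (1 : Matrix (Fin d ⊕ Fin d) (Fin d ⊕ Fin d) F)) →
      ∃ g ∈ Cfsg.spGL d F, g⁻¹ * x * g ∈ Cfsg.Geo.subalgebraNormalizer K) ↔ r = 2 := by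
  classical
  subst hq
  have hp : p.Prime := Fact.out
  have hr : r.Prime := Fact.out
  have h2F : (2 : F) ≠ 0 := Cfsg.Agent.H99.two_ne_zero_of_odd_card hodd
  have hp2 : p ≠ 2 := by
    rintro rfl
    exact h2F (by exact_mod_cast CharP.cast_eq_zero F 2)
  have hd1 : 1 ≤ d := by omega
  obtain ⟨J₁, δ, hJK, hδ, hJ₁, hgen⟩ := hKstr F d K hodd hK hKf hKns
  obtain ⟨hN1, hN2⟩ := hNorm F d K J₁ δ h2F hδ hJK hgen hJ₁.1
  have hkey : r ≠ 2 → ∀ x g : Matrix.GeneralLinearGroup (Fin d ⊕ Fin d) F, g ∈ Cfsg.spGL d F →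
      x ^ r = 1 → g⁻¹ * x * g ∈ Cfsg.Geo.subalgebraNormalizer K →
      IsSkewRoot d δ ((g : Matrix (Fin d ⊕ Fin d) (Fin d ⊕ Fin d) F) * J₁ *
        ((g⁻¹ : Matrix.GeneralLinearGroup (Fin d ⊕ Fin d) F) :
          Matrix (Fin d ⊕ Fin d) (Fin d ⊕ Fin d) F)) ∧
      (x : Matrix (Fin d ⊕ Fin d) (Fin d ⊕ Fin d) F) *
          ((g : Matrix (Fin d ⊕ Fin d) (Fin d ⊕ Fin d) F) * J₁ *
            ((g⁻¹ : Matrix.GeneralLinearGroup (Fin d ⊕ Fin d) F) :
              Matrix (Fin d ⊕ Fin d) (Fin d ⊕ Fin d) F)) =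
        ((g : Matrix (Fin d ⊕ Fin d) (Fin d ⊕ Fin d) F) * J₁ *
            ((g⁻¹ : Matrix.GeneralLinearGroup (Fin d ⊕ Fin d) F) :
              Matrix (Fin d ⊕ Fin d) (Fin d ⊕ Fin d) F)) *
          (x : Matrix (Fin d ⊕ Fin d) (Fin d ⊕ Fin d) F) := by
    intro hr2 x g hg hxr hgN
    have hy := hN2 (g⁻¹ * x * g) hgN r 1 (hr.odd_of_ne_two hr2) (by
      have h3 : (g⁻¹ * x * g) ^ r = 1 := by
        have h4 : g⁻¹ * x * g = g⁻¹ * x * (g⁻¹)⁻¹ := by rw [inv_inv]
        rw [h4, conj_pow, hxr, mul_one, mul_inv_cancel]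
      rw [h3, Units.val_one, one_smul])
    exact ⟨isSkewRoot_conj d δ J₁ hJ₁ g hg, conj_comm g x J₁ hy⟩
  constructor
  · intro H
    by_contra hr2
    by_cases hrp : r = p
    · obtain ⟨x, hx, hxp, hxns, hxJ⟩ := hTv F p d hd1
      have hxr : x ^ r = 1 := by rw [hrp]; exact hxp
      obtain ⟨g, hg, hgN⟩ := H x hx ⟨1, by rw [hxr, Units.val_one, one_smul]⟩ hxns
      obtain ⟨hJ', hcomm⟩ := hkey hr2 x g hg hxr hgN
      exact hxJ δ _ hδ hJ'.1 hcomm
    · obtain ⟨k, -, hk⟩ := FiniteField.card F p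
      have hrq : ¬ r ∣ Fintype.card F := by
        rw [hk]
        intro h
        exact hrp ((Nat.prime_dvd_prime_iff_eq hr hp).mp (hr.dvd_of_dvd_pow h))
      have hq2 : 2 ≤ Fintype.card F := Fintype.one_lt_card
      have hcardSp : Nat.card ↥(Cfsg.spGL d F) = Fintype.card F ^ (d ^ 2) *
          ∏ i ∈ Finset.range d, (Fintype.card F ^ (2 * (i + 1)) - 1) := by
        rw [Nat.card_congr Cfsg.Agent.H42.spGLEquiv]
        exact Cfsg.Agent.H50.SpCard.card_sp rfl d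
      have hCN : Cfsg.spGL d F ⊓ centJ J₁ ≤
          Cfsg.Geo.subalgebraNormalizer K ⊓ Cfsg.spGL d F := by
        intro g hg
        exact ⟨hN1 g (Or.inl ((mem_centJ J₁ g).1 hg.2)), hg.1⟩
      have hcardC := cardJ hConj hQExt hCardIso d δ hodd hδ J₁ hJ₁
      have hidx : (Cfsg.Geo.subalgebraNormalizer K).relIndex (Cfsg.spGL d F) *
          ((Cfsg.spGL d F ⊓ centJ J₁).relIndex
            (Cfsg.Geo.subalgebraNormalizer K ⊓ Cfsg.spGL d F)) *
          guCard (Fintype.card F) d = Nat.card ↥(Cfsg.spGL d F) := by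
        have h1 := Subgroup.relIndex_mul_relIndex (Cfsg.spGL d F ⊓ centJ J₁)
          (Cfsg.Geo.subalgebraNormalizer K ⊓ Cfsg.spGL d F) (Cfsg.spGL d F) hCN inf_le_right
        have h2 := Subgroup.relIndex_mul_relIndex ⊥ (Cfsg.spGL d F ⊓ centJ J₁) (Cfsg.spGL d F)
          bot_le inf_le_left
        rw [Subgroup.relIndex_bot_left, Subgroup.relIndex_bot_left] at h2
        rw [Subgroup.inf_relIndex_right] at h1
        rw [← h2, ← h1, hcardC]
        ring
      have hAr := hA (Fintype.card F) r d _ _ hr hr2 hrq hq2 hΩ (by rw [hidx, hcardSp])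
      set e := orderOf ((Fintype.card F : ℕ) : ZMod r) with he
      have he0 : 0 < e := by
        rw [he, orderOf_pos_iff]
        have hne : ((Fintype.card F : ℕ) : ZMod r) ≠ 0 := by
          rw [Ne, ZMod.natCast_eq_zero_iff]
          exact hrq
        exact isOfFinOrder_iff_pow_eq_one.mpr
          ⟨r - 1, Nat.sub_pos_of_lt hr.one_lt, ZMod.pow_card_sub_one_eq_one hne⟩
      have hcc : Cfsg.Agent.H42.Spd.cc F r = if Even e then e else 2 * e := rfl
      obtain ⟨n, hn0, hncc, hnd, hnB⟩ : ∃ n, 0 < n ∧ Cfsg.Agent.H42.Spd.cc F r = 2 * n ∧ n ≤ d ∧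
          ((Odd e ∧ n = e) ∨ (4 ∣ e ∧ 2 * n = e)) := by
        rcases hAr with ⟨ho, hle⟩ | ⟨h4, hle⟩
        · refine ⟨e, he0, ?_, hle, Or.inl ⟨ho, rfl⟩⟩
          rw [hcc, if_neg (Nat.not_even_iff_odd.mpr ho)]
        · obtain ⟨k, hk⟩ := h4
          refine ⟨2 * k, by omega, ?_, by omega, Or.inr ⟨⟨k, hk⟩, by omega⟩⟩
          rw [hcc, if_pos ⟨2 * k, by omega⟩]
          omega
      obtain ⟨x₀, hx₀r, hx₀k⟩ := Cfsg.Agent.H42.Spd.ex F p r hr hr2 hrp d 1
        (by rw [mul_one, hncc]; omega)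
      rw [mul_one, hncc] at hx₀k
      let xs : ↥(Cfsg.spGL d F) := Cfsg.Agent.H42.spGLEquiv.symm x₀
      let x : Matrix.GeneralLinearGroup (Fin d ⊕ Fin d) F := xs
      have hxmem : x ∈ Cfsg.spGL d F := xs.2
      have hxcoe : (x : Matrix (Fin d ⊕ Fin d) (Fin d ⊕ Fin d) F) =
          (x₀ : Matrix (Fin d ⊕ Fin d) (Fin d ⊕ Fin d) F) := rfl
      have hxr : x ^ r = 1 := by
        apply Units.ext
        rw [Units.val_pow_eq_pow_val, hxcoe, Units.val_one]
        have h := congrArg (fun s : ↥(Matrix.symplecticGroup (Fin d) F) =>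
          (s : Matrix (Fin d ⊕ Fin d) (Fin d ⊕ Fin d) F)) hx₀r
        simpa using h
      have hxns : ∀ z : F, (x : Matrix (Fin d ⊕ Fin d) (Fin d ⊕ Fin d) F) ≠
          z • (1 : Matrix (Fin d ⊕ Fin d) (Fin d ⊕ Fin d) F) := by
        intro z hz
        have hzz : z * z = 1 := by
          have h := (Cfsg.Agent.H42.mem_spGL_iff' x).1 hxmem (Pi.single (Sum.inr ⟨0, hd1⟩) 1)
            (Pi.single (Sum.inl ⟨0, hd1⟩) 1)
          rw [hz, Matrix.smul_mulVec, Matrix.one_mulVec, Matrix.smul_mulVec, Matrix.one_mulVec,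
            Cfsg.Agent.H17.sympForm_smul_left, Cfsg.Agent.H17.sympForm_smul_right,
            Cfsg.Agent.H42.symp_e0_f0 hd1] at h
          linear_combination h
        have hzr : z ^ r = 1 := by
          have h := congrArg (fun M : Matrix (Fin d ⊕ Fin d) (Fin d ⊕ Fin d) F =>
            M (Sum.inl ⟨0, hd1⟩) (Sum.inl ⟨0, hd1⟩)) (congrArg Units.val hxr)
          simp only [Units.val_pow_eq_pow_val, hz, Units.val_one] at h
          rw [smul_pow, one_pow] at h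
          simpa using h
        have hz1 : z = 1 := by
          obtain ⟨k, hk⟩ := hr.odd_of_ne_two hr2
          have h3 : z ^ r = z := by
            rw [hk, pow_succ, pow_mul, sq, hzz, one_pow, one_mul]
          rw [← h3, hzr]
        rw [hxcoe] at hz
        have h4 : Matrix.toLin' (x₀ : Matrix (Fin d ⊕ Fin d) (Fin d ⊕ Fin d) F) - 1 = 0 := by
          rw [hz, hz1, one_smul, Matrix.toLin'_one]
          exact sub_self _
        rw [h4, LinearMap.ker_zero, finrank_top, Module.finrank_fintype_fun_eq_card,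
          Fintype.card_sum, Fintype.card_fin] at hx₀k
        omega
      obtain ⟨g, hg, hgN⟩ := H x hxmem ⟨1, by rw [hxr, Units.val_one, one_smul]⟩ hxns
      obtain ⟨hJ', hcomm⟩ := hkey hr2 x g hg hxr hgN
      have hker : Module.finrank F ↥(LinearMap.ker
          (Matrix.toLin' (x : Matrix (Fin d ⊕ Fin d) (Fin d ⊕ Fin d) F) - 1)) + 2 * n = 2 * d :=
        hx₀k
      obtain ⟨y, hySp, hyC, hyr, hy1⟩ := hRestrict F p d δ _ x r n hp2 hδ hJ' hxmem hcomm hr hrp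
        hxr hker hn0
      have hord : orderOf (⟨y, ⟨hySp, hyC⟩⟩ : ↥(Cfsg.spGL n F ⊓ centJ (J0 n δ))) = r :=
        orderOf_eq_prime (Subtype.ext hyr) (fun h => hy1 (congrArg Subtype.val h))
      have hdvd : r ∣ Nat.card ↥(Cfsg.spGL n F ⊓ centJ (J0 n δ)) := by
        rw [← hord]
        exact orderOf_dvd_natCard _
      rw [card hQExt hCardIso n δ hodd hδ] at hdvd
      exact hB (Fintype.card F) r n hr hr2 hrq hq2 hnB hdvd
  · intro hr2 x hx hz hns
    obtain ⟨z, hz⟩ := hz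
    rw [hr2] at hz
    have hxx : (x : Matrix (Fin d ⊕ Fin d) (Fin d ⊕ Fin d) F) * x =
        z • (1 : Matrix (Fin d ⊕ Fin d) (Fin d ⊕ Fin d) F) := by
      rw [← hz, sq, Units.val_mul]
    have hxp := (Cfsg.Agent.H42.mem_spGL_iff' x).1 hx
    have hzz : z * z = 1 := by
      have h := hxp ((x : Matrix (Fin d ⊕ Fin d) (Fin d ⊕ Fin d) F) *ᵥ
          Pi.single (Sum.inr ⟨0, hd1⟩) 1)
        ((x : Matrix (Fin d ⊕ Fin d) (Fin d ⊕ Fin d) F) *ᵥ Pi.single (Sum.inl ⟨0, hd1⟩) 1)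
      have h' := hxp (Pi.single (Sum.inr ⟨0, hd1⟩) 1) (Pi.single (Sum.inl ⟨0, hd1⟩) 1)
      rw [h', Matrix.mulVec_mulVec, Matrix.mulVec_mulVec, hxx, Matrix.smul_mulVec,
        Matrix.one_mulVec, Matrix.smul_mulVec, Matrix.one_mulVec,
        Cfsg.Agent.H17.sympForm_smul_left, Cfsg.Agent.H17.sympForm_smul_right,
        Cfsg.Agent.H42.symp_e0_f0 hd1] at h
      linear_combination h
    obtain ⟨J', hJ', hcomm⟩ : ∃ J' : Matrix (Fin d ⊕ Fin d) (Fin d ⊕ Fin d) F,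
        IsSkewRoot d δ J' ∧
        ((x : Matrix (Fin d ⊕ Fin d) (Fin d ⊕ Fin d) F) * J' = J' * x ∨
          (x : Matrix (Fin d ⊕ Fin d) (Fin d ⊕ Fin d) F) * J' = -(J' * x)) := by
      rcases mul_self_eq_one_iff.mp hzz with h1 | h1
      · obtain ⟨J', h3, h4⟩ := hInvPos F d δ hodd hδ x hx (by rw [hxx, h1, one_smul])
        exact ⟨J', h3, Or.inl h4⟩
      · exact hInvNeg F d δ hodd hδ x hx (by rw [hxx, h1, neg_smul, one_smul])
    obtain ⟨P, hP, hPJ⟩ := hConj F d δ J₁ J' hodd hδ hJ₁ hJ'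
    refine ⟨P, hP, hN1 _ ?_⟩
    have h1 : ((P⁻¹ : Matrix.GeneralLinearGroup (Fin d ⊕ Fin d) F) :
        Matrix (Fin d ⊕ Fin d) (Fin d ⊕ Fin d) F) *
        (P : Matrix (Fin d ⊕ Fin d) (Fin d ⊕ Fin d) F) = 1 := by
      rw [← Units.val_mul, inv_mul_cancel, Units.val_one]
    have h2 : (P : Matrix (Fin d ⊕ Fin d) (Fin d ⊕ Fin d) F) *
        ((P⁻¹ : Matrix.GeneralLinearGroup (Fin d ⊕ Fin d) F) :
          Matrix (Fin d ⊕ Fin d) (Fin d ⊕ Fin d) F) = 1 := by
      rw [← Units.val_mul, mul_inv_cancel, Units.val_one]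
    rw [Units.val_mul, Units.val_mul]
    set Pm := (P : Matrix (Fin d ⊕ Fin d) (Fin d ⊕ Fin d) F) with hPm
    set Pi := ((P⁻¹ : Matrix.GeneralLinearGroup (Fin d ⊕ Fin d) F) :
      Matrix (Fin d ⊕ Fin d) (Fin d ⊕ Fin d) F) with hPi
    set xm := (x : Matrix (Fin d ⊕ Fin d) (Fin d ⊕ Fin d) F) with hxm
    have hiJ : Pi * J' = J₁ * Pi := by
      calc Pi * J' = Pi * J' * (Pm * Pi) := by rw [h2, mul_one]
        _ = Pi * (J' * Pm) * Pi := by simp only [mul_assoc]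
        _ = Pi * (Pm * J₁) * Pi := by rw [hPJ]
        _ = (Pi * Pm) * J₁ * Pi := by simp only [mul_assoc]
        _ = J₁ * Pi := by rw [h1, one_mul]
    rcases hcomm with hc | hc
    · left
      calc Pi * xm * Pm * J₁ = Pi * xm * (Pm * J₁) := by simp only [mul_assoc]
        _ = Pi * xm * (J' * Pm) := by rw [hPJ]
        _ = Pi * (xm * J') * Pm := by simp only [mul_assoc]
        _ = Pi * (J' * xm) * Pm := by rw [hc]
        _ = (Pi * J') * xm * Pm := by simp only [mul_assoc]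
        _ = J₁ * Pi * xm * Pm := by rw [hiJ]
        _ = J₁ * (Pi * xm * Pm) := by simp only [mul_assoc]
    · right
      calc Pi * xm * Pm * J₁ = Pi * xm * (Pm * J₁) := by simp only [mul_assoc]
        _ = Pi * xm * (J' * Pm) := by rw [hPJ]
        _ = Pi * (xm * J') * Pm := by simp only [mul_assoc]
        _ = Pi * (-(J' * xm)) * Pm := by rw [hc]
        _ = -((Pi * J') * xm * Pm) := by
            rw [mul_neg, neg_mul]; simp only [mul_assoc]
        _ = -(J₁ * Pi * xm * Pm) := by rw [hiJ]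
        _ = -(J₁ * (Pi * xm * Pm)) := by simp only [mul_assoc]

end Main

end Cfsg.Agent.H98.Gu
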