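import Cfsg.Agent.H59.JzKillDefs
import Cfsg.Agent.H52.SrDefs
import Cfsg.Agent.H32.SrVNG
import Cfsg.Agent.H59.SpLE
import Cfsg.Agent.Helper55.UqBase
import Cfsg.Agent.H58.Q46.Final
import Cfsg.Agent.S2950

/-!
# K-CENT (helper59's JZ-KILL sub-project for S2951 / S2952)

In the residual situation `RCtx S M K L T' K' L'`, with `V = Ω₁Z(O₂(L))`: every element of `V`
is `L`-conjugate into `C_V(J(S))` (`conjCJ`), hence `C_G(u) ≤ L` for `1 ≠ u ∈ V` (`cent_le`),
which gives K-CENT (`kCent`).  Inputs: helper52's `S₃^r` picture `StStruct` and JZ-Z2.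
-/

set_option autoImplicit false
open Cfsg

namespace Cfsg.Agent.H98.JzK

open Cfsg.Agent.H64.Jz Cfsg.Agent.H59.JzK

universe u

/-- Elements of the join of two elementwise commuting subgroups are products. -/
theorem mem_sup_comm {G : Type u} [Group G] (H N : Subgroup G)
    (hc : ∀ h ∈ H, ∀ n ∈ N, h * n = n * h) {x : G} (hx : x ∈ H ⊔ N) :
    ∃ h ∈ H, ∃ n ∈ N, x = h * n := by
  let P : Subgroup G :=
    { carrier := {x | ∃ h ∈ H, ∃ n ∈ N, x = h * n}
      one_mem' := ⟨1, H.one_mem, 1, N.one_mem, by simp⟩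
      mul_mem' := by
        rintro _ _ ⟨h, hh, n, hn, rfl⟩ ⟨h', hh', n', hn', rfl⟩
        refine ⟨h * h', H.mul_mem hh hh', n * n', N.mul_mem hn hn', ?_⟩
        have := hc h' hh' n hn
        calc h * n * (h' * n') = h * (n * h') * n' := by group
          _ = h * (h' * n) * n' := by rw [this]
          _ = h * h' * (n * n') := by group
      inv_mem' := by
        rintro _ ⟨h, hh, n, hn, rfl⟩
        refine ⟨h⁻¹, H.inv_mem hh, n⁻¹, N.inv_mem hn, ?_⟩
        have := hc h⁻¹ (H.inv_mem hh) n⁻¹ (N.inv_mem hn)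
        rw [mul_inv_rev, this] }
  have hle : H ⊔ N ≤ P := by
    refine sup_le ?_ ?_
    · intro h hh; exact ⟨h, hh, 1, N.one_mem, by simp⟩
    · intro n hn; exact ⟨1, H.one_mem, n, hn, by simp⟩
  exact hle hx

/-- A subgroup normalizing a four-group `W` without nontrivial fixed points on it is transitive
on `W ∖ 1`. -/
theorem four_trans {G : Type u} [Group G] [Finite G] (W K : Subgroup G)
    (h4 : Nat.card ↥W = 4)
    (hexp : ∀ w ∈ W, w * w = 1) (hnorm : ∀ k ∈ K, ∀ w ∈ W, k * w * k⁻¹ ∈ W)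
    (hfix : W ⊓ Subgroup.centralizer (K : Set G) = ⊥) {w w0 : G} (hw : w ∈ W) (hw0 : w0 ∈ W)
    (hw1 : w ≠ 1) (hw01 : w0 ≠ 1) : ∃ k ∈ K, k * w * k⁻¹ = w0 := by
  classical
  by_contra hcon
  push Not at hcon
  have hne : w ≠ w0 := by
    intro h
    exact hcon 1 K.one_mem (by simpa using h)
  set w3 := w * w0 with hw3
  have hw3W : w3 ∈ W := W.mul_mem hw hw0
  have hww : w * w = 1 := hexp w hw
  have hw3_1 : w3 ≠ 1 := by
    intro h
    apply hne
    have h1 : w * w0 = w * w := by rw [← hw3, h, hww]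
    exact (mul_left_cancel h1).symm
  have hw3_w : w3 ≠ w := by
    intro h
    apply hw01
    have h1 : w * w0 = w * 1 := by rw [← hw3, h, mul_one]
    exact mul_left_cancel h1
  have hw3_w0 : w3 ≠ w0 := by
    intro h
    apply hw1
    have h1 : w * w0 = 1 * w0 := by rw [← hw3, h, one_mul]
    exact mul_right_cancel h1
  have hall : ∀ x ∈ W, x = 1 ∨ x = w ∨ x = w0 ∨ x = w3 := by
    intro x hx
    by_contra hx'
    push Not at hx'
    have hsub : (({1, w, w0, w3, x} : Finset G) : Set G) ⊆ (W : Set G) := by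
      intro y hy
      simp only [Finset.coe_insert, Finset.coe_singleton, Set.mem_insert_iff,
        Set.mem_singleton_iff] at hy
      rcases hy with rfl | rfl | rfl | rfl | rfl
      exacts [W.one_mem, hw, hw0, hw3W, hx]
    have hcard : ({1, w, w0, w3, x} : Finset G).card = 5 := by
      rw [Finset.card_insert_of_notMem, Finset.card_insert_of_notMem,
        Finset.card_insert_of_notMem, Finset.card_insert_of_notMem, Finset.card_singleton]
      · simp only [Finset.mem_singleton]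
        exact fun h => hx'.2.2.2 h.symm
      · simp only [Finset.mem_insert, Finset.mem_singleton, not_or]
        exact ⟨fun h => hw3_w0 h.symm, fun h => hx'.2.2.1 h.symm⟩
      · simp only [Finset.mem_insert, Finset.mem_singleton, not_or]
        exact ⟨hne, fun h => hw3_w h.symm, fun h => hx'.2.1 h.symm⟩
      · simp only [Finset.mem_insert, Finset.mem_singleton, not_or]
        exact ⟨fun h => hw1 h.symm, fun h => hw01 h.symm, fun h => hw3_1 h.symm,
          fun h => hx'.1 h.symm⟩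
    have h5 := Set.ncard_le_ncard hsub (Set.toFinite _)
    rw [Set.ncard_coe_finset, hcard] at h5
    have h6 : (W : Set G).ncard = Nat.card ↥W := (Nat.card_coe_set_eq (W : Set G)).symm
    omega
  have hk : ∀ k ∈ K, k * w * k⁻¹ = w ∨ k * w * k⁻¹ = w3 := by
    intro k hk
    rcases hall _ (hnorm k hk w hw) with h | h | h | h
    · exfalso
      apply hw1
      have e : w = k⁻¹ * (k * w * k⁻¹) * k := by group
      rw [e, h]
      group
    · exact Or.inl h
    · exact absurd h (hcon k hk)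
    · exact Or.inr h
  have hex : ∃ k1 ∈ K, k1 * w * k1⁻¹ = w3 := by
    by_contra hno
    push Not at hno
    have hwc : w ∈ W ⊓ Subgroup.centralizer (K : Set G) := by
      refine Subgroup.mem_inf.mpr ⟨hw, ?_⟩
      rw [Subgroup.mem_centralizer_iff]
      intro k hk'
      rcases hk k hk' with h | h
      · calc k * w = (k * w * k⁻¹) * k := by group
          _ = w * k := by rw [h]
      · exact absurd h (hno k hk')
    rw [hfix, Subgroup.mem_bot] at hwc
    exact hw1 hwc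
  obtain ⟨k1, hk1, hk1w⟩ := hex
  have hk3 : ∀ k ∈ K, k * w3 * k⁻¹ = w ∨ k * w3 * k⁻¹ = w3 := by
    intro k hk'
    have := hk (k * k1) (K.mul_mem hk' hk1)
    have e : k * k1 * w * (k * k1)⁻¹ = k * (k1 * w * k1⁻¹) * k⁻¹ := by group
    rw [e, hk1w] at this
    exact this
  have hw0eq : w0 = w * w3 := by
    rw [hw3, ← mul_assoc, hww, one_mul]
  have hcomm : w3 * w = w * w3 := by
    have h1 := hexp (w * w3) (W.mul_mem hw hw3W)
    have h3 := hexp w3 hw3W
    have ha : w⁻¹ = w := inv_eq_of_mul_eq_one_left hww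
    have hb : w3⁻¹ = w3 := inv_eq_of_mul_eq_one_left h3
    have hab : (w * w3)⁻¹ = w * w3 := inv_eq_of_mul_eq_one_left h1
    rw [mul_inv_rev, ha, hb] at hab
    exact hab
  have hw0c : w0 ∈ W ⊓ Subgroup.centralizer (K : Set G) := by
    refine Subgroup.mem_inf.mpr ⟨hw0, ?_⟩
    rw [Subgroup.mem_centralizer_iff]
    intro k hk'
    have hconj : k * w0 * k⁻¹ = w0 := by
      have e : k * w0 * k⁻¹ = (k * w * k⁻¹) * (k * w3 * k⁻¹) := by
        rw [hw0eq]; group
      rw [e]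
      rcases hk k hk' with h | h <;> rcases hk3 k hk' with h' | h'
      · exfalso
        apply hw3_w
        have h9 : k * w3 * k⁻¹ = k * w * k⁻¹ := h'.trans h.symm
        exact mul_left_cancel (mul_right_cancel h9)
      · rw [h, h']
        exact hw0eq.symm
      · rw [h, h', hcomm]
        exact hw0eq.symm
      · exfalso
        apply hw3_w
        have h9 : k * w3 * k⁻¹ = k * w * k⁻¹ := h'.trans h.symm
        exact mul_left_cancel (mul_right_cancel h9)
    calc k * w0 = (k * w0 * k⁻¹) * k := by group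
      _ = w0 * k := by rw [hconj]
  rw [hfix, Subgroup.mem_bot] at hw0c
  exact hw01 hw0c

/-- Simultaneous conjugation along a family of pairwise centralizing blocks. -/
theorem conj_family {G : Type u} [Group G] {ι : Type u} (K W Z : ι → Subgroup G)
    (hWc : ∀ i j, ∀ x ∈ W i, ∀ y ∈ W j, x * y = y * x)
    (hZW : ∀ i, Z i ≤ W i)
    (h5 : ∀ i j, i ≠ j → W i ≤ Subgroup.centralizer (K j : Set G))
    (htr : ∀ i, ∀ w ∈ W i, ∃ k ∈ K i, k * w * k⁻¹ ∈ Z i) (s : Finset ι) :
    ∀ u ∈ ⨆ i ∈ s, W i, ∃ k ∈ ⨆ i ∈ s, K i, k * u * k⁻¹ ∈ ⨆ i ∈ s, Z i := by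
  classical
  induction s using Finset.induction_on with
  | empty =>
    intro u hu
    simp at hu
    subst hu
    exact ⟨1, one_mem _, by simp⟩
  | insert a s ha ih =>
    intro u hu
    rw [Finset.iSup_insert] at hu
    have hcomm : ∀ h ∈ W a, ∀ n ∈ ⨆ i ∈ s, W i, h * n = n * h := by
      intro h hh n hn
      have hle : (⨆ i ∈ s, W i) ≤ Subgroup.centralizer ({h} : Set G) := by
        refine iSup₂_le ?_
        intro i _ y hy
        rw [Subgroup.mem_centralizer_iff]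
        intro z hz
        rw [Set.mem_singleton_iff] at hz
        subst hz
        exact hWc a i z hh y hy
      have := hle hn
      rw [Subgroup.mem_centralizer_iff] at this
      exact this h rfl
    obtain ⟨w, hw, u', hu', rfl⟩ := mem_sup_comm (W a) (⨆ i ∈ s, W i) hcomm hu
    obtain ⟨k', hk', hk'u⟩ := ih u' hu'
    obtain ⟨k0, hk0, hk0w⟩ := htr a w hw
    have h1 : (⨆ i ∈ s, K i) ≤ Subgroup.centralizer (W a : Set G) := by
      refine iSup₂_le ?_
      intro i hi
      have hia : a ≠ i := by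
        rintro rfl
        exact ha hi
      exact Subgroup.le_centralizer_iff.mp (h5 a i hia)
    have hk'w : k' * w = w * k' := by
      have := h1 hk'
      rw [Subgroup.mem_centralizer_iff] at this
      exact (this w hw).symm
    have h2 : (⨆ i ∈ s, Z i) ≤ Subgroup.centralizer (K a : Set G) := by
      refine iSup₂_le ?_
      intro i hi
      have hia : i ≠ a := by
        rintro rfl
        exact ha hi
      exact (hZW i).trans (h5 i a hia)
    have hk0u : k0 * (k' * u' * k'⁻¹) = (k' * u' * k'⁻¹) * k0 := by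
      have := h2 hk'u
      rw [Subgroup.mem_centralizer_iff] at this
      exact this k0 hk0
    refine ⟨k0 * k', ?_, ?_⟩
    · rw [Finset.iSup_insert]
      exact Subgroup.mul_mem_sup hk0 hk'
    · rw [Finset.iSup_insert]
      have e : k0 * k' * (w * u') * (k0 * k')⁻¹ = (k0 * w * k0⁻¹) * (k' * u' * k'⁻¹) := by
        have e2 : (k' * u' * k'⁻¹) * k0⁻¹ = k0⁻¹ * (k' * u' * k'⁻¹) := by
          calc (k' * u' * k'⁻¹) * k0⁻¹ = k0⁻¹ * (k0 * (k' * u' * k'⁻¹)) * k0⁻¹ := by group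
            _ = k0⁻¹ * ((k' * u' * k'⁻¹) * k0) * k0⁻¹ := by rw [hk0u]
            _ = k0⁻¹ * (k' * u' * k'⁻¹) := by group
        calc k0 * k' * (w * u') * (k0 * k')⁻¹
            = k0 * ((k' * w) * (u' * k'⁻¹)) * k0⁻¹ := by group
          _ = k0 * ((w * k') * (u' * k'⁻¹)) * k0⁻¹ := by rw [hk'w]
          _ = k0 * w * ((k' * u' * k'⁻¹) * k0⁻¹) := by group
          _ = k0 * w * (k0⁻¹ * (k' * u' * k'⁻¹)) := by rw [e2]
          _ = (k0 * w * k0⁻¹) * (k' * u' * k'⁻¹) := by group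
      rw [e]
      exact Subgroup.mul_mem_sup hk0w hk'u

/-- An element commuting with `u` normalizes `⟨u⟩`. -/
theorem comm_mem_normalizer_zpowers {G : Type u} [Group G] (x u : G) (h : x * u = u * x) :
    x ∈ Subgroup.normalizer (Subgroup.zpowers u : Set G) := by
  have hc : Commute x u := h
  rw [Subgroup.mem_normalizer_iff]
  intro y
  constructor
  · intro hy
    obtain ⟨n, rfl⟩ := Subgroup.mem_zpowers_iff.mp hy
    have e : x * u ^ n * x⁻¹ = u ^ n := by
      have := (hc.zpow_right n).eq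
      rw [this]
      group
    rw [e]
    exact Subgroup.zpow_mem_zpowers u n
  · intro hy
    obtain ⟨n, hn⟩ := Subgroup.mem_zpowers_iff.mp hy
    have e : y = u ^ n := by
      have e1 : y = x⁻¹ * (x * y * x⁻¹) * x := by group
      rw [e1, ← hn]
      have := (hc.zpow_right n).eq
      calc x⁻¹ * u ^ n * x = x⁻¹ * (u ^ n * x) := by group
        _ = x⁻¹ * (x * u ^ n) := by rw [this]
        _ = u ^ n := by group
    rw [e]
    exact Subgroup.zpow_mem_zpowers u n

/-- In (R): every element of `V` is `L`-conjugate into `C_G(J(S))`. -/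
theorem conjCJ (hSR : Cfsg.Agent.H52.Sr.StStruct.{u}) (hZ2 : StZ2.{u})
    {G : Type u} [Group G] [Finite G] (S : Sylow 2 G) (M K L T' K' L' : Subgroup G)
    (hR : RCtx S M K L T' K' L') :
    ∀ u ∈ Vof L, ∃ k ∈ L, k * u * k⁻¹ ∈
      Subgroup.centralizer (thompsonSubgroupOf 2 (S : Subgroup G) : Set G) := by
  classical
  obtain ⟨hB, hX, hB', hne⟩ := hR
  have hZcard : Nat.card ↥(omegaCenterOf (S : Subgroup G)) = 2 := hZ2 S L T' K' L' hB' hne
  obtain ⟨⟨hL, hN, hZ⟩, hO, hM, hMJ, hT, hTS, hK, hLmax, hKL⟩ := hB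
  have hS2 : IsPGroup 2 ↥(S : Subgroup G) := hT.1.1
  have hS1 : (S : Subgroup G) ≠ ⊥ := hT.1.2.1
  obtain ⟨Lu, hLu, hKLu, huniq, hsub, hsyl⟩ :=
    Cfsg.Agent.S2950.result hL hN hZ hO S M hM hMJ _ hT K hK
  have e1 : L = Lu := huniq L hLmax hKL
  obtain ⟨L0, hL0max, hXL0, -, hov0, -⟩ :=
    Cfsg.Agent.Helper55.Uq.exists_max hL hN hZ S M hMJ _ hT K hK
  have e2 : L0 = Lu :=
    huniq L0 hL0max ((sup_le_sup_left (Cfsg.Agent.Helper55.ThJ.J_le _) K).trans hXL0)
  have e3 : L0 = L := e2.trans e1.symm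
  have hov : L ∈ jOvergroups (S : Subgroup G) := by rw [← e3]; exact hov0
  have hKL' : K ≤ L := le_sup_left.trans hKL
  have hKJ : IsJComponent (S : Subgroup G) K := hK.1.1
  have hKM : ¬ K ≤ M := hK.2.1
  -- `hfix`
  have hfix : ∀ v ∈ omegaCenterOf (pCoreOf 2 L),
      v ∈ Subgroup.centralizer ((S : Subgroup G) : Set G) →
      v ∈ Subgroup.centralizer (K : Set G) → v = 1 := by
    intro v hv hvS hvK
    by_contra hv1
    obtain ⟨hvQ, -, hv2⟩ := Cfsg.Agent.H63.Sn.mem_omegaCenterOf _ hv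
    have hQS : pCoreOf 2 L ≤ (S : Subgroup G) :=
      Cfsg.Agent.Helper55.J48.pCoreOf_le_of_sylowIn hov.1
    have hvZ : v ∈ omegaCenterOf (S : Subgroup G) :=
      Cfsg.Agent.H63.Sn.omegaCenterOf_mem _ (hQS hvQ) hvS hv2
    have horder : orderOf v = 2 := orderOf_eq_prime hv2 hv1
    have hzp : Subgroup.zpowers v = omegaCenterOf (S : Subgroup G) := by
      refine Subgroup.eq_of_le_of_card_ge ?_ ?_
      · rw [Subgroup.zpowers_le]; exact hvZ
      · rw [Nat.card_zpowers, horder, hZcard]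
    have hKZ : K ≤ Subgroup.centralizer (omegaCenterOf (S : Subgroup G) : Set G) := by
      intro k hk
      rw [Subgroup.mem_centralizer_iff]
      intro x hx
      rw [← hzp] at hx
      obtain ⟨n, rfl⟩ := Subgroup.mem_zpowers_iff.mp hx
      have hc : Commute v k := ((Subgroup.mem_centralizer_iff.mp hvK) k hk).symm
      exact (hc.zpow_left n).eq
    exact hKM ((hKZ.trans (hZ S)).trans
      ((Cfsg.Agent.Helper55.ThJ.normalizer_le _).trans hMJ))
  obtain ⟨h1, -, h3, -, h5, h6⟩ :=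
    hSR hL hN hZ (S : Subgroup G) hS2 hS1 L hov K hKJ hKL' hfix
  set Z0 := omegaCenterOf (thompsonSubgroupOf 2 (S : Subgroup G)) with hZ0
  -- transitivity
  have htr : ∀ i : Cfsg.Agent.H52.Sr.Orb (S : Subgroup G) K, ∀ w ∈ wOf i.1,
      ∃ k ∈ i.1, k * w * k⁻¹ ∈ Z0 ⊓ wOf i.1 := by
    intro i w hw
    obtain ⟨hJi, hiL, hc4⟩ := h3 i
    have hc2 := (Cfsg.Agent.H58.Q46.s2946 hL hN hZ (S : Subgroup G) hS2 hS1 i.1 hJi Z0 hZ0).1
    have hnb : Z0 ⊓ wOf i.1 ≠ ⊥ := by
      intro hb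
      rw [hb] at hc2
      simp at hc2
    obtain ⟨w0, hw0, hw01⟩ : ∃ w0 ∈ Z0 ⊓ wOf i.1, w0 ≠ 1 := by
      by_contra hcon
      push Not at hcon
      exact hnb ((Subgroup.eq_bot_iff_forall _).mpr hcon)
    by_cases hw1 : w = 1
    · subst hw1
      exact ⟨1, one_mem _, by simp⟩
    · have hnorm : ∀ k ∈ i.1, ∀ w ∈ wOf i.1, k * w * k⁻¹ ∈ wOf i.1 := by
        intro k hk w hw
        have hkN : k ∈ Subgroup.normalizer (wOf i.1 : Set G) :=
          Cfsg.Agent.H59.Sp.le i.1 (Subgroup.le_normalizer hk)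
        exact (Subgroup.mem_normalizer_iff.mp hkN w).mp hw
      obtain ⟨k, hk, hkw⟩ := four_trans (wOf i.1) i.1 hc4 hJi.2.2.2.2.2 hnorm (h6 i) hw hw0.2
        hw1 hw01
      exact ⟨k, hk, by rw [hkw]; exact hw0⟩
  -- commutativity of the blocks
  have hWV : ∀ i : Cfsg.Agent.H52.Sr.Orb (S : Subgroup G) K,
      wOf i.1 ≤ omegaCenterOf (pCoreOf 2 L) := by
    intro i
    rw [← h1]
    exact le_iSup (fun i : Cfsg.Agent.H52.Sr.Orb (S : Subgroup G) K => wOf i.1) i
  have hWc : ∀ i j : Cfsg.Agent.H52.Sr.Orb (S : Subgroup G) K,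
      ∀ x ∈ wOf i.1, ∀ y ∈ wOf j.1, x * y = y * x := by
    intro i j x hx y hy
    obtain ⟨hxQ, -, -⟩ := Cfsg.Agent.H63.Sn.mem_omegaCenterOf _ (hWV i hx)
    obtain ⟨-, hyC, -⟩ := Cfsg.Agent.H63.Sn.mem_omegaCenterOf _ (hWV j hy)
    exact (Subgroup.mem_centralizer_iff.mp hyC) x hxQ
  haveI : Fintype (Cfsg.Agent.H52.Sr.Orb (S : Subgroup G) K) := Fintype.ofFinite _
  have hfam := conj_family (fun i : Cfsg.Agent.H52.Sr.Orb (S : Subgroup G) K => i.1)
    (fun i => wOf i.1) (fun i => Z0 ⊓ wOf i.1) hWc (fun i => inf_le_right) h5 htr Finset.univ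
  intro u hu
  have hu' : u ∈ ⨆ i ∈ (Finset.univ : Finset (Cfsg.Agent.H52.Sr.Orb (S : Subgroup G) K)),
      wOf i.1 := by
    have e : (⨆ i ∈ (Finset.univ : Finset (Cfsg.Agent.H52.Sr.Orb (S : Subgroup G) K)),
        wOf i.1) = ⨆ i : Cfsg.Agent.H52.Sr.Orb (S : Subgroup G) K, wOf i.1 := by simp
    rw [e, h1]
    exact hu
  obtain ⟨k, hk, hku⟩ := hfam u hu'
  refine ⟨k, ?_, ?_⟩
  · have hle : (⨆ i ∈ (Finset.univ : Finset (Cfsg.Agent.H52.Sr.Orb (S : Subgroup G) K)),
        (i.1 : Subgroup G)) ≤ L := by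
      refine iSup₂_le ?_
      intro i _
      exact (h3 i).2.1
    exact hle hk
  · have hle : (⨆ i ∈ (Finset.univ : Finset (Cfsg.Agent.H52.Sr.Orb (S : Subgroup G) K)),
        Z0 ⊓ wOf i.1) ≤
        Subgroup.centralizer (thompsonSubgroupOf 2 (S : Subgroup G) : Set G) := by
      refine iSup₂_le ?_
      intro i _ x hx
      exact (Cfsg.Agent.H63.Sn.mem_omegaCenterOf _ hx.1).2.1
    exact hle hku

/-- In (R): `C_G(u) ≤ L` for `1 ≠ u ∈ V`. -/
theorem cent_le (hSR : Cfsg.Agent.H52.Sr.StStruct.{u}) (hZ2 : StZ2.{u})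
    {G : Type u} [Group G] [Finite G] (S : Sylow 2 G) (M K L T' K' L' : Subgroup G)
    (hR : RCtx S M K L T' K' L') :
    ∀ u ∈ Vof L, u ≠ 1 → Subgroup.centralizer ({u} : Set G) ≤ L := by
  intro u hu hu1
  obtain ⟨k, hkL, hkC⟩ := conjCJ hSR hZ2 S M K L T' K' L' hR u hu
  have hu2 : u ^ 2 = 1 := (Cfsg.Agent.H63.Sn.mem_omegaCenterOf _ hu).2.2
  have hu'1 : k * u * k⁻¹ ≠ 1 := by
    intro h
    apply hu1
    have e : u = k⁻¹ * (k * u * k⁻¹) * k := by group
    rw [e, h]
    group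
  have hu'2 : (k * u * k⁻¹) ^ 2 = 1 := by
    rw [conj_pow, hu2, mul_one, mul_inv_cancel]
  have horder : orderOf (k * u * k⁻¹) = 2 := orderOf_eq_prime hu'2 hu'1
  have hP : IsPGroup 2 ↥(Subgroup.zpowers (k * u * k⁻¹)) := by
    refine IsPGroup.of_card (n := 1) ?_
    rw [Nat.card_zpowers, horder, pow_one]
  have hnb : Subgroup.zpowers (k * u * k⁻¹) ≠ ⊥ := by
    rw [Ne, Subgroup.zpowers_eq_bot]
    exact hu'1
  have hloc : IsTwoLocal (Subgroup.normalizer (Subgroup.zpowers (k * u * k⁻¹) : Set G)) :=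
    ⟨_, hP, hnb, rfl⟩
  have hJN : thompsonSubgroupOf 2 (S : Subgroup G) ≤
      Subgroup.normalizer (Subgroup.zpowers (k * u * k⁻¹) : Set G) := by
    intro j hj
    exact comm_mem_normalizer_zpowers j _ ((Subgroup.mem_centralizer_iff.mp hkC) j hj)
  have hNL := hR.2.1 _ hloc hJN
  intro c hc
  have hcu : u * c = c * u := (Subgroup.mem_centralizer_iff.mp hc) u rfl
  have h1 : k * c * k⁻¹ ∈ Subgroup.normalizer (Subgroup.zpowers (k * u * k⁻¹) : Set G) := by
    apply comm_mem_normalizer_zpowers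
    calc k * c * k⁻¹ * (k * u * k⁻¹) = k * (c * u) * k⁻¹ := by group
      _ = k * (u * c) * k⁻¹ := by rw [hcu]
      _ = k * u * k⁻¹ * (k * c * k⁻¹) := by group
  have h2 := hNL h1
  have e : c = k⁻¹ * (k * c * k⁻¹) * k := by group
  rw [e]
  exact L.mul_mem (L.mul_mem (L.inv_mem hkL) h2) hkL

/-- K-CENT (with SR's structure statement and JZ-Z2 as inputs). -/
theorem kCent (hSR : Cfsg.Agent.H52.Sr.StStruct.{u}) (hZ2 : StZ2.{u}) : StKCent.{u} := by
  intro G _ _ S M K L T' K' L' hR _ u hu hu1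
  exact (cent_le hSR hZ2 S M K L T' K' L' hR u hu hu1).trans (Cfsg.Agent.H32.Sr.vng L).1

example (hSR : Cfsg.Agent.H52.Sr.StStruct.{u}) (hZ2 : Cfsg.Agent.H64.Jz.StZ2.{u}) :
    Cfsg.Agent.H59.JzK.StKCent.{u} := kCent hSR hZ2

end Cfsg.Agent.H98.JzK

#print axioms Cfsg.Agent.H98.JzK.kCent
#print axioms Cfsg.Agent.H98.JzK.conjCJ
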