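import Cfsg.Agent.H94.JxPFacts

/-!
# S2953 (kill sub-project JX): the two G-level facts `hidx`, `hker` for the conjugate core

From `Base S M T K L`, with `P = K ⊔ T`, `D = O₂(P)` (helper94's `pfacts`):
`hidx`: two commuting involutions of `P` outside `D` have their product in `D`;
`hker`: for `V` with `N_G(V) ≤ M`, every `v ∈ P ∖ D` fails to normalize some `P`-conjugate of `V`.
-/

set_option autoImplicit false
open Cfsg

universe u

namespace Cfsg.Agent.H98.Jx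

open Cfsg.Agent.H64.Jz

theorem mem_map_conj {G : Type u} [Group G] (V : Subgroup G) (y x : G) :
    x ∈ V.map (MulAut.conj y).toMonoidHom ↔ y⁻¹ * x * y ∈ V := by
  constructor
  · rintro ⟨w, hw, rfl⟩
    show y⁻¹ * (y * w * y⁻¹) * y ∈ V
    have e : y⁻¹ * (y * w * y⁻¹) * y = w := by group
    rw [e]; exact hw
  · intro hx
    refine ⟨y⁻¹ * x * y, hx, ?_⟩
    show y * (y⁻¹ * x * y) * y⁻¹ = x
    group

theorem zpowers_two {G : Type u} [Group G] (a : G) (ha2 : a * a = 1) :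
    IsPGroup 2 ↥(Subgroup.zpowers a) := by
  rintro ⟨x, hx⟩
  refine ⟨1, ?_⟩
  obtain ⟨n, rfl⟩ := Subgroup.mem_zpowers_iff.mp hx
  apply Subtype.ext
  have h : (a ^ n) ^ (2 : ℕ) = 1 := by
    rw [← zpow_natCast, ← zpow_mul, mul_comm, zpow_mul, zpow_natCast, pow_two, ha2, one_zpow]
  simpa using h

/-- Abstract form: `D` a normal 2-subgroup of index 6 of `P`. -/
theorem hidx_abs {G : Type u} [Group G] [Finite G] (P Q : Subgroup G) (hQP : Q ≤ P)
    (hPQ : P ≤ Subgroup.normalizer (Q : Set G)) (hQ2 : IsPGroup 2 ↥Q) (h6 : Q.relIndex P = 6)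
    (a : G) (ha : a ∈ P) (b : G) (hb : b ∈ P) (haQ : a ∉ Q) (hbQ : b ∉ Q) (ha2 : a * a = 1)
    (hb2 : b * b = 1) (hab : a * b = b * a) : a * b ∈ Q := by
  have : Fact (Nat.Prime 2) := ⟨Nat.prime_two⟩
  have hA := zpowers_two a ha2
  have hB := zpowers_two b hb2
  have haN : Subgroup.zpowers a ≤
      Subgroup.normalizer ((Subgroup.zpowers b : Subgroup G) : Set G) := by
    rw [Subgroup.zpowers_le]
    apply Subgroup.centralizer_le_normalizer
    rw [Subgroup.mem_centralizer_iff]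
    intro h hh
    obtain ⟨n, rfl⟩ := Subgroup.mem_zpowers_iff.mp hh
    exact ((Commute.zpow_right (show Commute a b from hab) n).eq).symm
  have hY : IsPGroup 2 ↥(Subgroup.zpowers a ⊔ Subgroup.zpowers b) :=
    hA.to_sup_of_normal_right' hB haN
  have hYP : Subgroup.zpowers a ⊔ Subgroup.zpowers b ≤ P :=
    sup_le (Subgroup.zpowers_le.mpr ha) (Subgroup.zpowers_le.mpr hb)
  have hX : IsPGroup 2 ↥((Subgroup.zpowers a ⊔ Subgroup.zpowers b) ⊔ Q) :=
    hY.to_sup_of_normal_right' hQ2 (hYP.trans hPQ)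
  set X : Subgroup G := (Subgroup.zpowers a ⊔ Subgroup.zpowers b) ⊔ Q with hXdef
  have hQX : Q ≤ X := le_sup_right
  have hXP : X ≤ P := sup_le hYP hQP
  have haX : a ∈ X := le_sup_left (a := Subgroup.zpowers a ⊔ Subgroup.zpowers b)
    (le_sup_left (a := Subgroup.zpowers a) (Subgroup.mem_zpowers a))
  have hbX : b ∈ X := le_sup_left (a := Subgroup.zpowers a ⊔ Subgroup.zpowers b)
    (le_sup_right (a := Subgroup.zpowers a) (Subgroup.mem_zpowers b))
  have h := Subgroup.relIndex_mul_relIndex Q X P hQX hXP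
  rw [h6] at h
  obtain ⟨n, hn⟩ := hX.index (Q.subgroupOf X)
  have hn' : Q.relIndex X = 2 ^ n := hn
  rw [hn'] at h
  rcases n with _ | _ | n
  · have h1 : Q.relIndex X = 1 := by rw [hn']; rfl
    exact absurd (Subgroup.relIndex_eq_one.mp h1 haX) haQ
  · have h2 : (Q.subgroupOf X).index = 2 := by rw [hn]; rfl
    have h3 := Subgroup.mul_mem_iff_of_index_two h2 (a := (⟨a, haX⟩ : ↥X)) (b := ⟨b, hbX⟩)
    have h4 : (⟨a, haX⟩ : ↥X) * ⟨b, hbX⟩ ∈ Q.subgroupOf X := by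
      rw [h3]
      constructor
      · intro h5; exact absurd (Subgroup.mem_subgroupOf.mp h5) haQ
      · intro h5; exact absurd (Subgroup.mem_subgroupOf.mp h5) hbQ
    exact Subgroup.mem_subgroupOf.mp h4
  · exfalso
    have h5 : 4 * (2 ^ n * X.relIndex P) = 6 := by rw [← h]; ring
    omega

/-- **hidx**: two commuting involutions of `P = K ⊔ T` outside `O₂(P)` have product in `O₂(P)`. -/
theorem hidx {G : Type u} [Group G] [Finite G] (S : Sylow 2 G) (M T K L : Subgroup G)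
    (hB : Base S M T K L) :
    ∀ a ∈ K ⊔ T, ∀ b ∈ K ⊔ T, a ∉ pCoreOf 2 (K ⊔ T) → b ∉ pCoreOf 2 (K ⊔ T) →
      a * a = 1 → b * b = 1 → a * b = b * a → a * b ∈ pCoreOf 2 (K ⊔ T) := by
  obtain ⟨hQT, -, hPQ, h3, h2, -, -⟩ := Cfsg.Agent.H94.Jx.pfacts S M T K L hB
  have hT2 : IsPGroup 2 ↥T := hB.2.2.2.2.1.1.1
  have hTP : T ≤ K ⊔ T := le_sup_right
  have h6 : (pCoreOf 2 (K ⊔ T)).relIndex (K ⊔ T) = 6 := by
    have h := Subgroup.relIndex_mul_relIndex (pCoreOf 2 (K ⊔ T)) T (K ⊔ T) hQT hTP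
    rw [h3, h2] at h
    omega
  intro a ha b hb haQ hbQ ha2 hb2 hab
  exact hidx_abs (K ⊔ T) (pCoreOf 2 (K ⊔ T)) (hQT.trans hTP) hPQ (hT2.to_le hQT) h6
    a ha b hb haQ hbQ ha2 hb2 hab

/-- **hker**: for `V` with `N_G(V) ≤ M`, every `v ∈ P ∖ O₂(P)` fails to normalize some
`P`-conjugate of `V`. -/
theorem hker {G : Type u} [Group G] [Finite G] (S : Sylow 2 G) (M T K L : Subgroup G)
    (hB : Base S M T K L) (V : Subgroup G) (hNV : Subgroup.normalizer (V : Set G) ≤ M) :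
    ∀ v ∈ K ⊔ T, v ∉ pCoreOf 2 (K ⊔ T) → ∃ y ∈ K ⊔ T,
      v ∉ Subgroup.normalizer ((V.map (MulAut.conj y).toMonoidHom : Subgroup G) : Set G) := by
  obtain ⟨-, -, -, -, -, hX, hcore⟩ := Cfsg.Agent.H94.Jx.pfacts S M T K L hB
  have hTM : T ≤ M := hB.2.2.2.2.1.1.2.2.1
  have hKM : ¬ K ≤ M := hB.2.2.2.2.2.2.1.2.1
  intro v hv hvQ
  by_contra hall
  apply hvQ
  apply hcore v hv
  intro y hy
  apply hX M hTM hKM
  refine Subgroup.mem_inf.mpr ⟨(K ⊔ T).mul_mem ((K ⊔ T).mul_mem ((K ⊔ T).inv_mem hy) hv) hy, hNV ?_⟩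
  have h1 : v ∈ Subgroup.normalizer ((V.map (MulAut.conj y).toMonoidHom : Subgroup G) : Set G) := by
    by_contra h1
    exact hall ⟨y, hy, h1⟩
  rw [Subgroup.mem_normalizer_iff] at h1 ⊢
  intro w
  have h2 := h1 (y * w * y⁻¹)
  rw [mem_map_conj, mem_map_conj] at h2
  have e1 : y⁻¹ * (y * w * y⁻¹) * y = w := by group
  have e2 : y⁻¹ * (v * (y * w * y⁻¹) * v⁻¹) * y = y⁻¹ * v * y * w * (y⁻¹ * v * y)⁻¹ := by group
  rw [e1, e2] at h2
  exact h2

end Cfsg.Agent.H98.Jx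

#print axioms Cfsg.Agent.H98.Jx.hidx
#print axioms Cfsg.Agent.H98.Jx.hker
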