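import Cfsg.Agent.H98.JxKAConj
import Cfsg.Agent.H11.JxStarSt
import Cfsg.Agent.H48.JxVne

/-!
# S2953 (kill sub-project JX): KA, the case `V ≤ Q₁` is impossible

`ka : StKA` from helper52's `ka_of` with STAR / PF (helper11), VNE (helper48) and KA-CONJ
(`H98.JxKAConj`).
-/

set_option autoImplicit false
open Cfsg

universe u

namespace Cfsg.Agent.H98.Jx

/-- **KA**: the case `V ≤ Q₁` of the residual configuration is impossible. -/
theorem ka : Cfsg.Agent.H52.Jx.StKA.{u} :=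
  Cfsg.Agent.H52.Jx.ka_of Cfsg.Agent.H11.Jx.star Cfsg.Agent.H11.Jx.pf
    Cfsg.Agent.H48.Jx.stVne kaConj

end Cfsg.Agent.H98.Jx

example : Cfsg.Agent.H52.Jx.StKA.{u} := Cfsg.Agent.H98.Jx.ka.{u}

#print axioms Cfsg.Agent.H98.Jx.ka
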