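import Cfsg.Agent.H64.JzDefs
import Cfsg.Agent.H59.JzKillDefs
import Cfsg.Agent.H58.Q46.Final
import Cfsg.Agent.H52.SrMain
import Cfsg.Agent.H66.JzZ2
import Cfsg.Agent.H58.JzLt
import Cfsg.Agent.H62.JzNorm
import Cfsg.Agent.H62.JzSC
import Cfsg.Agent.H3.JzOut1
import Cfsg.Agent.H3.JzOut2
import Cfsg.Agent.H54.JzNSE
import Cfsg.Agent.H91.JzMaxS
import Cfsg.Agent.H90.JzSetup
import Cfsg.Agent.H26.JzResAof
import Cfsg.Agent.H32.JzResN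
import Cfsg.Agent.H32.JkExp
import Cfsg.Agent.H3.JkNV
import Cfsg.Agent.H94.JkCard
import Cfsg.Agent.H98.JkCent
import Cfsg.Agent.H70.JkCent
import Cfsg.Agent.H1.JkFour
import Cfsg.Agent.H32.JkFix
import Cfsg.Agent.H18.JkZ
import Cfsg.Agent.H90.JkBasic

/-!
# JZ (S2951 / S2952): a tested wiring of the landed pieces

`wired : Cfsg.Agent.H64.Jz.StMain` from one landed copy of each piece of helper64's list
(JZ-LT … JZ-RESN) and of helper59's JZ-KILL list (K-EXP … K-BASIC), with helper52's `struct` and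
helper58's clash-free copy of S2946.  All these modules can be imported together (no duplicate
declaration names).
-/

set_option autoImplicit false
open Cfsg

namespace Cfsg.Agent.H98.JzFin

universe u

/-- JZ-KILL from the landed sub-pieces. -/
theorem killWired : Cfsg.Agent.H64.Jz.StKill.{u} := by
  have hSR : Cfsg.Agent.H52.Sr.StStruct.{u} := Cfsg.Agent.H52.Sr.struct
  have hZ2 : Cfsg.Agent.H64.Jz.StZ2.{u} := Cfsg.Agent.H66.Jz.z2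
  have hLt : Cfsg.Agent.H64.Jz.StLt.{u} := by
    intro G _ _ S M T K L hB hne
    obtain ⟨⟨hL, hN, hZ⟩, hO, hM, hMJ, hT, hTS, hK, hLmax, hKL⟩ := hB
    exact (Cfsg.Agent.H58.Jz.lt_half hL hN hZ hO S M hM hMJ T hT hTS K hK L hLmax hKL _ _ rfl rfl
      hne).2
  have hNorm : Cfsg.Agent.H64.Jz.StNorm.{u} := Cfsg.Agent.H62.Jz.norm
  intro G _ _
  exact Cfsg.Agent.H59.JzK.killAsm Cfsg.Agent.H32.JzK.kExp Cfsg.Agent.H3.Jk.kNV
      Cfsg.Agent.H94.JzK.kCard (Cfsg.Agent.H98.JzK.kCent hSR hZ2)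
      (Cfsg.Agent.H70.Jk.kTI hZ2 (fun hL hN hZ T hT hT1 K hK Z₀ hZ₀ =>
        Cfsg.Agent.H58.Q46.s2946 hL hN hZ T hT hT1 K hK Z₀ hZ₀))
      Cfsg.Agent.H1.JzK.kFour Cfsg.Agent.H32.JzK.kFix Cfsg.Agent.H18.Jk.kZ
      Cfsg.Agent.H90.JzK.kBasic hLt hNorm

/-- The clauses of S2951 (`Base → Concl`) from the landed pieces. -/
theorem wired : Cfsg.Agent.H64.Jz.StMain.{u} := by
  have hZ2 : Cfsg.Agent.H64.Jz.StZ2.{u} := Cfsg.Agent.H66.Jz.z2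
  have hLt : Cfsg.Agent.H64.Jz.StLt.{u} := by
    intro G _ _ S M T K L hB hne
    obtain ⟨⟨hL, hN, hZ⟩, hO, hM, hMJ, hT, hTS, hK, hLmax, hKL⟩ := hB
    exact (Cfsg.Agent.H58.Jz.lt_half hL hN hZ hO S M hM hMJ T hT hTS K hK L hLmax hKL _ _ rfl rfl
      hne).2
  have hSC : Cfsg.Agent.H64.Jz.StSC.{u} := Cfsg.Agent.H62.Jz.sc
  have hO1 : Cfsg.Agent.H64.Jz.StOut1.{u} := Cfsg.Agent.H3.Jz.out1
  have hO2 : Cfsg.Agent.H64.Jz.StOut2.{u} := Cfsg.Agent.H3.Jz.out2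
  have hNSE : Cfsg.Agent.H64.Jz.StNSE.{u} := Cfsg.Agent.H54.Jz.nse
  have hMax : Cfsg.Agent.H64.Jz.StMaxS.{u} := Cfsg.Agent.H91.Jz.maxS
  have hSet : Cfsg.Agent.H64.Jz.StSetup.{u} := Cfsg.Agent.H90.Jz.setup hNSE hMax
  have hA : Cfsg.Agent.H64.Jz.StResA.{u} :=
    Cfsg.Agent.H26.JzA.resA_of (fun hL hN hZ T hT hT1 K hK Z₀ hZ₀ =>
      Cfsg.Agent.H58.Q46.s2946 hL hN hZ T hT hT1 K hK Z₀ hZ₀)
  have hN : Cfsg.Agent.H64.Jz.StResN.{u} :=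
    Cfsg.Agent.H32.Jz.resN_of (fun hL hN hZ T hT hT1 K hK Z₀ hZ₀ =>
      Cfsg.Agent.H58.Q46.s2946 hL hN hZ T hT hT1 K hK Z₀ hZ₀) hZ2
  have hKill : Cfsg.Agent.H64.Jz.StKill.{u} := killWired
  intro G _ _
  exact Cfsg.Agent.H64.Jz.main hLt hSC hO1 hO2 hSet hA hN hKill

/-- The statement S2951 in full (first conjunct from S2946). -/
theorem full {G : Type u} [Group G] [Finite G] (hL : Cfsg.IsCharacteristicTwoType G)
    (hN : ∀ N : Subgroup G, Cfsg.IsTwoLocal N → Group.IsSolvable ↥N)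
    (hZ : ∀ S : Sylow 2 G, Subgroup.centralizer (Cfsg.omegaCenterOf (S : Subgroup G) : Set G) ≤
      Subgroup.normalizer ((S : Subgroup G) : Set G)) (hO : Cfsg.pCore 2 G = ⊥) (S : Sylow 2 G)
    (M : Subgroup G) (hM : Cfsg.IsTwoLocal M)
    (hMJ : Subgroup.normalizer (Cfsg.thompsonSubgroupOf 2 (S : Subgroup G) : Set G) ≤ M)
    (T : Subgroup G) (hT : T ∈ Cfsg.maxStraddlingTwoSubgroups M)
    (hTS : T ≤ (S : Subgroup G)) (K : Subgroup G) (hK : K ∈ Cfsg.jComponentsOutside M T)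
    (L : Subgroup G) (hLmax : Cfsg.IsMaximalTwoLocal L)
    (hKL : K ⊔ Cfsg.thompsonSubgroupOf 2 T ≤ L)
    (Z Z₀ : Subgroup G) (hZdef : Z = Cfsg.omegaCenterOf (S : Subgroup G))
    (hZ₀ : Z₀ = Cfsg.omegaCenterOf (Cfsg.thompsonSubgroupOf 2 T)) :
    Z₀ ⊓ Cfsg.wOf K ≠ ⊥ ∧
      ((Z = Z₀ ∧ Nat.card ↥Z₀ = 2) ∨ (Z = Z₀ ∧ Nat.card ↥Z₀ = 4 ∧ T = (S : Subgroup G)) ∨
        (Cfsg.omegaCenterOf T = Z₀ ∧ Nat.card ↥Z₀ = 4 ∧
          (L ⊓ Subgroup.centralizer (Z₀ : Set G)).relIndex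
            (Subgroup.normalizer (Z₀ : Set G)) = 2)) := by
  subst hZdef hZ₀
  refine ⟨?_, ?_⟩
  · have h := (Cfsg.Agent.H58.Q46.s2946 hL hN hZ T hT.1.1 hT.1.2.1 K hK.1.1 _ rfl).1
    intro hb
    rw [hb] at h
    simp at h
  · exact wired S M T K L ⟨⟨hL, hN, hZ⟩, hO, hM, hMJ, hT, hTS, hK, hLmax, hKL⟩

end Cfsg.Agent.H98.JzFin

#print axioms Cfsg.Agent.H98.JzFin.full
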