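import Mathlib

/-!
# Krull–Remak–Schmidt for finite groups (helper98)

* `Indec X` : no decomposition of `X` as internal direct product of two nontrivial normal subgroups.
* `fit_indec` : Fitting's lemma: a normal endomorphism of a finite indecomposable group is
  bijective or nilpotent.
* `df_prod` : a direct factor `H` (indecomposable) of `K × K'` is a direct factor of `K` or of `K'`.
* `exists_iso_factor` : an indecomposable direct factor of `∏ B j` (indecomposable `B j`) is
  isomorphic to some `B j`.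
* `cancel_prod` : cancellation `G × A ≃* G' × A'`, `A ≃* A'` ⟹ `G ≃* G'` (hom counting).
* `krs_aux` : Krull–Remak–Schmidt.
-/

set_option autoImplicit false

universe u v w w'

namespace Cfsg.Agent.H98

/-- Directly indecomposable (in the internal sense). -/
def Indec (X : Type*) [Group X] : Prop :=
  ∀ H K : Subgroup X, H.Normal → K.Normal → H ⊓ K = ⊥ → H ⊔ K = ⊤ → H = ⊥ ∨ K = ⊥

/-- Fitting's lemma for finite indecomposable groups. -/
theorem fit_indec {H : Type*} [Group H] [Finite H] (hH : Indec H) (φ : H →* H)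
    (hφ : ∀ h x, φ (h * x * h⁻¹) = h * φ x * h⁻¹) :
    Function.Bijective φ ∨ ∃ N : ℕ, ∀ x, φ^[N] x = 1 := by
  obtain ⟨N, hN1, hN⟩ : ∃ N : ℕ, 1 ≤ N ∧ ∀ x, φ^[N] (φ^[N] x) = φ^[N] x := by
    have key : ∀ a b : ℕ, a < b → (φ^[a] : H → H) = φ^[b] →
        ∃ N : ℕ, 1 ≤ N ∧ ∀ x, φ^[N] (φ^[N] x) = φ^[N] x := by
      intro a b hlt heq
      obtain ⟨d, rfl⟩ : ∃ d, b = a + d := ⟨b - a, by omega⟩
      have hd : 1 ≤ d := by omega
      have hper : ∀ t : ℕ, (φ^[a + t * d] : H → H) = φ^[a] := by
        intro t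
        induction t with
        | zero => simp
        | succ t ih =>
          have : a + (t + 1) * d = (a + t * d) + d := by ring
          rw [this, Function.iterate_add, ih, ← Function.iterate_add]
          exact heq.symm
      have hNa : a ≤ (a + 1) * d := by nlinarith
      have hN1 : 1 ≤ (a + 1) * d := Nat.mul_pos (Nat.succ_pos a) hd
      have hperN := hper (a + 1)
      generalize (a + 1) * d = N at hNa hN1 hperN
      refine ⟨N, hN1, fun x => ?_⟩
      have e2 : φ^[N] (φ^[N] x) = φ^[N - a] (φ^[a + N] x) := by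
        rw [← Function.iterate_add_apply, ← Function.iterate_add_apply]
        congr 1; omega
      rw [e2, hperN, ← Function.iterate_add_apply]
      congr 1; omega
    obtain ⟨a, b, hab, heq⟩ :=
      Finite.exists_ne_map_eq_of_infinite (fun k : ℕ => (φ^[k] : H → H))
    rcases lt_or_gt_of_ne hab with hlt | hlt
    · exact key a b hlt heq
    · exact key b a hlt heq.symm
  let e : H →* H :=
    { toFun := φ^[N]
      map_one' := iterate_map_one φ N
      map_mul' := iterate_map_mul φ N }
  have hen : ∀ k : ℕ, ∀ h x, φ^[k] (h * x * h⁻¹) = h * φ^[k] x * h⁻¹ := by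
    intro k
    induction k with
    | zero => intro h x; rfl
    | succ k ih =>
      intro h x
      rw [Function.iterate_succ_apply', Function.iterate_succ_apply', ih, hφ]
  have hV : e.range.Normal := ⟨fun y hy g => by
    obtain ⟨x, rfl⟩ := hy
    exact ⟨g * x * g⁻¹, hen N g x⟩⟩
  have hinf : e.ker ⊓ e.range = ⊥ := by
    rw [eq_bot_iff]
    intro y hy
    obtain ⟨hy1, hy2⟩ := Subgroup.mem_inf.mp hy
    obtain ⟨x, rfl⟩ := hy2
    have h3 : e (e x) = 1 := MonoidHom.mem_ker.mp hy1
    change φ^[N] (φ^[N] x) = 1 at h3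
    rw [hN] at h3
    exact Subgroup.mem_bot.mpr h3
  have hsup : e.ker ⊔ e.range = ⊤ := by
    rw [eq_top_iff]
    intro x _
    have hx : x = (x * (e x)⁻¹) * e x := by group
    rw [hx]
    refine Subgroup.mul_mem_sup (MonoidHom.mem_ker.mpr ?_) ⟨x, rfl⟩
    rw [map_mul, map_inv]
    change φ^[N] x * (φ^[N] (φ^[N] x))⁻¹ = 1
    rw [hN, mul_inv_cancel]
  rcases hH e.ker e.range (MonoidHom.normal_ker e) hV hinf hsup with hk | hr
  · left
    have hinj : Function.Injective φ := by
      intro x y hxy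
      have h1 : e x = e y := by
        change φ^[N] x = φ^[N] y
        obtain ⟨M, rfl⟩ : ∃ M, N = M + 1 := ⟨N - 1, by omega⟩
        rw [Function.iterate_succ_apply, Function.iterate_succ_apply, hxy]
      exact (MonoidHom.ker_eq_bot_iff e).mp hk h1
    exact Finite.injective_iff_bijective.mp hinj
  · right
    refine ⟨N, fun x => ?_⟩
    have : e x ∈ e.range := ⟨x, rfl⟩
    rw [hr, Subgroup.mem_bot] at this
    exact this

/-- Two nilpotent endomorphisms cannot sum to the identity. -/
theorem two_sum {H : Type*} [Group H] [Nontrivial H] (φ ψ : H →* H)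
    (hsum : ∀ x, φ x * ψ x = x) (N M : ℕ) (hN : ∀ x, φ^[N] x = 1) (hM : ∀ x, ψ^[M] x = 1) :
    False := by
  classical
  have hex : ∃ k, ∀ x, φ^[k] x = 1 := ⟨N, hN⟩
  obtain ⟨x0, hx0⟩ := exists_ne (1 : H)
  have hk0 : Nat.find hex ≠ 0 := by
    intro h0
    have := Nat.find_spec hex x0
    rw [h0] at this
    exact hx0 this
  obtain ⟨k, hk⟩ : ∃ k, Nat.find hex = k + 1 := ⟨Nat.find hex - 1, by omega⟩
  have hmin : ¬ ∀ x, φ^[k] x = 1 := Nat.find_min hex (by omega)
  obtain ⟨x, hx⟩ := not_forall.mp hmin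
  have hy : φ (φ^[k] x) = 1 := by
    have h5 := Nat.find_spec hex x
    rw [hk, Function.iterate_succ_apply'] at h5
    exact h5
  have hfix : ψ (φ^[k] x) = φ^[k] x := by
    have := hsum (φ^[k] x)
    rw [hy, one_mul] at this
    exact this
  have h3 : ψ^[M] (φ^[k] x) = φ^[k] x := Function.iterate_fixed hfix M
  exact hx (h3.symm.trans (hM _))

/-- An indecomposable direct factor of `K × K'` is a direct factor of `K` or of `K'`. -/
theorem df_prod {H K K' : Type*} [Group H] [Finite H] [Nontrivial H] [Group K] [Group K']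
    (hH : Indec H) (i : H →* K × K') (π : K × K' →* H) (h1 : ∀ h, π (i h) = h)
    (h2 : i.range.Normal) :
    (∃ (i' : H →* K) (π' : K →* H), (∀ h, π' (i' h) = h) ∧ i'.range.Normal) ∨
    (∃ (i' : H →* K') (π' : K' →* H), (∀ h, π' (i' h) = h) ∧ i'.range.Normal) := by
  let α : H →* K := (MonoidHom.fst K K').comp i
  let α' : H →* K' := (MonoidHom.snd K K').comp i
  let β : K →* H := π.comp (MonoidHom.inl K K')
  let β' : K' →* H := π.comp (MonoidHom.inr K K')
  let φ : H →* H := β.comp α
  let ψ : H →* H := β'.comp α'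
  have hsum : ∀ x, φ x * ψ x = x := by
    intro x
    show π (MonoidHom.inl K K' (i x).1) * π (MonoidHom.inr K K' (i x).2) = x
    rw [← map_mul]
    have : MonoidHom.inl K K' (i x).1 * MonoidHom.inr K K' (i x).2 = i x := by
      ext <;> simp
    rw [this, h1]
  have hcomm : ∀ x y, Commute (φ x) (ψ y) := fun x y =>
    (MonoidHom.commute_inl_inr (α x) (α' y)).map π
  have hφn : ∀ h x, φ (h * x * h⁻¹) = h * φ x * h⁻¹ := by
    intro h x
    have c := (hcomm x h).eq
    calc φ (h * x * h⁻¹) = φ h * φ x * (φ h)⁻¹ := by simp only [map_mul, map_inv]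
      _ = (φ h * ψ h) * φ x * (φ h * ψ h)⁻¹ := by
        rw [mul_inv_rev, mul_assoc (φ h) (ψ h) (φ x), ← c]; group
      _ = h * φ x * h⁻¹ := by rw [hsum]
  have hψn : ∀ h x, ψ (h * x * h⁻¹) = h * ψ x * h⁻¹ := by
    intro h x
    have c := (hcomm h x).eq
    calc ψ (h * x * h⁻¹) = ψ h * ψ x * (ψ h)⁻¹ := by simp only [map_mul, map_inv]
      _ = (φ h * ψ h) * ψ x * (φ h * ψ h)⁻¹ := by
        have c2 : φ h * (ψ h * ψ x * (ψ h)⁻¹) = (ψ h * ψ x * (ψ h)⁻¹) * φ h := by
          have c3 := (hcomm h (h * x * h⁻¹)).eq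
          simp only [map_mul, map_inv] at c3
          exact c3
        have c5 : (φ h * ψ h) * ψ x * (φ h * ψ h)⁻¹ =
            φ h * (ψ h * ψ x * (ψ h)⁻¹) * (φ h)⁻¹ := by group
        rw [c5, c2]; group
      _ = h * ψ x * h⁻¹ := by rw [hsum]
  rcases fit_indec hH φ hφn with hb | ⟨N, hN⟩
  · left
    refine ⟨α, ((MulEquiv.ofBijective φ hb).symm.toMonoidHom).comp β, fun h => ?_, ?_⟩
    · show (MulEquiv.ofBijective φ hb).symm (φ h) = h
      exact (MulEquiv.symm_apply_eq _).mpr rfl
    · refine ⟨fun y hy k => ?_⟩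
      obtain ⟨h, rfl⟩ := hy
      obtain ⟨h₂, hh₂⟩ := h2.conj_mem (i h) ⟨h, rfl⟩ (k, 1)
      refine ⟨h₂, ?_⟩
      show (i h₂).1 = k * (i h).1 * k⁻¹
      rw [hh₂]; rfl
  · rcases fit_indec hH ψ hψn with hb | ⟨M, hM⟩
    · right
      refine ⟨α', ((MulEquiv.ofBijective ψ hb).symm.toMonoidHom).comp β', fun h => ?_, ?_⟩
      · show (MulEquiv.ofBijective ψ hb).symm (ψ h) = h
        exact (MulEquiv.symm_apply_eq _).mpr rfl
      · refine ⟨fun y hy k => ?_⟩
        obtain ⟨h, rfl⟩ := hy
        obtain ⟨h₂, hh₂⟩ := h2.conj_mem (i h) ⟨h, rfl⟩ (1, k)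
        refine ⟨h₂, ?_⟩
        show (i h₂).2 = k * (i h).2 * k⁻¹
        rw [hh₂]; rfl
    · exact (two_sum φ ψ hsum N M hN hM).elim

/-- A direct factor of an indecomposable group is everything (if nontrivial). -/
theorem df_iso {H K : Type*} [Group H] [Nontrivial H] [Group K] (hK : Indec K) (i : H →* K)
    (π : K →* H) (h1 : ∀ h, π (i h) = h) (h2 : i.range.Normal) : Nonempty (H ≃* K) := by
  have hinf : i.range ⊓ π.ker = ⊥ := by
    rw [eq_bot_iff]
    intro y hy
    obtain ⟨hy1, hy2⟩ := Subgroup.mem_inf.mp hy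
    obtain ⟨h, rfl⟩ := hy1
    have h3 : π (i h) = 1 := MonoidHom.mem_ker.mp hy2
    rw [h1] at h3
    rw [h3, map_one]; exact Subgroup.mem_bot.mpr rfl
  have hsup : i.range ⊔ π.ker = ⊤ := by
    rw [eq_top_iff]
    intro x _
    have hx : x = i (π x) * ((i (π x))⁻¹ * x) := by group
    rw [hx]
    refine Subgroup.mul_mem_sup ⟨π x, rfl⟩ (MonoidHom.mem_ker.mpr ?_)
    rw [map_mul, map_inv, h1, inv_mul_cancel]
  rcases hK i.range π.ker h2 (MonoidHom.normal_ker π) hinf hsup with hr | hk
  · exfalso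
    obtain ⟨h, hh⟩ := exists_ne (1 : H)
    have h3 : i h ∈ i.range := ⟨h, rfl⟩
    rw [hr, Subgroup.mem_bot] at h3
    have h4 := h1 h
    rw [h3, map_one] at h4
    exact hh h4.symm
  · have hinj : Function.Injective π := (MonoidHom.ker_eq_bot_iff π).mp hk
    have hsurj : Function.Surjective π := fun h => ⟨i h, h1 h⟩
    exact ⟨(MulEquiv.ofBijective π ⟨hinj, hsurj⟩).symm⟩

/-- Splitting off one coordinate of a finite product of groups. -/
def insertNthMulEquiv {n : ℕ} (B : Fin (n + 1) → Type*) [∀ j, Group (B j)] (p : Fin (n + 1)) :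
    (∀ j, B j) ≃* B p × (∀ j : Fin n, B (p.succAbove j)) where
  toFun f := (f p, fun j => f (p.succAbove j))
  invFun q := Fin.insertNth p q.1 q.2
  left_inv f := Fin.insertNth_self_removeNth p f
  right_inv q := by
    ext
    · simp
    · simp
  map_mul' f g := rfl

/-- An indecomposable direct factor of a product of indecomposable groups is isomorphic to
one of the factors. -/
theorem exists_iso_factor {H : Type u} [Group H] [Finite H] [Nontrivial H] (hH : Indec H) :
    ∀ (n : ℕ) (B : Fin n → Type v) [∀ j, Group (B j)], (∀ j, Indec (B j)) →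
      ∀ (i : H →* ∀ j, B j) (π : (∀ j, B j) →* H), (∀ h, π (i h) = h) → i.range.Normal →
        ∃ j, Nonempty (H ≃* B j) := by
  intro n
  induction n with
  | zero =>
    intro B _ _ i π h1 _
    exfalso
    obtain ⟨h, hh⟩ := exists_ne (1 : H)
    have h3 := h1 h
    rw [Subsingleton.elim (i h) (i 1), h1] at h3
    exact hh h3.symm
  | succ n ih =>
    intro B _ hB i π h1 h2
    let c := insertNthMulEquiv B 0
    have h1' : ∀ h, (π.comp c.symm.toMonoidHom) ((c.toMonoidHom.comp i) h) = h := by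
      intro h
      show π (c.symm (c (i h))) = h
      rw [MulEquiv.symm_apply_apply, h1]
    have h2' : (c.toMonoidHom.comp i).range.Normal := by
      refine ⟨fun y hy g => ?_⟩
      obtain ⟨h, rfl⟩ := hy
      obtain ⟨h₂, hh₂⟩ := h2.conj_mem (i h) ⟨h, rfl⟩ (c.symm g)
      refine ⟨h₂, ?_⟩
      show c (i h₂) = g * c (i h) * g⁻¹
      rw [hh₂, map_mul, map_mul, map_inv, MulEquiv.apply_symm_apply]
    rcases df_prod hH (c.toMonoidHom.comp i) (π.comp c.symm.toMonoidHom) h1' h2' with
      ⟨i', π', h1'', h2''⟩ | ⟨i', π', h1'', h2''⟩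
    · exact ⟨0, df_iso (hB 0) i' π' h1'' h2''⟩
    · obtain ⟨j, hj⟩ := ih (fun j => B (Fin.succAbove 0 j)) (fun j => hB _) i' π' h1'' h2''
      exact ⟨Fin.succAbove 0 j, hj⟩

section Cancel

variable {G : Type u} {G' : Type v} {A : Type w} {A' : Type w'} [Group G] [Group G'] [Group A]
  [Group A']

/-- Homomorphisms into a product. -/
def homProdEquiv (X : Type*) [Group X] : (X →* G × A) ≃ (X →* G) × (X →* A) where
  toFun f := ((MonoidHom.fst G A).comp f, (MonoidHom.snd G A).comp f)
  invFun p := p.1.prod p.2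
  left_inv f := MonoidHom.ext fun x => rfl
  right_inv p := Prod.ext (MonoidHom.ext fun x => rfl) (MonoidHom.ext fun x => rfl)

/-- Homomorphisms into isomorphic groups. -/
def homCongrEquiv (X : Type*) [Group X] (e : G ≃* G') : (X →* G) ≃ (X →* G') where
  toFun f := e.toMonoidHom.comp f
  invFun f := e.symm.toMonoidHom.comp f
  left_inv f := MonoidHom.ext fun x => by simp
  right_inv f := MonoidHom.ext fun x => by simp

theorem card_hom_eq [Finite G] [Finite G'] [Finite A] [Finite A'] (e : G × A ≃* G' × A')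
    (a : A ≃* A') (X : Type*) [Group X] [Finite X] :
    Nat.card (X →* G) = Nat.card (X →* G') := by
  have : Finite (X →* A) := DFunLike.finite _
  have h1 : Nat.card (X →* G × A) = Nat.card (X →* G) * Nat.card (X →* A) := by
    rw [Nat.card_congr (homProdEquiv X), Nat.card_prod]
  have h2 : Nat.card (X →* G' × A') = Nat.card (X →* G') * Nat.card (X →* A') := by
    rw [Nat.card_congr (homProdEquiv X), Nat.card_prod]
  have h3 : Nat.card (X →* G × A) = Nat.card (X →* G' × A') :=
    Nat.card_congr (homCongrEquiv X e)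
  have h4 : Nat.card (X →* A) = Nat.card (X →* A') := Nat.card_congr (homCongrEquiv X a)
  have hpos : 0 < Nat.card (X →* A) := Nat.card_pos
  rw [h1, h2, ← h4] at h3
  exact Nat.eq_of_mul_eq_mul_right hpos h3

theorem card_ker_eq_quot {X : Type*} [Group X] (N : Subgroup X) [N.Normal] (G : Type*)
    [Group G] :
    Nat.card {g : X ⧸ N →* G // g.ker = ⊥} = Nat.card {f : X →* G // f.ker = N} := by
  refine Nat.card_congr (Equiv.ofBijective
    (fun g => ⟨g.1.comp (QuotientGroup.mk' N), by
      rw [← MonoidHom.comap_ker, g.2, MonoidHom.comap_bot, QuotientGroup.ker_mk']⟩) ⟨?_, ?_⟩)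
  · intro g₁ g₂ h
    have h' : g₁.1.comp (QuotientGroup.mk' N) = g₂.1.comp (QuotientGroup.mk' N) :=
      congrArg Subtype.val h
    exact Subtype.ext ((MonoidHom.cancel_right (QuotientGroup.mk'_surjective N)).mp h')
  · intro f
    refine ⟨⟨QuotientGroup.lift N f.1 (le_of_eq f.2.symm), ?_⟩, ?_⟩
    · rw [QuotientGroup.ker_lift, f.2, QuotientGroup.map_mk'_self]
    · exact Subtype.ext (QuotientGroup.lift_comp_mk' N f.1 (le_of_eq f.2.symm))

theorem card_inj_eq [Finite G] [Finite G']
    (hom : ∀ (X : Type u) [Group X] [Finite X], Nat.card (X →* G) = Nat.card (X →* G')) :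
    ∀ (k : ℕ) (X : Type u) [Group X] [Finite X], Nat.card X = k →
      Nat.card {f : X →* G // f.ker = ⊥} = Nat.card {f : X →* G' // f.ker = ⊥} := by
  intro k
  induction k using Nat.strong_induction_on with
  | _ k ih =>
    intro X _ _ hk
    classical
    have : Fintype (Subgroup X) := Fintype.ofFinite _
    have : Finite (X →* G) := DFunLike.finite _
    have : Finite (X →* G') := DFunLike.finite _
    have hsumG : ∑ N : Subgroup X, Nat.card {f : X →* G // f.ker = N} = Nat.card (X →* G) := by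
      rw [← Nat.card_sigma]
      exact Nat.card_congr (Equiv.sigmaFiberEquiv (fun f : X →* G => f.ker))
    have hsumG' : ∑ N : Subgroup X, Nat.card {f : X →* G' // f.ker = N} =
        Nat.card (X →* G') := by
      rw [← Nat.card_sigma]
      exact Nat.card_congr (Equiv.sigmaFiberEquiv (fun f : X →* G' => f.ker))
    have hne : ∀ N : Subgroup X, N ≠ ⊥ →
        Nat.card {f : X →* G // f.ker = N} = Nat.card {f : X →* G' // f.ker = N} := by
      intro N hN
      by_cases hnorm : N.Normal
      · rw [← card_ker_eq_quot N, ← card_ker_eq_quot N]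
        have hlt : Nat.card (X ⧸ N) < k := by
          have h1 : 1 < Nat.card ↥N :=
            Finite.one_lt_card_iff_nontrivial.mpr ((Subgroup.nontrivial_iff_ne_bot N).mpr hN)
          have h2 := Subgroup.card_mul_index N
          have hpos : 0 < N.index := Nat.pos_of_ne_zero Subgroup.index_ne_zero_of_finite
          have h3 : Nat.card (X ⧸ N) = N.index := rfl
          rw [h3, ← hk, ← h2]
          nlinarith
        exact ih _ hlt (X ⧸ N) rfl
      · have e1 : IsEmpty {f : X →* G // f.ker = N} :=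
          ⟨fun f => hnorm (f.2 ▸ MonoidHom.normal_ker f.1)⟩
        have e2 : IsEmpty {f : X →* G' // f.ker = N} :=
          ⟨fun f => hnorm (f.2 ▸ MonoidHom.normal_ker f.1)⟩
        rw [Nat.card_of_isEmpty, Nat.card_of_isEmpty]
    have hL := Finset.add_sum_erase Finset.univ
      (fun N : Subgroup X => Nat.card {f : X →* G // f.ker = N}) (Finset.mem_univ ⊥)
    have hR := Finset.add_sum_erase Finset.univ
      (fun N : Subgroup X => Nat.card {f : X →* G' // f.ker = N}) (Finset.mem_univ ⊥)
    have hmid : ∑ N ∈ Finset.univ.erase (⊥ : Subgroup X), Nat.card {f : X →* G // f.ker = N} =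
        ∑ N ∈ Finset.univ.erase (⊥ : Subgroup X), Nat.card {f : X →* G' // f.ker = N} :=
      Finset.sum_congr rfl (fun N hN => hne N (Finset.ne_of_mem_erase hN))
    have h := hL.trans ((hsumG.trans (hom X)).trans (hsumG'.symm.trans hR.symm))
    rw [hmid] at h
    exact Nat.add_right_cancel h

/-- Cancellation of a common direct factor of finite groups. -/
theorem cancel_prod [Finite G] [Finite G'] [Finite A] [Finite A'] (e : G × A ≃* G' × A')
    (a : A ≃* A') : Nonempty (G ≃* G') := by
  have hcard := card_inj_eq (G := G) (G' := G') (fun X _ _ => card_hom_eq e a X) (Nat.card G) G rfl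
  have : Finite (G →* G) := DFunLike.finite _
  have : Finite (G →* G') := DFunLike.finite _
  have hpos : 0 < Nat.card {f : G →* G // f.ker = ⊥} :=
    Nat.card_pos_iff.mpr
      ⟨⟨⟨MonoidHom.id G, (MonoidHom.ker_eq_bot_iff _).mpr Function.injective_id⟩⟩, inferInstance⟩
  rw [hcard] at hpos
  obtain ⟨⟨f, hf⟩⟩ := (Nat.card_pos_iff.mp hpos).1
  have hinj : Function.Injective f := (MonoidHom.ker_eq_bot_iff f).mp hf
  have hc : Nat.card G = Nat.card G' := by
    have h1 := Nat.card_congr e.toEquiv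
    rw [Nat.card_prod, Nat.card_prod, ← Nat.card_congr a.toEquiv] at h1
    exact Nat.eq_of_mul_eq_mul_right Nat.card_pos h1
  exact ⟨MulEquiv.ofBijective f ((Nat.bijective_iff_injective_and_card f).mpr ⟨hinj, hc⟩)⟩

end Cancel

/-- **Krull–Remak–Schmidt** for finite groups. -/
theorem krs_aux : ∀ (m n : ℕ) (A : Fin m → Type u) (B : Fin n → Type v) [∀ i, Group (A i)]
    [∀ j, Group (B j)] [∀ i, Finite (A i)] [∀ j, Finite (B j)],
    (∀ i, Nontrivial (A i) ∧ Indec (A i)) → (∀ j, Nontrivial (B j) ∧ Indec (B j)) →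
    ((∀ i, A i) ≃* (∀ j, B j)) → ∃ σ : Fin m ≃ Fin n, ∀ i, Nonempty (A i ≃* B (σ i)) := by
  intro m
  induction m with
  | zero =>
    intro n A B _ _ _ _ hA hB e
    cases n with
    | zero => exact ⟨Equiv.refl _, fun i => i.elim0⟩
    | succ n =>
      exfalso
      have := (hB 0).1
      obtain ⟨b, hb⟩ := exists_ne (1 : B 0)
      have h1 : e.symm (Pi.mulSingle 0 b) = 1 := Subsingleton.elim _ _
      have h2 : (Pi.mulSingle 0 b : ∀ j, B j) = 1 := by
        have := congrArg e h1
        simpa using this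
      have h3 := congrFun h2 0
      simp at h3
      exact hb h3
  | succ m ih =>
    intro n A B _ _ _ _ hA hB e
    have := (hA 0).1
    let cA := insertNthMulEquiv A 0
    let e₁ : A 0 × (∀ i : Fin m, A (Fin.succAbove 0 i)) ≃* (∀ j, B j) := cA.symm.trans e
    have h1 : ∀ h, ((MonoidHom.fst _ _).comp e₁.symm.toMonoidHom)
        ((e₁.toMonoidHom.comp (MonoidHom.inl _ _)) h) = h := by
      intro h
      show (e₁.symm (e₁ (MonoidHom.inl _ _ h))).1 = h
      rw [MulEquiv.symm_apply_apply]; rfl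
    have h2 : (e₁.toMonoidHom.comp (MonoidHom.inl (A 0) (∀ i : Fin m, A (Fin.succAbove 0 i)))).range.Normal := by
      refine ⟨fun y hy g => ?_⟩
      obtain ⟨h, rfl⟩ := hy
      refine ⟨(e₁.symm g).1 * h * (e₁.symm g).1⁻¹, ?_⟩
      apply e₁.symm.injective
      show e₁.symm (e₁ (MonoidHom.inl _ _ ((e₁.symm g).1 * h * (e₁.symm g).1⁻¹))) =
        e₁.symm (g * e₁ (MonoidHom.inl _ _ h) * g⁻¹)
      simp only [map_mul, map_inv, MulEquiv.symm_apply_apply]
      refine Prod.ext rfl ?_
      show ((1 : (i : Fin m) → A (Fin.succAbove 0 i)) * 1 * 1⁻¹) =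
        (e₁.symm g).2 * 1 * ((e₁.symm g).2)⁻¹
      simp only [mul_one, inv_one, mul_inv_cancel]
    obtain ⟨j₀, ⟨f₀⟩⟩ := exists_iso_factor (hA 0).2 n B (fun j => (hB j).2) _ _ h1 h2
    cases n with
    | zero => exact j₀.elim0
    | succ n =>
      let cB := insertNthMulEquiv B j₀
      obtain ⟨g⟩ := cancel_prod
        (MulEquiv.prodComm.trans ((e₁.trans cB).trans MulEquiv.prodComm)) f₀
      obtain ⟨σ', hσ'⟩ := ih n (fun i => A (Fin.succAbove 0 i)) (fun j => B (j₀.succAbove j))
        (fun i => hA _) (fun j => hB _) g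
      let σ : Fin (m + 1) ≃ Fin (n + 1) :=
        (finSuccEquiv' (0 : Fin (m + 1))).trans
          ((Equiv.optionCongr σ').trans (finSuccEquiv' j₀).symm)
      refine ⟨σ, fun i => ?_⟩
      refine Fin.succAboveCases (0 : Fin (m + 1)) ?_ (fun i' => ?_) i
      · have h0 : σ 0 = j₀ := by simp [σ]
        rw [h0]; exact ⟨f₀⟩
      · have hs : σ (Fin.succAbove 0 i') = j₀.succAbove (σ' i') := by
          show (finSuccEquiv' j₀).symm
            ((Equiv.optionCongr σ') (finSuccEquiv' 0 (Fin.succAbove 0 i'))) = _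
          rw [finSuccEquiv'_succAbove]; simp
        rw [hs]; exact hσ' i'

end Cfsg.Agent.H98
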