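import Mathlib
import Cfsg.Agent.H98.U32
import Cfsg.Agent.H9.M24
import Cfsg.Agent.H9.M24b
import Cfsg.Agent.H45.SLGen
import Cfsg.Agent.S0243
import Cfsg.Agent.H6.SLTransfer

set_option autoImplicit false

/-!
# The three-point stabiliser of `M24` is `PSL(3, 4)` (helper98)

The 21 points other than the indices `0, 1, 2` are identified with the points of the projective
plane over the four-element field, in such a way that the octads through the three base points
become the lines.  The group `SL(3, 4)` then acts on the 24 points; the elementary transvections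
act by elements of `M24`, the kernel of the action is the centre, and the orders agree.
-/

namespace Cfsg.Agent.H98.M21

open Cfsg Cfsg.Agent.H9 Cfsg.Agent.H98 Matrix

/-- the vector of the projective point attached to the index of a point (indices `3..23`) -/
def vecT : ℕ → Fin 3 → GF4
  | 3 => ![GF4.z, GF4.z, GF4.o]
  | 4 => ![GF4.z, GF4.o, GF4.z]
  | 5 => ![GF4.o, GF4.z, GF4.z]
  | 6 => ![GF4.o, GF4.o, GF4.o]
  | 7 => ![GF4.z, GF4.o, GF4.w]
  | 8 => ![GF4.o, GF4.w, GF4.o]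
  | 9 => ![GF4.o, GF4.o, GF4.z]
  | 10 => ![GF4.z, GF4.o, GF4.v]
  | 11 => ![GF4.o, GF4.o, GF4.w]
  | 12 => ![GF4.z, GF4.o, GF4.o]
  | 13 => ![GF4.o, GF4.v, GF4.v]
  | 14 => ![GF4.o, GF4.z, GF4.o]
  | 15 => ![GF4.o, GF4.w, GF4.w]
  | 16 => ![GF4.o, GF4.w, GF4.v]
  | 17 => ![GF4.o, GF4.z, GF4.w]
  | 18 => ![GF4.o, GF4.v, GF4.z]
  | 19 => ![GF4.o, GF4.w, GF4.z]
  | 20 => ![GF4.o, GF4.v, GF4.o]
  | 21 => ![GF4.o, GF4.v, GF4.w]
  | 22 => ![GF4.o, GF4.o, GF4.v]
  | 23 => ![GF4.o, GF4.z, GF4.v]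
  | _ => ![GF4.z, GF4.z, GF4.z]

/-- the index of the point attached to a normalised vector -/
def ptT : GF4 → GF4 → GF4 → ℕ
  | GF4.z, GF4.z, GF4.o => 3
  | GF4.z, GF4.o, GF4.z => 4
  | GF4.o, GF4.z, GF4.z => 5
  | GF4.o, GF4.o, GF4.o => 6
  | GF4.z, GF4.o, GF4.w => 7
  | GF4.o, GF4.w, GF4.o => 8
  | GF4.o, GF4.o, GF4.z => 9
  | GF4.z, GF4.o, GF4.v => 10
  | GF4.o, GF4.o, GF4.w => 11
  | GF4.z, GF4.o, GF4.o => 12
  | GF4.o, GF4.v, GF4.v => 13
  | GF4.o, GF4.z, GF4.o => 14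
  | GF4.o, GF4.w, GF4.w => 15
  | GF4.o, GF4.w, GF4.v => 16
  | GF4.o, GF4.z, GF4.w => 17
  | GF4.o, GF4.v, GF4.z => 18
  | GF4.o, GF4.w, GF4.z => 19
  | GF4.o, GF4.v, GF4.o => 20
  | GF4.o, GF4.v, GF4.w => 21
  | GF4.o, GF4.o, GF4.v => 22
  | GF4.o, GF4.z, GF4.v => 23
  | _, _, _ => 0

/-- packed permutations of the elementary transvections -/
def codeT : Fin 3 → Fin 3 → GF4 → ℕ
  | 0, 1, GF4.o => 0xba91094e346b9e63d8955b0a918820
  | 0, 1, GF4.w => 0xba1474922b3398d85676a3cb218820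
  | 0, 1, GF4.v => 0xbd6cb22627638cfa224a834b318820
  | 0, 2, GF4.o => 0x8d6c79caeb68de68212aa30a470820
  | 0, 2, GF4.w => 0x1a90b9c9c73458da593583ca4b8820
  | 0, 2, GF4.v => 0x721509c87465ccf3d5365b4a488820
  | 1, 0, GF4.o => 0xb5de894d6da9a0c8a8b43b92418820
  | 1, 0, GF4.w => 0x835662a5f78a2ccaaa4e3d26418820
  | 1, 0, GF4.v => 0x6c22e496b65d2ec7aa663a24418820
  | 1, 2, GF4.o => 0x6c1689c9f689ae3a9d34538a460820
  | 1, 2, GF4.w => 0xb5e269caad5a20778d2e650a450820
  | 1, 2, GF4.v => 0x835ee9c977ad2ca8b1261a0a438820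
  | 2, 0, GF4.o => 0x8adb2452ef816acb28d33a5c418820
  | 2, 0, GF4.w => 0x71a4d7d4a89de8c4a9703da2418820
  | 2, 0, GF4.v => 0x2a695835d34464c32acf3aee418820
  | 2, 1, GF4.o => 0xbae957b6289ba44b1cd0524ac18820
  | 2, 1, GF4.w => 0xb99b28523343aaa4b16f258a718820
  | 2, 1, GF4.v => 0xba64d4562f83a87312d362caa18820
  | _, _, _ => 0xbdab49ca307b9ac5a928398a418820


/-- the vector of a point -/
def vec (p : GolayPt) : Fin 3 → GF4 := vecT (gIdx p)

/-- the point of a vector -/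
def pt (v : Fin 3 → GF4) : GolayPt := gPt (ptT (v 0) (v 1) (v 2))

/-- normalisation of a non-zero vector: the first non-zero coordinate becomes `1` -/
def nrm (v : Fin 3 → GF4) : Fin 3 → GF4 :=
  if v 0 ≠ 0 then ![1, (v 0)⁻¹ * v 1, (v 0)⁻¹ * v 2]
  else if v 1 ≠ 0 then ![0, 1, (v 1)⁻¹ * v 2] else ![0, 0, 1]

/-- matrix times vector, written out -/
def mv3 (A : Matrix (Fin 3) (Fin 3) GF4) (v : Fin 3 → GF4) : Fin 3 → GF4 :=
  ![A 0 0 * v 0 + A 0 1 * v 1 + A 0 2 * v 2, A 1 0 * v 0 + A 1 1 * v 1 + A 1 2 * v 2,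
    A 2 0 * v 0 + A 2 1 * v 1 + A 2 2 * v 2]

theorem mv3_eq (A : Matrix (Fin 3) (Fin 3) GF4) (v : Fin 3 → GF4) : mv3 A v = A.mulVec v := by
  funext i
  fin_cases i <;> simp [mv3, Matrix.mulVec, dotProduct, Fin.sum_univ_three]

/-- the action of a matrix on the 24 points -/
def act (A : Matrix (Fin 3) (Fin 3) GF4) (p : GolayPt) : GolayPt :=
  if gIdx p < 3 then p else pt (nrm (mv3 A (vec p)))

theorem eta3 (v : Fin 3 → GF4) : v = ![v 0, v 1, v 2] := by
  funext i
  fin_cases i <;> rfl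

theorem nrm_smul_aux : ∀ c a b d : GF4, c ≠ 0 →
    nrm ![c * a, c * b, c * d] = nrm ![a, b, d] := by decide

theorem nrm_smul (c : GF4) (hc : c ≠ 0) (v : Fin 3 → GF4) : nrm (c • v) = nrm v := by
  have h := nrm_smul_aux c (v 0) (v 1) (v 2) hc
  rw [← eta3 v] at h
  rw [← h]
  congr 1
  funext i
  fin_cases i <;> rfl

theorem nrm_spec_aux : ∀ a b d : GF4, ![a, b, d] ≠ 0 →
    ∃ c : GF4, c ≠ 0 ∧ nrm ![a, b, d] = ![c * a, c * b, c * d] := by decide

theorem nrm_spec (v : Fin 3 → GF4) (hv : v ≠ 0) : ∃ c : GF4, c ≠ 0 ∧ nrm v = c • v := by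
  have hv' : ![v 0, v 1, v 2] ≠ 0 := by rw [← eta3 v]; exact hv
  obtain ⟨c, hc, h⟩ := nrm_spec_aux (v 0) (v 1) (v 2) hv'
  rw [← eta3 v] at h
  refine ⟨c, hc, ?_⟩
  rw [h]
  funext i
  fin_cases i <;> rfl

/-- a normalised non-zero vector -/
def IsN (v : Fin 3 → GF4) : Prop := v ≠ 0 ∧ nrm v = v

theorem nrm_isN_aux : ∀ a b d : GF4, ![a, b, d] ≠ 0 →
    nrm ![a, b, d] ≠ 0 ∧ nrm (nrm ![a, b, d]) = nrm ![a, b, d] := by decide

theorem nrm_isN (v : Fin 3 → GF4) (hv : v ≠ 0) : IsN (nrm v) := by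
  have hv' : ![v 0, v 1, v 2] ≠ 0 := by rw [← eta3 v]; exact hv
  have h := nrm_isN_aux (v 0) (v 1) (v 2) hv'
  rw [← eta3 v] at h
  exact h

theorem pt_spec_aux : ∀ a b d : GF4, ![a, b, d] ≠ 0 → nrm ![a, b, d] = ![a, b, d] →
    3 ≤ gIdx (pt ![a, b, d]) ∧ vec (pt ![a, b, d]) = ![a, b, d] := by decide

theorem pt_spec (v : Fin 3 → GF4) (hv : IsN v) : 3 ≤ gIdx (pt v) ∧ vec (pt v) = v := by
  have h1 : ![v 0, v 1, v 2] ≠ 0 := by rw [← eta3 v]; exact hv.1
  have h2 : nrm ![v 0, v 1, v 2] = ![v 0, v 1, v 2] := by rw [← eta3 v]; exact hv.2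
  have h := pt_spec_aux (v 0) (v 1) (v 2) h1 h2
  rw [← eta3 v] at h
  exact h

theorem vec_spec : ∀ p : GolayPt, 3 ≤ gIdx p →
    vec p ≠ 0 ∧ nrm (vec p) = vec p ∧ pt (vec p) = p := by decide

/-! ### The action of `SL(3, 4)` -/

theorem mulVec_ne_zero (A : SpecialLinearGroup (Fin 3) GF4) (v : Fin 3 → GF4) (hv : v ≠ 0) :
    A.1.mulVec v ≠ 0 := by
  intro h
  apply hv
  have h1 : (A⁻¹).1 * A.1 = 1 := congrArg Subtype.val (inv_mul_cancel A)
  have h2 : (A⁻¹).1.mulVec (A.1.mulVec v) = v := by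
    rw [Matrix.mulVec_mulVec, h1, Matrix.one_mulVec]
  rw [← h2, h, Matrix.mulVec_zero]

theorem act_of_lt (A : Matrix (Fin 3) (Fin 3) GF4) {p : GolayPt} (h : gIdx p < 3) :
    act A p = p := by
  unfold act
  rw [if_pos h]

theorem act_of_le (A : Matrix (Fin 3) (Fin 3) GF4) {p : GolayPt} (h : 3 ≤ gIdx p) :
    act A p = pt (nrm (A.mulVec (vec p))) := by
  unfold act
  rw [if_neg (by omega), mv3_eq]

theorem act_one (p : GolayPt) : act 1 p = p := by
  by_cases h : gIdx p < 3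
  · exact act_of_lt _ h
  · have h3 : 3 ≤ gIdx p := by omega
    obtain ⟨-, h2, h4⟩ := vec_spec p h3
    rw [act_of_le _ h3, Matrix.one_mulVec, h2, h4]

theorem act_mul (A B : SpecialLinearGroup (Fin 3) GF4) (p : GolayPt) :
    act (A * B : SpecialLinearGroup (Fin 3) GF4).1 p = act A.1 (act B.1 p) := by
  by_cases h : gIdx p < 3
  · rw [act_of_lt _ h, act_of_lt _ h, act_of_lt _ h]
  · have h3 : 3 ≤ gIdx p := by omega
    obtain ⟨h1, -, -⟩ := vec_spec p h3
    have hw : (B.1).mulVec (vec p) ≠ 0 := mulVec_ne_zero B _ h1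
    have hN := nrm_isN _ hw
    obtain ⟨hq1, hq2⟩ := pt_spec _ hN
    obtain ⟨c, hc, hcw⟩ := nrm_spec _ hw
    rw [act_of_le _ h3, act_of_le B.1 h3, act_of_le _ hq1, hq2, hcw, Matrix.mulVec_smul,
      nrm_smul c hc, Matrix.mulVec_mulVec]
    rfl

/-- the action of `SL(3, 4)` on the 24 points -/
@[reducible] def slAction : MulAction (SpecialLinearGroup (Fin 3) GF4) GolayPt where
  smul A p := act A.1 p
  one_smul p := act_one p
  mul_smul A B p := act_mul A B p

/-- the permutation representation of `SL(3, 4)` on the 24 points -/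
def psi : SpecialLinearGroup (Fin 3) GF4 →* Equiv.Perm GolayPt :=
  @MulAction.toPermHom _ _ _ slAction

theorem psi_apply (A : SpecialLinearGroup (Fin 3) GF4) (p : GolayPt) : psi A p = act A.1 p := rfl

theorem transv_rep : ∀ i j : Fin 3, i ≠ j → ∀ c : GF4, ∀ p : GolayPt,
    gIdx (act (Matrix.transvection i j c) p) = lk (codeT i j c) (gIdx p) := by decide +kernel

theorem transv_chk : ∀ i j : Fin 3, ∀ c : GF4, chkM24 (codeT i j c) = true := by decide +kernel

theorem psi_mem_M24 (A : SpecialLinearGroup (Fin 3) GF4) : psi A ∈ M24 := by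
  have h : Cfsg.Agent.H45.elemSubgroup (Fin 3) GF4 ≤
      (M24 : Subgroup (Equiv.Perm GolayPt)).comap psi := by
    unfold Cfsg.Agent.H45.elemSubgroup
    rw [Subgroup.closure_le]
    rintro g ⟨i, j, hij, c, rfl⟩
    show psi _ ∈ M24
    exact mem_M24_of_chk (P := codeT i j c) (fun p => transv_rep i j hij c p) (transv_chk i j c)
  have h2 : A ∈ Cfsg.Agent.H45.elemSubgroup (Fin 3) GF4 := by
    rw [Cfsg.Agent.H45.elemSubgroup_eq_top]
    exact Subgroup.mem_top A
  exact h h2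

theorem psi_mem_Stab (A : SpecialLinearGroup (Fin 3) GF4) : psi A ∈ Stab [2, 1, 0] := by
  refine ⟨psi_mem_M24 A, fun i hi => ?_⟩
  have hi' : i < 3 := by
    simp only [List.mem_cons, List.not_mem_nil, or_false] at hi
    omega
  rw [psi_apply]
  exact act_of_lt _ (by rw [gIdx_gPt (by omega)]; exact hi')

/-! ### The kernel -/

theorem isN_basis : IsN ![1, 0, 0] ∧ IsN ![0, 1, 0] ∧ IsN ![0, 0, 1] ∧ IsN (![1, 1, 1] : Fin 3 → GF4) := by
  unfold IsN
  decide

theorem cube_eq_one : ∀ c : GF4, c ≠ 0 → c ^ 3 = 1 := by decide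

theorem ker_psi : psi.ker = Subgroup.center (SpecialLinearGroup (Fin 3) GF4) := by
  ext A
  rw [MonoidHom.mem_ker, Matrix.SpecialLinearGroup.mem_center_iff]
  constructor
  · intro h
    have key : ∀ v : Fin 3 → GF4, IsN v → ∃ c : GF4, A.1.mulVec v = c • v := by
      intro v hv
      obtain ⟨hq1, hq2⟩ := pt_spec v hv
      have h1 : psi A (pt v) = pt v := by rw [h]; rfl
      rw [psi_apply, act_of_le _ hq1, hq2] at h1
      have hw : A.1.mulVec v ≠ 0 := mulVec_ne_zero A v hv.1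
      have hN := nrm_isN _ hw
      have h3 : nrm (A.1.mulVec v) = v := by
        have h4 := congrArg vec h1
        rw [(pt_spec _ hN).2, hq2] at h4
        exact h4
      obtain ⟨c, hc, hcw⟩ := nrm_spec _ hw
      refine ⟨c⁻¹, ?_⟩
      rw [h3] at hcw
      conv_rhs => rw [hcw]
      rw [smul_smul, inv_mul_cancel₀ hc, one_smul]
    obtain ⟨n0, n1, n2, n3⟩ := isN_basis
    obtain ⟨c0, e0⟩ := key _ n0
    obtain ⟨c1, e1⟩ := key _ n1
    obtain ⟨c2, e2⟩ := key _ n2
    obtain ⟨c, e3⟩ := key _ n3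
    have a00 := congrFun e0 0
    have a10 := congrFun e0 1
    have a20 := congrFun e0 2
    have a01 := congrFun e1 0
    have a11 := congrFun e1 1
    have a21 := congrFun e1 2
    have a02 := congrFun e2 0
    have a12 := congrFun e2 1
    have a22 := congrFun e2 2
    have s0 := congrFun e3 0
    have s1 := congrFun e3 1
    have s2 := congrFun e3 2
    simp [Matrix.mulVec, dotProduct, Fin.sum_univ_three] at a00 a10 a20 a01 a11 a21 a02 a12 a22 s0 s1 s2
    rw [a00, a01, a02, add_zero, add_zero] at s0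
    rw [a10, a11, a12, zero_add, add_zero] at s1
    rw [a20, a21, a22, zero_add, zero_add] at s2
    have hc : c ≠ 0 := by
      rintro rfl
      have hd := A.2
      rw [Matrix.det_fin_three, a00, a10, a20, a01, a11, a21, a02, a12, a22, s0, s1, s2] at hd
      simp at hd
    refine ⟨c, ?_, ?_⟩
    · simpa using cube_eq_one c hc
    · ext i j
      fin_cases i <;> fin_cases j <;>
        simp [Matrix.scalar, a00, a10, a20, a01, a11, a21, a02, a12, a22, s0, s1, s2]
  · rintro ⟨r, hr, hA⟩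
    have hr0 : r ≠ 0 := by
      rintro rfl
      simp at hr
    refine Equiv.ext fun p => ?_
    rw [psi_apply]
    show act A.1 p = p
    by_cases h : gIdx p < 3
    · exact act_of_lt _ h
    · have h3 : 3 ≤ gIdx p := by omega
      obtain ⟨-, h2, h4⟩ := vec_spec p h3
      have hA' : A.1 = Matrix.scalar (Fin 3) r := hA.symm
      have hmv : A.1.mulVec (vec p) = r • vec p := by
        rw [hA']
        funext i
        simp [Matrix.mulVec, dotProduct, Matrix.scalar, Matrix.diagonal_apply]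
      rw [act_of_le _ h3, hmv, nrm_smul r hr0, h2, h4]

/-! ### Orders -/

theorem card_Stab3 : Nat.card (Stab [2, 1, 0]) = 20160 := by
  rw [card_Stab [2, 1, 0] 3, ncard_orbit_of_levelOK m24_lvl3, m24_orb3,
    card_Stab [3, 2, 1, 0] 4, ncard_orbit_of_levelOK m24_lvl4, m24_orb4,
    card_Stab [4, 3, 2, 1, 0] 7, ncard_orbit_of_levelOK m24_lvl5, m24_orb5,
    card_Stab [7, 4, 3, 2, 1, 0] 5, ncard_orbit_of_levelOK m24_lvl6, m24_orb6,
    Stab_base_eq_bot, Subgroup.card_bot]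

theorem card_PSL34 : Nat.card (ProjectiveSpecialLinearGroup (Fin 3) GF4) = 20160 := by
  have h := Cfsg.Agent.S0243.result (F := GF4) (q := 4) GF4.card_eq 3 (by norm_num)
  have hprod : ∏ i : Fin 3, (4 ^ 3 - 4 ^ (i : ℕ)) = 181440 := by
    rw [Fin.prod_univ_three]
    norm_num
  have hg : Nat.gcd 3 (4 - 1) = 3 := by norm_num
  rw [hprod, hg] at h
  omega

/-- `PSL(3, 4)` is isomorphic to the pointwise stabiliser of the indices `0, 1, 2` in `M24` -/
theorem iso_base : Nonempty (ProjectiveSpecialLinearGroup (Fin 3) GF4 ≃* Stab [2, 1, 0]) := by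
  have e1 : ProjectiveSpecialLinearGroup (Fin 3) GF4 ≃* psi.range :=
    (QuotientGroup.quotientMulEquivOfEq ker_psi.symm).trans
      (QuotientGroup.quotientKerEquivRange psi)
  have hle : psi.range ≤ Stab [2, 1, 0] := by
    rintro _ ⟨A, rfl⟩
    exact psi_mem_Stab A
  have hcard : Nat.card psi.range = 20160 := by
    rw [← Nat.card_congr e1.toEquiv, card_PSL34]
  have heq : psi.range = Stab [2, 1, 0] :=
    Subgroup.eq_of_le_of_card_ge hle (by rw [hcard, card_Stab3])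
  exact ⟨e1.trans (MulEquiv.subgroupCongr heq)⟩

/-! ### Arbitrary triples of points and arbitrary four-element fields -/

theorem exists_map_triple (p q r : GolayPt) (hpq : p ≠ q) (hpr : p ≠ r) (hqr : q ≠ r) :
    ∃ g ∈ M24, g p = gPt 0 ∧ g q = gPt 1 ∧ g r = gPt 2 := by
  have h3 : MulAction.IsMultiplyPretransitive M24 GolayPt 3 := by
    have := m24_five_transitive
    exact MulAction.isMultiplyPretransitive_of_le (n := 5) (by norm_num)
      (by rw [Nat.card_eq_fintype_card, card_golayPt]; norm_num)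
  rw [MulAction.isMultiplyPretransitive_iff] at h3
  have hx : Function.Injective ![p, q, r] := by
    intro i j h
    fin_cases i <;> fin_cases j <;>
      first
        | rfl
        | exact absurd h hpq
        | exact absurd h hpr
        | exact absurd h hqr
        | exact absurd h.symm hpq
        | exact absurd h.symm hpr
        | exact absurd h.symm hqr
  have hy : Function.Injective ![gPt 0, gPt 1, gPt 2] := by decide
  obtain ⟨g, hg⟩ := h3 ⟨![p, q, r], hx⟩ ⟨![gPt 0, gPt 1, gPt 2], hy⟩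
  refine ⟨g.1, g.2, ?_, ?_, ?_⟩
  · exact congrArg (fun f : Fin 3 ↪ GolayPt => f 0) hg
  · exact congrArg (fun f : Fin 3 ↪ GolayPt => f 1) hg
  · exact congrArg (fun f : Fin 3 ↪ GolayPt => f 2) hg

theorem stab3_iso (p q r : GolayPt) (hpq : p ≠ q) (hpr : p ≠ r) (hqr : q ≠ r) :
    Nonempty (↥(MulAction.stabilizer M24 p ⊓ MulAction.stabilizer M24 q ⊓
      MulAction.stabilizer M24 r) ≃* Stab [2, 1, 0]) := by
  obtain ⟨g, hg, h0, h1, h2⟩ := exists_map_triple p q r hpq hpr hqr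
  have hk : ∀ x : M24, x ∈ MulAction.stabilizer M24 p ⊓ MulAction.stabilizer M24 q ⊓
      MulAction.stabilizer M24 r ↔ (x.1 p = p ∧ x.1 q = q ∧ x.1 r = r) := by
    intro x
    rw [Subgroup.mem_inf, Subgroup.mem_inf, MulAction.mem_stabilizer_iff,
      MulAction.mem_stabilizer_iff, MulAction.mem_stabilizer_iff]
    exact and_assoc
  have i0 : g⁻¹ (gPt 0) = p := by rw [Equiv.Perm.inv_eq_iff_eq, h0]
  have i1 : g⁻¹ (gPt 1) = q := by rw [Equiv.Perm.inv_eq_iff_eq, h1]
  have i2 : g⁻¹ (gPt 2) = r := by rw [Equiv.Perm.inv_eq_iff_eq, h2]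
  have hto : ∀ x : ↥(MulAction.stabilizer M24 p ⊓ MulAction.stabilizer M24 q ⊓
      MulAction.stabilizer M24 r), g * x.1.1 * g⁻¹ ∈ Stab [2, 1, 0] := by
    intro x
    obtain ⟨hp, hq, hr⟩ := (hk x.1).1 x.2
    refine ⟨mul_mem (mul_mem hg x.1.2) (inv_mem hg), fun i hi => ?_⟩
    simp only [List.mem_cons, List.not_mem_nil, or_false] at hi
    rcases hi with rfl | rfl | rfl
    · rw [Equiv.Perm.mul_apply, Equiv.Perm.mul_apply, i2, hr, h2]
    · rw [Equiv.Perm.mul_apply, Equiv.Perm.mul_apply, i1, hq, h1]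
    · rw [Equiv.Perm.mul_apply, Equiv.Perm.mul_apply, i0, hp, h0]
  have hinv1 : ∀ y : Stab [2, 1, 0], g⁻¹ * y.1 * g ∈ M24 := fun y =>
    mul_mem (mul_mem (inv_mem hg) y.2.1) hg
  have hinv2 : ∀ y : Stab [2, 1, 0], (⟨g⁻¹ * y.1 * g, hinv1 y⟩ : M24) ∈
      MulAction.stabilizer M24 p ⊓ MulAction.stabilizer M24 q ⊓ MulAction.stabilizer M24 r := by
    intro y
    rw [hk]
    have y0 := y.2.2 0 (by simp)
    have y1 := y.2.2 1 (by simp)
    have y2 := y.2.2 2 (by simp)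
    refine ⟨?_, ?_, ?_⟩
    · show (g⁻¹ * y.1 * g) p = p
      rw [Equiv.Perm.mul_apply, Equiv.Perm.mul_apply, h0, y0, i0]
    · show (g⁻¹ * y.1 * g) q = q
      rw [Equiv.Perm.mul_apply, Equiv.Perm.mul_apply, h1, y1, i1]
    · show (g⁻¹ * y.1 * g) r = r
      rw [Equiv.Perm.mul_apply, Equiv.Perm.mul_apply, h2, y2, i2]
  exact ⟨{
    toFun := fun x => ⟨g * x.1.1 * g⁻¹, hto x⟩
    invFun := fun y => ⟨⟨g⁻¹ * y.1 * g, hinv1 y⟩, hinv2 y⟩
    left_inv := by
      intro x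
      apply Subtype.ext
      apply Subtype.ext
      show g⁻¹ * (g * x.1.1 * g⁻¹) * g = x.1.1
      group
    right_inv := by
      intro y
      apply Subtype.ext
      show g * (g⁻¹ * y.1 * g) * g⁻¹ = y.1
      group
    map_mul' := by
      intro x y
      apply Subtype.ext
      show g * (x.1.1 * y.1.1) * g⁻¹ = g * x.1.1 * g⁻¹ * (g * y.1.1 * g⁻¹)
      group }⟩

theorem map_center_eq {G H : Type*} [Group G] [Group H] (e : G ≃* H) :
    (Subgroup.center G).map e.toMonoidHom = Subgroup.center H := by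
  ext y
  constructor
  · rintro ⟨x, hx, rfl⟩
    have hx' : x ∈ Subgroup.center G := hx
    rw [Subgroup.mem_center_iff] at hx' ⊢
    intro z
    obtain ⟨w, rfl⟩ := e.surjective z
    show e w * e x = e x * e w
    rw [← map_mul, ← map_mul, hx' w]
  · intro hy
    refine ⟨e.symm y, ?_, e.apply_symm_apply y⟩
    show e.symm y ∈ Subgroup.center G
    rw [Subgroup.mem_center_iff] at hy ⊢
    intro w
    apply e.injective
    rw [map_mul, map_mul, e.apply_symm_apply]
    exact hy (e w)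

/-- the three-point stabiliser of `M24` is `PSL(3, 4)` -/
theorem main (p q r : GolayPt) (hpq : p ≠ q) (hpr : p ≠ r) (hqr : q ≠ r)
    (F : Type) [Field F] [Fintype F] (hF : Fintype.card F = 4) :
    Nonempty (↥(MulAction.stabilizer M24 p ⊓ MulAction.stabilizer M24 q ⊓
      MulAction.stabilizer M24 r) ≃* ProjectiveSpecialLinearGroup (Fin 3) F) := by
  obtain ⟨e1⟩ := stab3_iso p q r hpq hpr hqr
  obtain ⟨e2⟩ := iso_base
  let eF : F ≃+* GF4 := gf4Equiv hF
  let e3 : ProjectiveSpecialLinearGroup (Fin 3) F ≃* ProjectiveSpecialLinearGroup (Fin 3) GF4 :=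
    QuotientGroup.congr (Subgroup.center (SpecialLinearGroup (Fin 3) F))
      (Subgroup.center (SpecialLinearGroup (Fin 3) GF4))
      (Cfsg.Agent.H6.slMapEquiv eF) (map_center_eq _)
  exact ⟨e1.trans (e2.symm.trans e3.symm)⟩

end Cfsg.Agent.H98.M21
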