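import Cfsg.Agent.H90.NSDefs
import Cfsg.Agent.H40.Resid
import Cfsg.Agent.H87.Syl

set_option autoImplicit false

/-!
S5121 team project, piece A8 (F9): `H = K T` is normal in `G`.

Proof: `B = B₁` is normal, `K = O^p(B)` is normal in `G`; `S ∩ B` is a Sylow `p`-subgroup of `B`,
so `G = N_G(S ∩ B) B` (Frattini) and `B = (S ∩ B) O^p(B)`; strong closure of `T` then gives
`g t g⁻¹ ∈ K T` for all `g`.
-/

namespace Cfsg.Agent.H98.NS

open Cfsg Cfsg.FusionSystem Cfsg.Agent.H86 Cfsg.Agent.H90.NS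

universe u

/-- `K = O^p(B₁)` is normal in `G` as soon as `B₁` is a normal subgroup. -/
theorem kSub_normal {G : Type u} [Group G] (p : ℕ) (T : Subgroup G) (E : FusionSystem T)
    (hBset : ((bSub p T E : Subgroup G) : Set G) = b1 p T E) (hBn : (bSub p T E).Normal) :
    (kSub p T E).Normal := by
  refine ⟨fun n hn g => ?_⟩
  have h1 : (kSub p T E).map (MulAut.conj g).toMonoidHom ≤ kSub p T E := by
    unfold kSub
    rw [MonoidHom.map_closure]
    apply Subgroup.closure_mono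
    rintro _ ⟨y, ⟨hy1, hy2⟩, rfl⟩
    refine ⟨?_, ?_⟩
    · have h2 : g * y * g⁻¹ ∈ ((bSub p T E : Subgroup G) : Set G) :=
        hBn.conj_mem y (Subgroup.subset_closure hy1) g
      rw [hBset] at h2
      exact h2
    · show Nat.Coprime (orderOf ((MulAut.conj g) y)) p
      rw [MulEquiv.orderOf_eq]
      exact hy2
  exact h1 ⟨n, hn, rfl⟩

/-- The image of `O^p(B₁)` (computed inside the subgroup `B₁`) lies in `K`. -/
theorem coe_mem_kSub_of_mem_pResidual {G : Type u} [Group G] (p : ℕ) (T : Subgroup G)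
    (E : FusionSystem T) (hBset : ((bSub p T E : Subgroup G) : Set G) = b1 p T E)
    (m : ↥(bSub p T E)) (hm : m ∈ Cfsg.pResidual p ↥(bSub p T E)) : (m : G) ∈ kSub p T E := by
  have h1 : Cfsg.pResidual p ↥(bSub p T E) ≤ (kSub p T E).comap (bSub p T E).subtype := by
    unfold Cfsg.pResidual
    rw [Subgroup.closure_le]
    intro x hx
    show (x : G) ∈ kSub p T E
    apply Subgroup.subset_closure
    refine ⟨?_, ?_⟩
    · have h2 : (x : G) ∈ ((bSub p T E : Subgroup G) : Set G) := x.2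
      rw [hBset] at h2
      exact h2
    · rw [Subgroup.orderOf_coe]
      exact hx
  exact h1 hm

/-- Conjugates of elements of `T` lie in `K T`. -/
theorem conj_mem_hSub {G : Type u} [Group G] [Finite G] (p : ℕ) [Fact p.Prime] (S : Sylow p G)
    (T : Subgroup G) (E : FusionSystem T) (hTS : T ≤ S) (hsc : SC p S T)
    (hBset : ((bSub p T E : Subgroup G) : Set G) = b1 p T E) (hBn : (bSub p T E).Normal)
    (hTB : T ≤ bSub p T E) (g t : G) (ht : t ∈ T) :
    ∃ k ∈ kSub p T E, ∃ t' ∈ T, g * t * g⁻¹ = k * t' := by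
  have hKn : (kSub p T E).Normal := kSub_normal p T E hBset hBn
  -- `S ∩ B` is Sylow in `B`
  have hsyl : Cfsg.Agent.H87.IsSylIn p ((S : Subgroup G) ⊓ bSub p T E) (bSub p T E) := by
    have h0 : Cfsg.Agent.H87.IsSylIn p (S : Subgroup G) ⊤ :=
      Cfsg.Agent.H87.Sylow.isSylIn_of_le S le_top
    refine Cfsg.Agent.H87.IsSylIn.inf_of_normal h0 le_top le_top ?_
    rw [Subgroup.normalizer_eq_top]
  obtain ⟨R, hR⟩ := hsyl
  have hRmap : (R : Subgroup ↥(bSub p T E)).map (bSub p T E).subtype =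
      (S : Subgroup G) ⊓ bSub p T E := by
    rw [hR]
    exact Subgroup.map_subgroupOf_eq_of_le inf_le_right
  have hfr := Sylow.normalizer_sup_eq_top R
  rw [hRmap] at hfr
  -- first the case `g ∈ B`
  have key : ∀ b ∈ bSub p T E, ∃ k ∈ kSub p T E, ∃ t' ∈ T, b * t * b⁻¹ = k * t' := by
    intro b hb
    obtain ⟨s, hs, m, hm, hbsm⟩ := Cfsg.Agent.H40.exists_mul_sylow_pResidual R ⟨b, hb⟩
    have hsS : (s : G) ∈ (S : Subgroup G) := by
      have h1 : s ∈ ((S : Subgroup G) ⊓ bSub p T E).subgroupOf (bSub p T E) := by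
        rw [← hR]; exact hs
      exact (Subgroup.mem_subgroupOf.mp h1).1
    have hmK : (m : G) ∈ kSub p T E := coe_mem_kSub_of_mem_pResidual p T E hBset m hm
    have hb' : b = (s : G) * (m : G) := by
      have := congrArg (Subtype.val) hbsm
      simpa using this
    have hst : (s : G) * t * (s : G)⁻¹ ∈ T := by
      apply hsc _ _ ht
      exact mul_mem (mul_mem hsS (hTS ht)) (inv_mem hsS)
    refine ⟨(s : G) * ((m : G) * (t * (m : G)⁻¹ * t⁻¹)) * (s : G)⁻¹, ?_,
      (s : G) * t * (s : G)⁻¹, hst, ?_⟩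
    · exact hKn.conj_mem _ (mul_mem hmK (hKn.conj_mem _ (inv_mem hmK) t)) _
    · rw [hb']; group
  -- general case
  have hg : g ∈ Subgroup.normalizer (((S : Subgroup G) ⊓ bSub p T E : Subgroup G) : Set G) ⊔
      bSub p T E := by
    rw [hfr]; exact Subgroup.mem_top g
  obtain ⟨n, hn, b, hb, rfl⟩ := Subgroup.mem_sup_of_normal_right.mp hg
  obtain ⟨k, hk, t', ht', e⟩ := key b hb
  have hnt : n * t' * n⁻¹ ∈ T := by
    apply hsc _ _ ht'
    have h1 : t' ∈ (S : Subgroup G) ⊓ bSub p T E := ⟨hTS ht', hTB ht'⟩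
    exact ((Subgroup.mem_normalizer_iff.mp hn t').mp h1).1
  refine ⟨n * k * n⁻¹, hKn.conj_mem _ hk n, n * t' * n⁻¹, hnt, ?_⟩
  have e2 : n * b * t * (n * b)⁻¹ = n * (b * t * b⁻¹) * n⁻¹ := by group
  rw [e2, e]; group

theorem a8 : A8Stmt.{u} := by
  intro G _ _ p _ S T E hyp hsc hbok
  obtain ⟨hBset, hBn, hTB⟩ := hbok
  obtain ⟨-, hTS, -⟩ := hyp
  have hKn : (kSub p T E).Normal := kSub_normal p T E hBset hBn
  refine ⟨fun x hx g => ?_⟩
  have hx' : x ∈ kSub p T E ⊔ T := hx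
  obtain ⟨k, hk, t, ht, rfl⟩ := Subgroup.mem_sup_of_normal_left.mp hx'
  obtain ⟨k', hk', t', ht', e⟩ := conj_mem_hSub p S T E hTS hsc hBset hBn hTB g t ht
  have e2 : g * (k * t) * g⁻¹ = (g * k * g⁻¹) * (g * t * g⁻¹) := by group
  rw [e2, e]
  show _ ∈ kSub p T E ⊔ T
  exact mul_mem (Subgroup.mem_sup_left (hKn.conj_mem _ hk g))
    (mul_mem (Subgroup.mem_sup_left hk') (Subgroup.mem_sup_right ht'))

end Cfsg.Agent.H98.NS
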