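import Mathlib

set_option autoImplicit false

/-!
# Pieces CENSUS and SORT4 of S0496 (helper98, for helper21): pure finite sums and sorting.
-/

namespace Cfsg.Agent.H98.Ord720

/-- piece S0496-CENSUS. -/
theorem census {Ψ : Type*} (s : Finset Ψ) (ψ0 : Ψ) (h0 : ψ0 ∈ s) (dg L : Ψ → ℕ)
    (hdg : ∀ ψ ∈ s, dg ψ = 1 ∨ dg ψ = 2) (h01 : dg ψ0 = 1) (b0 b1 b2 : ℕ)
    (hb0 : b0 ≤ L ψ0) (hb1 : ∀ ψ ∈ s, ψ ≠ ψ0 → dg ψ = 1 → b1 ≤ L ψ)
    (hb2 : ∀ ψ ∈ s, dg ψ = 2 → b2 ≤ L ψ) :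
    ∃ U V : ℕ, 1 + U + 4 * V = ∑ ψ ∈ s, dg ψ ^ 2 ∧ b0 + b1 * U + b2 * V ≤ ∑ ψ ∈ s, L ψ := by
  classical
  refine ⟨((s.erase ψ0).filter (fun ψ => dg ψ = 1)).card,
    ((s.erase ψ0).filter (fun ψ => ¬ dg ψ = 1)).card, ?_, ?_⟩
  · rw [← Finset.add_sum_erase s _ h0,
      ← Finset.sum_filter_add_sum_filter_not (s.erase ψ0) (fun ψ => dg ψ = 1), h01]
    have e1 : ∑ ψ ∈ (s.erase ψ0).filter (fun ψ => dg ψ = 1), dg ψ ^ 2 =
        ((s.erase ψ0).filter (fun ψ => dg ψ = 1)).card * 1 := by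
      apply Finset.sum_const_nat
      intro ψ hψ
      rw [(Finset.mem_filter.mp hψ).2]; rfl
    have e2 : ∑ ψ ∈ (s.erase ψ0).filter (fun ψ => ¬ dg ψ = 1), dg ψ ^ 2 =
        ((s.erase ψ0).filter (fun ψ => ¬ dg ψ = 1)).card * 4 := by
      apply Finset.sum_const_nat
      intro ψ hψ
      have hm := Finset.mem_filter.mp hψ
      rcases hdg ψ (Finset.mem_of_mem_erase hm.1) with h | h
      · exact absurd h hm.2
      · rw [h]; rfl
    rw [e1, e2]; ring
  · rw [← Finset.add_sum_erase s _ h0,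
      ← Finset.sum_filter_add_sum_filter_not (s.erase ψ0) (fun ψ => dg ψ = 1)]
    have e1 : ((s.erase ψ0).filter (fun ψ => dg ψ = 1)).card • b1 ≤
        ∑ ψ ∈ (s.erase ψ0).filter (fun ψ => dg ψ = 1), L ψ := by
      apply Finset.card_nsmul_le_sum
      intro ψ hψ
      have hm := Finset.mem_filter.mp hψ
      exact hb1 ψ (Finset.mem_of_mem_erase hm.1) (Finset.ne_of_mem_erase hm.1) hm.2
    have e2 : ((s.erase ψ0).filter (fun ψ => ¬ dg ψ = 1)).card • b2 ≤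
        ∑ ψ ∈ (s.erase ψ0).filter (fun ψ => ¬ dg ψ = 1), L ψ := by
      apply Finset.card_nsmul_le_sum
      intro ψ hψ
      have hm := Finset.mem_filter.mp hψ
      rcases hdg ψ (Finset.mem_of_mem_erase hm.1) with h | h
      · exact absurd h hm.2
      · exact hb2 ψ (Finset.mem_of_mem_erase hm.1) h
    rw [smul_eq_mul] at e1 e2
    nlinarith [e1, e2, hb0]

/-- piece S0496-SORT4. -/
theorem exists_sorted4 {α : Type*} (T : Set α) (hT : T.ncard = 4) (d : α → ℕ) :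
    ∃ x1 x2 x3 x4 : α, x1 ≠ x2 ∧ x1 ≠ x3 ∧ x1 ≠ x4 ∧ x2 ≠ x3 ∧ x2 ≠ x4 ∧ x3 ≠ x4 ∧
      T = {x1, x2, x3, x4} ∧ d x1 ≤ d x2 ∧ d x2 ≤ d x3 ∧ d x3 ≤ d x4 := by
  classical
  have hfin : T.Finite := Set.finite_of_ncard_ne_zero (by omega)
  have hcard : hfin.toFinset.card = 4 := by rw [← Set.ncard_eq_toFinset_card T hfin, hT]
  let r : α → α → Prop := fun x y => d x ≤ d y
  have : Std.Total r := ⟨fun a b => le_total (d a) (d b)⟩
  have : IsTrans α r := ⟨fun a b c hab hbc => le_trans hab hbc⟩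
  have hperm := List.perm_insertionSort r hfin.toFinset.toList
  have hsort := List.pairwise_insertionSort r hfin.toFinset.toList
  have hlen : (List.insertionSort r hfin.toFinset.toList).length = 4 := by
    rw [hperm.length_eq, Finset.length_toList, hcard]
  have hnodup : (List.insertionSort r hfin.toFinset.toList).Nodup :=
    hperm.nodup_iff.mpr (Finset.nodup_toList _)
  have hmem : ∀ x, x ∈ List.insertionSort r hfin.toFinset.toList ↔ x ∈ T := by
    intro x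
    rw [hperm.mem_iff, Finset.mem_toList, Set.Finite.mem_toFinset]
  generalize List.insertionSort r hfin.toFinset.toList = l at hsort hlen hnodup hmem
  rcases l with _ | ⟨x1, _ | ⟨x2, _ | ⟨x3, _ | ⟨x4, _ | ⟨x5, t⟩⟩⟩⟩⟩
  all_goals simp only [List.length_nil, List.length_cons] at hlen
  all_goals try omega
  refine ⟨x1, x2, x3, x4, ?_⟩
  simp only [List.nodup_cons, List.mem_cons, List.not_mem_nil, or_false, not_or,
    List.nodup_nil, and_true, not_false_eq_true] at hnodup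
  simp only [List.pairwise_cons, List.mem_cons, List.not_mem_nil, or_false, forall_eq_or_imp,
    forall_eq, List.Pairwise.nil, and_true, IsEmpty.forall_iff, implies_true] at hsort
  obtain ⟨⟨h12, h13, h14⟩, ⟨h23, h24⟩, h34⟩ := hnodup
  refine ⟨h12, h13, h14, h23, h24, h34, ?_, hsort.1.1, hsort.2.1.1, hsort.2.2⟩
  ext x
  rw [← hmem x]
  simp

end Cfsg.Agent.H98.Ord720
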