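import Cfsg.Agent.H99.OrtDefs
import Cfsg.Agent.H17.FiniteQuad

set_option autoImplicit false

/-!
Piece S5981-SIMSQ of the team project S5981 (helper99): in even dimension the form
`diag(1, …, 1, δ)` has a similarity with square any given non-zero scalar `z`.
-/

namespace Cfsg.Agent.H98.Ort

open Matrix Cfsg.Agent.H99.Ort

universe u

theorem dgn_reindex {F : Type u} [Field F] (h : ℕ) (δ : F) :
    Matrix.diagonal (dgn (h + h) δ) =
      (Matrix.fromBlocks (1 : Matrix (Fin h) (Fin h) F) 0 0
        (Matrix.diagonal (dgn h δ))).submatrix finSumFinEquiv.symm finSumFinEquiv.symm := by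
  ext i j
  obtain ⟨a, rfl⟩ := finSumFinEquiv.surjective i
  obtain ⟨b, rfl⟩ := finSumFinEquiv.surjective j
  rw [Matrix.submatrix_apply, Equiv.symm_apply_apply, Equiv.symm_apply_apply]
  rcases a with a | a <;> rcases b with b | b
  · rw [Matrix.fromBlocks_apply₁₁, Matrix.diagonal_apply, Matrix.one_apply,
      finSumFinEquiv_apply_left, finSumFinEquiv_apply_left]
    by_cases hab : a = b
    · subst hab
      have h1 : ¬ ((Fin.castAdd h a : Fin (h + h)) : ℕ) + 1 = h + h := by
        rw [Fin.val_castAdd]
        have := a.2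
        omega
      rw [if_pos rfl, if_pos rfl]
      unfold dgn
      rw [if_neg h1]
    · have h1 : Fin.castAdd h a ≠ Fin.castAdd h b := fun hh => hab (Fin.castAdd_injective _ _ hh)
      rw [if_neg h1, if_neg hab]
  · rw [Matrix.fromBlocks_apply₁₂, Matrix.diagonal_apply, finSumFinEquiv_apply_left,
      finSumFinEquiv_apply_right]
    have h1 : Fin.castAdd h a ≠ Fin.natAdd h b := by
      intro hh
      have h2 := congrArg (fun x : Fin (h + h) => (x : ℕ)) hh
      simp only [Fin.val_castAdd, Fin.val_natAdd] at h2
      have := a.2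
      omega
    rw [if_neg h1]
    rfl
  · rw [Matrix.fromBlocks_apply₂₁, Matrix.diagonal_apply, finSumFinEquiv_apply_left,
      finSumFinEquiv_apply_right]
    have h1 : Fin.natAdd h a ≠ Fin.castAdd h b := by
      intro hh
      have h2 := congrArg (fun x : Fin (h + h) => (x : ℕ)) hh
      simp only [Fin.val_castAdd, Fin.val_natAdd] at h2
      have := b.2
      omega
    rw [if_neg h1]
    rfl
  · rw [Matrix.fromBlocks_apply₂₂, Matrix.diagonal_apply, Matrix.diagonal_apply,
      finSumFinEquiv_apply_right, finSumFinEquiv_apply_right]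
    by_cases hab : a = b
    · subst hab
      have h1 : (((Fin.natAdd h a : Fin (h + h)) : ℕ) + 1 = h + h) ↔ ((a : ℕ) + 1 = h) := by
        rw [Fin.val_natAdd]
        omega
      rw [if_pos rfl, if_pos rfl]
      unfold dgn
      by_cases hh : (a : ℕ) + 1 = h
      · rw [if_pos (h1.mpr hh), if_pos hh]
      · rw [if_neg (fun h3 => hh (h1.mp h3)), if_neg hh]
    · have h1 : Fin.natAdd h a ≠ Fin.natAdd h b := fun hh => hab (Fin.natAdd_injective _ _ hh)
      rw [if_neg h1, if_neg hab]

theorem simSq : StSimSq.{u} := by
  intro F _ _ n he h2 δ z hδ hz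
  classical
  obtain ⟨h, rfl⟩ := he
  have hb : ∀ j : Fin h, dgn h δ j ≠ 0 := by
    intro j
    unfold dgn
    split_ifs
    · exact hδ
    · exact one_ne_zero
  choose α β hαβ using fun j : Fin h =>
    Cfsg.Agent.H17.exists_sq_sum_eq h2 (one_ne_zero : (1 : F) ≠ 0) (inv_ne_zero (hb j)) z
  obtain ⟨γ, hγ⟩ : ∃ γ : Fin h → F, γ = fun j => β j / dgn h δ j := ⟨_, rfl⟩
  obtain ⟨s', hs'⟩ : ∃ s' : Matrix (Fin h ⊕ Fin h) (Fin h ⊕ Fin h) F,
      s' = Matrix.fromBlocks (Matrix.diagonal α) (Matrix.diagonal β) (Matrix.diagonal γ)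
        (Matrix.diagonal (fun j => -α j)) := ⟨_, rfl⟩
  obtain ⟨A', hA'⟩ : ∃ A' : Matrix (Fin h ⊕ Fin h) (Fin h ⊕ Fin h) F,
      A' = Matrix.fromBlocks (1 : Matrix (Fin h) (Fin h) F) 0 0 (Matrix.diagonal (dgn h δ)) :=
    ⟨_, rfl⟩
  have e1 : ∀ j : Fin h, α j * α j + β j * γ j = z := by
    intro j
    rw [hγ]
    have := hαβ j
    have hbj := hb j
    field_simp
    field_simp at this
    linear_combination this
  have e2 : ∀ j : Fin h, β j * β j + dgn h δ j * (α j * α j) = z * dgn h δ j := by
    intro j
    have := hαβ j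
    have hbj := hb j
    field_simp at this
    linear_combination this
  have hss : s' * s' = z • (1 : Matrix (Fin h ⊕ Fin h) (Fin h ⊕ Fin h) F) := by
    rw [hs', Matrix.fromBlocks_multiply, ← Matrix.fromBlocks_one, Matrix.fromBlocks_smul]
    simp only [Matrix.diagonal_mul_diagonal, Matrix.diagonal_add, smul_zero]
    congr 1
    · rw [← Matrix.diagonal_one, ← Matrix.diagonal_smul]
      congr 1
      funext j
      simp only [Pi.smul_apply, smul_eq_mul, mul_one]
      exact e1 j
    · rw [← Matrix.diagonal_zero]
      congr 1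
      funext j
      ring
    · rw [← Matrix.diagonal_zero]
      congr 1
      funext j
      ring
    · rw [← Matrix.diagonal_one, ← Matrix.diagonal_smul]
      congr 1
      funext j
      simp only [Pi.smul_apply, smul_eq_mul, mul_one]
      have := e1 j
      linear_combination this
  have hsA : s'.transpose * A' * s' = z • A' := by
    rw [hs', hA', Matrix.fromBlocks_transpose, Matrix.fromBlocks_multiply,
      Matrix.fromBlocks_multiply, Matrix.fromBlocks_smul]
    simp only [Matrix.diagonal_transpose, Matrix.mul_one, Matrix.mul_zero, add_zero, zero_add,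
      Matrix.diagonal_mul_diagonal, Matrix.diagonal_add, smul_zero]
    congr 1
    · rw [← Matrix.diagonal_one, ← Matrix.diagonal_smul]
      congr 1
      funext j
      simp only [Pi.smul_apply, smul_eq_mul, mul_one]
      rw [hγ]
      have := e1 j
      rw [hγ] at this
      have hbj := hb j
      field_simp
      field_simp at this
      linear_combination this
    · rw [← Matrix.diagonal_zero]
      congr 1
      funext j
      rw [hγ]
      have hbj := hb j
      field_simp
      ring
    · rw [← Matrix.diagonal_zero]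
      congr 1
      funext j
      rw [hγ]
      have hbj := hb j
      field_simp
      ring
    · rw [← Matrix.diagonal_smul]
      congr 1
      funext j
      simp only [Pi.smul_apply, smul_eq_mul]
      have := e2 j
      linear_combination this
  refine ⟨s'.submatrix finSumFinEquiv.symm finSumFinEquiv.symm, ?_, ?_⟩
  · rw [Matrix.submatrix_mul_equiv, hss]
    ext i j
    simp [Matrix.submatrix_apply, Matrix.smul_apply, Matrix.one_apply]
  · rw [dgn_reindex, ← hA', Matrix.transpose_submatrix, Matrix.submatrix_mul_equiv,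
      Matrix.submatrix_mul_equiv, hsA]
    ext i j
    rfl

example : StSimSq.{u} := simSq

end Cfsg.Agent.H98.Ort
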