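import Mathlib
import Cfsg.Agent.H14.OtDefs
import Cfsg.Agent.H49.Isom
import Cfsg.Agent.H49.SimpleForms
import Cfsg.Agent.S0291

set_option autoImplicit false

/-!
Piece OT-ZEROS of the team project S5972 (helper14): a nondegenerate quadratic form in `2 e + 1`
variables over a finite field of odd characteristic has exactly `q ^ (2 e)` zeros.
-/

namespace Cfsg.Agent.H98.Ot

open Module Cfsg.Agent.H14.Ot

universe u v

/-- Odd cardinality from `2 ≠ 0`. -/
theorem odd_card_of_two_ne_zero' {L : Type u} [Field L] [Fintype L] (h2 : (2 : L) ≠ 0) :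
    Odd (Fintype.card L) := by
  rw [Nat.odd_iff]
  apply FiniteField.odd_card_of_char_ne_two
  intro h
  apply h2
  have h3 := ringChar.Nat.cast_ringChar (R := L)
  rw [h] at h3
  exact_mod_cast h3

/-- A nondegenerate quadratic form in `2 e + 1` variables is similar to the standard one. -/
theorem exists_sim_odd {F : Type u} [Field F] [Fintype F] {C : Type v} [AddCommGroup C]
    [Module F C] [FiniteDimensional F C] (Q : QuadraticForm F C) (e : ℕ) (h2 : (2 : F) ≠ 0)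
    (hfr : Module.finrank F C = 2 * e + 1)
    (hQ : ∀ x, (∀ y, QuadraticMap.polar ⇑Q x y = 0) → x = 0) :
    ∃ (c : F) (Φ : C ≃ₗ[F] (Unit ⊕ (Fin e ⊕ Fin e) → F)), c ≠ 0 ∧
      ∀ v, c * Cfsg.quadFormOdd e F (Φ v) = Q v := by
  classical
  have hnd : (QuadraticMap.polarBilin Q).Nondegenerate :=
    ⟨fun x h => hQ x (fun y => by simpa using h y),
      fun x h => hQ x (fun y => by
        rw [QuadraticMap.polar_comm]
        simpa using h y)⟩
  obtain ⟨b₁, a₁, ha₁, -, hb₁⟩ := Cfsg.Agent.H49.odd_standard_gram hfr Q hnd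
  have hfr2 : finrank F (Unit ⊕ (Fin e ⊕ Fin e) → F) = 2 * e + 1 := by
    rw [Module.finrank_pi]
    simp
    omega
  obtain ⟨b₂, a₂, ha₂, -, hb₂⟩ := Cfsg.Agent.H49.odd_standard_gram hfr2
    (Cfsg.Agent.H49.QOdd e F) (Cfsg.Agent.H49.QOdd_nondeg e h2)
  obtain ⟨e₁, he₁⟩ : ∃ e₁ : (Unit ⊕ (Fin e ⊕ Fin e) → F) ≃ₗ[F] C,
      ∀ i, e₁ (Pi.single i 1) = b₁ i :=
    ⟨b₁.equivFun.symm, fun i => by simp⟩
  obtain ⟨D', hD'⟩ : ∃ D' : QuadraticForm F (Unit ⊕ (Fin e ⊕ Fin e) → F),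
      ∀ v, D' v = Q (e₁ v) := ⟨Q.comp e₁.toLinearMap, fun v => rfl⟩
  have hD'pol : ∀ x y, QuadraticMap.polar (⇑D') x y =
      QuadraticMap.polar (⇑Q) (e₁ x) (e₁ y) := by
    intro x y
    unfold QuadraticMap.polar
    rw [hD', hD', hD', map_add]
  have hD'nd : ∀ a, (∀ b, QuadraticMap.polar (⇑D') a b = 0) → a = 0 := by
    intro a h
    have h1 : e₁ a = 0 := by
      apply hQ
      intro v
      obtain ⟨b, rfl⟩ := e₁.surjective v
      rw [← hD'pol]
      exact h b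
    exact e₁.injective (h1.trans (map_zero e₁).symm)
  obtain ⟨c, hc⟩ : ∃ c : F, c = a₁ / a₂ := ⟨_, rfl⟩
  have hc0 : c ≠ 0 := by
    rw [hc]
    exact div_ne_zero ha₁ ha₂
  obtain ⟨u, hu⟩ : ∃ u : Unit ⊕ (Fin e ⊕ Fin e) → (Unit ⊕ (Fin e ⊕ Fin e) → F),
      u = Sum.elim (fun _ => b₂ (Sum.inl ()))
        (Sum.elim (fun j => b₂ (Sum.inr (Sum.inl j))) (fun j => c⁻¹ • b₂ (Sum.inr (Sum.inr j)))) :=
    ⟨_, rfl⟩
  have hL : ∀ x y, QuadraticMap.polar (⇑(c • Cfsg.Agent.H49.QOdd e F)) x y =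
      c * QuadraticMap.polar (⇑(Cfsg.Agent.H49.QOdd e F)) x y := by
    intro x y
    rw [QuadraticMap.coeFn_smul, QuadraticMap.polar_smul, smul_eq_mul]
  have hgram : ∀ i j, QuadraticMap.polar (⇑(c • Cfsg.Agent.H49.QOdd e F)) (u i) (u j) =
      QuadraticMap.polar (⇑D') ((Pi.basisFun F (Unit ⊕ (Fin e ⊕ Fin e))) i)
        ((Pi.basisFun F (Unit ⊕ (Fin e ⊕ Fin e))) j) := by
    intro i j
    have hR : QuadraticMap.polar (⇑D') ((Pi.basisFun F (Unit ⊕ (Fin e ⊕ Fin e))) i)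
        ((Pi.basisFun F (Unit ⊕ (Fin e ⊕ Fin e))) j) = Cfsg.Agent.H49.oddGram e F a₁ i j := by
      rw [← hb₁ i j, hD'pol]
      simp only [Pi.basisFun_apply]
      rw [he₁, he₁]
    rw [hR, hL, hu]
    rcases i with (i | i | i) <;> rcases j with (j | j | j)
    · simp only [Sum.elim_inl, hb₂]
      simp only [Cfsg.Agent.H49.oddGram, Matrix.fromBlocks_apply₁₁, Matrix.diagonal_apply_eq]
      rw [hc]
      field_simp
    · simp only [Sum.elim_inl, Sum.elim_inr, hb₂]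
      simp [Cfsg.Agent.H49.oddGram]
    · simp only [Sum.elim_inl, Sum.elim_inr, QuadraticMap.polar_smul_right, hb₂]
      simp [Cfsg.Agent.H49.oddGram]
    · simp only [Sum.elim_inl, Sum.elim_inr, hb₂]
      simp [Cfsg.Agent.H49.oddGram]
    · simp only [Sum.elim_inl, Sum.elim_inr, hb₂]
      simp [Cfsg.Agent.H49.oddGram, Cfsg.Agent.H49.hypGram]
    · simp only [Sum.elim_inl, Sum.elim_inr, QuadraticMap.polar_smul_right, hb₂]
      simp only [Cfsg.Agent.H49.oddGram, Cfsg.Agent.H49.hypGram, Matrix.fromBlocks_apply₂₂,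
        Matrix.fromBlocks_apply₁₂, smul_eq_mul]
      rw [← mul_assoc, mul_inv_cancel₀ hc0, one_mul]
    · simp only [Sum.elim_inl, Sum.elim_inr, QuadraticMap.polar_smul_left, hb₂]
      simp [Cfsg.Agent.H49.oddGram]
    · simp only [Sum.elim_inl, Sum.elim_inr, QuadraticMap.polar_smul_left, hb₂]
      simp only [Cfsg.Agent.H49.oddGram, Cfsg.Agent.H49.hypGram, Matrix.fromBlocks_apply₂₂,
        Matrix.fromBlocks_apply₂₁, smul_eq_mul]
      rw [← mul_assoc, mul_inv_cancel₀ hc0, one_mul]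
    · simp only [Sum.elim_inl, Sum.elim_inr, QuadraticMap.polar_smul_left,
        QuadraticMap.polar_smul_right, hb₂]
      simp [Cfsg.Agent.H49.oddGram, Cfsg.Agent.H49.hypGram]
  obtain ⟨g, hg, -⟩ := Cfsg.Agent.H49.exists_isometry_of_gram h2
    (Pi.basisFun F (Unit ⊕ (Fin e ⊕ Fin e))) D' (c • Cfsg.Agent.H49.QOdd e F) hD'nd u hgram
  refine ⟨c, e₁.symm.trans g, hc0, fun v => ?_⟩
  have h1 := hg (e₁.symm v)
  rw [hD', LinearEquiv.apply_symm_apply, QuadraticMap.coeFn_smul] at h1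
  simp only [Pi.smul_apply, smul_eq_mul, Cfsg.Agent.H49.QOdd_coe] at h1
  rw [← h1]
  rfl

theorem oZeros : StOZeros.{u, v} := by
  intro F _ _ C _ _ _ Q e h2 hfr hQ
  obtain ⟨c, Φ, hc0, hΦ⟩ := exists_sim_odd Q e h2 hfr hQ
  rw [← Cfsg.Agent.S0291.result rfl (odd_card_of_two_ne_zero' h2) e]
  apply Nat.card_congr
  refine Φ.toEquiv.subtypeEquiv (fun v => ?_)
  rw [← hΦ v]
  constructor
  · intro h
    rcases mul_eq_zero.mp h with h3 | h3
    · exact absurd h3 hc0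
    · exact h3
  · intro h
    have h3 : Cfsg.quadFormOdd e F (Φ v) = 0 := h
    rw [h3, mul_zero]

example : StOZeros.{u, v} := oZeros

end Cfsg.Agent.H98.Ot
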