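import Mathlib
import Cfsg.Agent.H26.P2Defs
import Cfsg.Agent.H4.Chars
import Cfsg.Agent.H4.BrauerBasic
import Cfsg.Agent.H82.Irr
import Cfsg.Agent.H82.Extra

set_option autoImplicit false

/-!
# helper98: P2-MIX (for helper26, S4705)

A non-central `2`-element commutes with no non-central `p`-regular element of odd order.
-/

namespace Cfsg.Agent.H98.P2

open Cfsg Cfsg.Agent.H26.P2
open scoped ComplexConjugate

universe u

/-- Multiplying by a central element does not change the absolute value of an irreducible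
character. -/
theorem mix_central {G : Type u} [Group G] [Finite G] {χ : G → ℂ} (hχ : IsIrrCharacter G χ)
    {z : G} (hz : z ∈ Subgroup.center G) (g : G) :
    Complex.normSq (χ (z * g)) = Complex.normSq (χ g) := by
  obtain ⟨c, h1, h2, -⟩ := Cfsg.Agent.H82.irr_central_scalar ⟨χ, hχ⟩ z
    (fun g => Subgroup.mem_center_iff.mp hz g)
  have h3 : c ^ orderOf z = 1 := h2 _ (pow_orderOf_eq_one z)
  have h4 : ‖c‖ = 1 := by
    have h5 : ‖c‖ ^ orderOf z = 1 := by rw [← norm_pow, h3, norm_one]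
    exact (pow_eq_one_iff_of_nonneg (norm_nonneg c) (orderOf_pos z).ne').mp h5
  have h6 : χ (z * g) = c * χ g := h1 g
  rw [h6, Complex.normSq_mul, Complex.normSq_eq_norm_sq, h4]
  simp

/-- The integrality statement: `⟨χ_A, χ_A⟩` and `⟨χ_A, χ_A ε⟩` on `A = ⟨t⟩ × ⟨w⟩`. -/
theorem mix_int {G : Type u} [Group G] [Finite G] {χ : G → ℂ} (hχ : IsCharacter G χ)
    (hc : ∀ z ∈ Subgroup.center G, ∀ g : G,
      Complex.normSq (χ (z * g)) = Complex.normSq (χ g))
    (t w : G) (htw : t * w = w * t) (ht2 : t * t ∈ Subgroup.center G) (hev : 2 ∣ orderOf t)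
    [Fintype ↥(Subgroup.zpowers w)] :
    ∃ N₁ N₂ : ℕ,
      ∑ b : ↥(Subgroup.zpowers w), Complex.normSq (χ (t * (b : G))) =
        (Nat.card ↥(Subgroup.zpowers w) : ℝ) * ((N₁ : ℝ) - N₂) ∧
      ∑ b : ↥(Subgroup.zpowers w), Complex.normSq (χ (b : G)) -
        ∑ b : ↥(Subgroup.zpowers w), Complex.normSq (χ (t * (b : G))) =
        2 * (Nat.card ↥(Subgroup.zpowers w) : ℝ) * N₂ := by
  classical
  haveI : Fintype ↥(Subgroup.zpowers t) := Fintype.ofFinite _
  have hcomm : ∀ (a : ↥(Subgroup.zpowers t)) (b : ↥(Subgroup.zpowers w)),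
      Commute ((Subgroup.zpowers t).subtype a) ((Subgroup.zpowers w).subtype b) := by
    intro a b
    obtain ⟨i, hi⟩ := Subgroup.mem_zpowers_iff.mp a.2
    obtain ⟨j, hj⟩ := Subgroup.mem_zpowers_iff.mp b.2
    show Commute (a : G) (b : G)
    rw [← hi, ← hj]
    exact ((show Commute t w from htw).zpow_left i).zpow_right j
  let π : ↥(Subgroup.zpowers t) × ↥(Subgroup.zpowers w) →* G :=
    MonoidHom.noncommCoprod (Subgroup.zpowers t).subtype (Subgroup.zpowers w).subtype hcomm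
  have hπ : ∀ (a : ↥(Subgroup.zpowers t)) (b : ↥(Subgroup.zpowers w)),
      π (a, b) = (a : G) * (b : G) := fun a b => rfl
  -- the sign character of `⟨t⟩`
  let t₀ : ↥(Subgroup.zpowers t) := ⟨t, Subgroup.mem_zpowers t⟩
  have hgen : ∀ x : ↥(Subgroup.zpowers t), x ∈ Subgroup.zpowers t₀ := by
    intro x
    obtain ⟨i, hi⟩ := Subgroup.mem_zpowers_iff.mp x.2
    exact Subgroup.mem_zpowers_iff.mpr ⟨i, Subtype.ext (by simpa [t₀] using hi)⟩
  have hdvd : orderOf (-1 : ℂˣ) ∣ orderOf t₀ := by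
    have h1 : orderOf (-1 : ℂˣ) ∣ 2 := orderOf_dvd_of_pow_eq_one (by simp)
    have h2 : orderOf t₀ = orderOf t := Subgroup.orderOf_mk t _
    rw [h2]
    exact h1.trans hev
  let ε₀ : ↥(Subgroup.zpowers t) →* ℂˣ := monoidHomOfForallMemZpowers hgen hdvd
  have hε₀ : ε₀ t₀ = -1 := monoidHomOfForallMemZpowers_apply_gen hgen hdvd
  -- parity dichotomy
  have hpar : ∀ a : ↥(Subgroup.zpowers t),
      (ε₀ a = 1 ∧ ∀ g : G, Complex.normSq (χ ((a : G) * g)) = Complex.normSq (χ g)) ∨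
      (ε₀ a = -1 ∧ ∀ g : G, Complex.normSq (χ ((a : G) * g)) = Complex.normSq (χ (t * g))) := by
    intro a
    obtain ⟨j, hj⟩ := (Submonoid.mem_powers_iff _ _).mp ((mem_powers_iff_mem_zpowers).mpr a.2)
    have ha : a = t₀ ^ j := Subtype.ext (by simpa [t₀] using hj.symm)
    rcases Nat.even_or_odd' j with ⟨m, hm | hm⟩
    · left
      refine ⟨?_, ?_⟩
      · rw [ha, map_pow, hε₀, hm, pow_mul]; simp
      · intro g
        have h1 : (a : G) = (t * t) ^ m := by
          rw [← hj, hm, pow_mul, pow_two]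
        rw [h1]
        exact hc _ (Subgroup.pow_mem _ ht2 m) g
    · right
      refine ⟨?_, ?_⟩
      · rw [ha, map_pow, hε₀, hm, pow_succ, pow_mul]; simp
      · intro g
        have h1 : (a : G) = (t * t) ^ m * t := by
          rw [← hj, hm, pow_succ, pow_mul, pow_two]
        rw [h1, mul_assoc]
        exact hc _ (Subgroup.pow_mem _ ht2 m) (t * g)
  -- the characters on `⟨t⟩ × ⟨w⟩`
  have hX : IsCharacter (↥(Subgroup.zpowers t) × ↥(Subgroup.zpowers w)) (fun k => χ (π k)) :=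
    Cfsg.Agent.H4.isCharacter_comp π hχ
  have hE : IsCharacter (↥(Subgroup.zpowers t) × ↥(Subgroup.zpowers w))
      (fun k => (((ε₀.comp (MonoidHom.fst _ _)) k : ℂˣ) : ℂ)) :=
    Cfsg.Agent.H4.isCharacter_of_hom _
  obtain ⟨N₁, hN₁⟩ := Cfsg.Agent.H4.classInner_isCharacter_nat hX hX
  obtain ⟨N₂, hN₂⟩ := Cfsg.Agent.H4.classInner_isCharacter_nat hX
    (Cfsg.Agent.H4.isCharacter_mul hX hE)
  refine ⟨N₁, N₂, ?_⟩
  -- real quantities
  set hF : ℝ := ∑ b : ↥(Subgroup.zpowers w), Complex.normSq (χ (b : G)) with hF_def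
  set hf : ℝ := ∑ b : ↥(Subgroup.zpowers w), Complex.normSq (χ (t * (b : G))) with hf_def
  set n : ℝ := (Nat.card ↥(Subgroup.zpowers w) : ℝ) with hn_def
  set c : ℝ := (Nat.card ↥(Subgroup.zpowers t) : ℝ) with hc_def
  have hn0 : n ≠ 0 := by
    have : 0 < Nat.card ↥(Subgroup.zpowers w) := Nat.card_pos
    rw [hn_def]; exact_mod_cast this.ne'
  have hc0 : c ≠ 0 := by
    have : 0 < Nat.card ↥(Subgroup.zpowers t) := Nat.card_pos
    rw [hc_def]; exact_mod_cast this.ne'
  let er : ↥(Subgroup.zpowers t) → ℝ := fun a => (((ε₀ a : ℂˣ) : ℂ)).re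
  have her : ∀ a, (((ε₀ a : ℂˣ) : ℂ)) = ((er a : ℝ) : ℂ) ∧ er a ^ 2 = 1 := by
    intro a
    rcases hpar a with ⟨h, -⟩ | ⟨h, -⟩
    · simp [er, h]
    · simp [er, h]
  have hS : ∀ a : ↥(Subgroup.zpowers t),
      ∑ b : ↥(Subgroup.zpowers w), Complex.normSq (χ ((a : G) * (b : G))) =
        (1 + er a) / 2 * hF + (1 - er a) / 2 * hf := by
    intro a
    rcases hpar a with ⟨h, h'⟩ | ⟨h, h'⟩
    · have h1 : er a = 1 := by simp [er, h]
      rw [h1]
      simp only [h']
      rw [hF_def]; ring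
    · have h1 : er a = -1 := by simp [er, h]
      rw [h1]
      simp only [h']
      rw [hf_def]; ring
  have hsum_er : ∑ a : ↥(Subgroup.zpowers t), er a = 0 := by
    have h1 : ∑ a : ↥(Subgroup.zpowers t), er (t₀ * a) = ∑ a : ↥(Subgroup.zpowers t), er a :=
      Fintype.sum_equiv (Equiv.mulLeft t₀) _ _ (fun a => rfl)
    have h2 : ∀ a, er (t₀ * a) = - er a := by
      intro a
      simp [er, map_mul, hε₀]
    simp only [h2, Finset.sum_neg_distrib] at h1
    linarith
  have hcard : (Fintype.card ↥(Subgroup.zpowers t) : ℝ) = c := by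
    rw [hc_def, Nat.card_eq_fintype_card]
  -- first inner product
  have hI1 : classInner (fun k : ↥(Subgroup.zpowers t) × ↥(Subgroup.zpowers w) => χ (π k))
      (fun k => χ (π k)) =
      (((c * n)⁻¹ * ∑ a : ↥(Subgroup.zpowers t),
        ((1 + er a) / 2 * hF + (1 - er a) / 2 * hf) : ℝ) : ℂ) := by
    unfold classInner
    rw [Nat.card_prod, Fintype.sum_prod_type]
    push_cast
    congr 1
    apply Finset.sum_congr rfl
    intro a _
    have h1 := congrArg (fun x : ℝ => (x : ℂ)) (hS a)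
    push_cast at h1
    rw [← h1]
    apply Finset.sum_congr rfl
    intro b _
    rw [hπ, Complex.mul_conj]
  have hI2 : classInner (fun k : ↥(Subgroup.zpowers t) × ↥(Subgroup.zpowers w) => χ (π k))
      ((fun k => χ (π k)) * (fun k => (((ε₀.comp (MonoidHom.fst _ _)) k : ℂˣ) : ℂ))) =
      (((c * n)⁻¹ * ∑ a : ↥(Subgroup.zpowers t),
        er a * ((1 + er a) / 2 * hF + (1 - er a) / 2 * hf) : ℝ) : ℂ) := by
    unfold classInner
    rw [Nat.card_prod, Fintype.sum_prod_type]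
    push_cast
    congr 1
    apply Finset.sum_congr rfl
    intro a _
    have h1 := congrArg (fun x : ℝ => (x : ℂ)) (hS a)
    push_cast at h1
    rw [← h1, Finset.mul_sum]
    apply Finset.sum_congr rfl
    intro b _
    rw [Pi.mul_apply, map_mul, hπ, ← mul_assoc, Complex.mul_conj]
    have h2 : (((ε₀.comp (MonoidHom.fst ↥(Subgroup.zpowers t) ↥(Subgroup.zpowers w))) (a, b) : ℂˣ) : ℂ)
        = ((er a : ℝ) : ℂ) := (her a).1
    rw [h2, Complex.conj_ofReal]
    ring
  rw [hN₁] at hI1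
  rw [hN₂] at hI2
  have hR1 : (N₁ : ℝ) = (c * n)⁻¹ * ∑ a : ↥(Subgroup.zpowers t),
        ((1 + er a) / 2 * hF + (1 - er a) / 2 * hf) := by exact_mod_cast hI1
  have hR2 : (N₂ : ℝ) = (c * n)⁻¹ * ∑ a : ↥(Subgroup.zpowers t),
        er a * ((1 + er a) / 2 * hF + (1 - er a) / 2 * hf) := by exact_mod_cast hI2
  have hs1 : ∑ a : ↥(Subgroup.zpowers t), ((1 + er a) / 2 * hF + (1 - er a) / 2 * hf) =
      c * ((hF + hf) / 2) := by
    have h1 : ∀ a : ↥(Subgroup.zpowers t), (1 + er a) / 2 * hF + (1 - er a) / 2 * hf =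
        (hF + hf) / 2 + er a * ((hF - hf) / 2) := fun a => by ring
    simp only [h1]
    rw [Finset.sum_add_distrib, ← Finset.sum_mul, hsum_er, Finset.sum_const, Finset.card_univ,
      nsmul_eq_mul, hcard]
    ring
  have hs2 : ∑ a : ↥(Subgroup.zpowers t), er a * ((1 + er a) / 2 * hF + (1 - er a) / 2 * hf) =
      c * ((hF - hf) / 2) := by
    have h1 : ∀ a : ↥(Subgroup.zpowers t), er a * ((1 + er a) / 2 * hF + (1 - er a) / 2 * hf) =
        (hF - hf) / 2 + er a * ((hF + hf) / 2) := fun a => by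
      have := (her a).2
      linear_combination ((hF - hf) / 2) * this
    simp only [h1]
    rw [Finset.sum_add_distrib, ← Finset.sum_mul, hsum_er, Finset.sum_const, Finset.card_univ,
      nsmul_eq_mul, hcard]
    ring
  rw [hs1] at hR1
  rw [hs2] at hR2
  have e1 : (N₁ : ℝ) * (2 * n) = hF + hf := by
    rw [hR1]; field_simp
  have e2 : (N₂ : ℝ) * (2 * n) = hF - hf := by
    rw [hR2]; field_simp
  constructor
  · linarith
  · linarith

/-- **P2-MIX.** -/
theorem mix : StMix.{u} := by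
  intro G _ _ p _ P χ μ s hyp hE1 hOdd hTwoA hTwoB
  intro t w i hti htZ hwodd hwp htw
  by_contra hwZ
  classical
  haveI : Fintype ↥(Subgroup.zpowers w) := Fintype.ofFinite _
  have hirr := hyp.irr
  have hchar : IsCharacter G χ := Cfsg.Agent.H4.isCharacter_of_isIrrCharacter hirr
  have hc : ∀ z ∈ Subgroup.center G, ∀ g : G,
      Complex.normSq (χ (z * g)) = Complex.normSq (χ g) :=
    fun z hz g => mix_central hirr hz g
  have ht2 : t * t ∈ Subgroup.center G := hTwoB t i hti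
  have hev : 2 ∣ orderOf t := by
    have h1 : orderOf t ∣ 2 ^ i := orderOf_dvd_of_pow_eq_one hti
    obtain ⟨k, hk, hk'⟩ := (Nat.dvd_prime_pow Nat.prime_two).mp h1
    rcases Nat.eq_zero_or_pos k with h0 | h0
    · exfalso
      apply htZ
      rw [h0, pow_zero, orderOf_eq_one_iff] at hk'
      rw [hk']
      exact Subgroup.one_mem _
    · rw [hk']
      exact dvd_pow_self 2 h0.ne'
  obtain ⟨N₁, N₂, hA, hB⟩ := mix_int hchar hc t w htw ht2 hev
  have hp5 := hyp.hp5
  have hp5' : (5 : ℝ) < p := by exact_mod_cast hp5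
  have hχ1 : χ 1 = ((p : ℂ) - 2) := by
    have h1 := Cfsg.Agent.H82.irr_one_eq_charDegree ⟨χ, hirr⟩
    have h2 := hyp.deg
    have h3 : (charDegree χ : ℂ) = (p : ℂ) - 2 := by
      have : ((charDegree χ + 2 : ℕ) : ℂ) = (p : ℂ) := by rw [h2]
      push_cast at this
      linear_combination this
    rw [← h3]
    exact h1
  have hord : ∀ b ∈ Subgroup.zpowers w, Odd (orderOf b) ∧ ¬ p ∣ orderOf b := by
    intro b hb
    have h1 : orderOf b ∣ orderOf w := orderOf_dvd_of_mem_zpowers hb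
    exact ⟨Odd.of_dvd_nat hwodd h1, fun h => hwp (h.trans h1)⟩
  have F1 : ∀ b ∈ Subgroup.center G, Complex.normSq (χ b) = ((p : ℝ) - 2) ^ 2 := by
    intro b hb
    have h1 := hc b hb 1
    rw [mul_one] at h1
    rw [h1, hχ1]
    have : ((p : ℂ) - 2) = (((p : ℝ) - 2 : ℝ) : ℂ) := by push_cast; ring
    rw [this, Complex.normSq_ofReal]
    ring
  have F2 : ∀ b ∈ Subgroup.zpowers w, b ∉ Subgroup.center G → χ b = 0 :=
    fun b hb hbZ => hOdd b (hord b hb).1 (hord b hb).2 hbZ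
  have hχt : χ t = -1 := hTwoA t i hti htZ ht2
  have F3 : ∀ b ∈ Subgroup.center G, Complex.normSq (χ (t * b)) = 1 := by
    intro b hb
    have h1 : t * b = b * t := Subgroup.mem_center_iff.mp hb t
    rw [h1, hc b hb t, hχt]
    simp
  have hsq : ∀ b ∈ Subgroup.zpowers w, b ∉ Subgroup.center G → b * b ∉ Subgroup.center G := by
    intro b hb hbZ hbb
    apply hbZ
    obtain ⟨m, hm⟩ := (hord b hb).1
    have h1 : b = (b * b) ^ (m + 1) := by
      rw [← pow_two, ← pow_mul]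
      have h2 : 2 * (m + 1) = orderOf b + 1 := by omega
      rw [h2, pow_succ, pow_orderOf_eq_one, one_mul]
    rw [h1]
    exact Subgroup.pow_mem _ hbb _
  have F4 : ∀ b ∈ Subgroup.zpowers w, b ∉ Subgroup.center G →
      Complex.normSq (χ (t * b)) ^ 2 =
        ((p : ℝ) - 3) ^ 2 * Complex.normSq (χ (t * (b * b))) := by
    intro b hb hbZ
    have hcomm : Commute t b := by
      obtain ⟨j, hj⟩ := Subgroup.mem_zpowers_iff.mp hb
      rw [← hj]
      exact (show Commute t w from htw).zpow_right j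
    have hreg : ¬ p ∣ orderOf (t * b) := by
      intro h
      have h1 : (t * b) ^ (2 ^ i * orderOf b) = 1 := by
        rw [hcomm.mul_pow, pow_mul, hti, one_pow, one_mul, mul_comm, pow_mul,
          pow_orderOf_eq_one, one_pow]
      have h2 : p ∣ 2 ^ i * orderOf b := h.trans (orderOf_dvd_of_pow_eq_one h1)
      rcases (Nat.Prime.dvd_mul (Fact.out : p.Prime)).mp h2 with h3 | h3
      · have h4 := (Fact.out : p.Prime).dvd_of_dvd_pow h3
        have := Nat.le_of_dvd (by norm_num) h4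
        omega
      · exact (hord b hb).2 h3
    have h1 := hE1 (t * b) hreg
    have h2 : (t * b) * (t * b) = (t * t) * (b * b) := by
      have := hcomm.eq
      calc (t * b) * (t * b) = t * (b * t) * b := by group
        _ = t * (t * b) * b := by rw [← this]
        _ = (t * t) * (b * b) := by group
    have h3 : χ ((t * b) * (t * b)) = 0 := by
      have h4 : χ (b * b) = 0 := F2 (b * b) (Subgroup.mul_mem _ hb hb) (hsq b hb hbZ)
      have h5 := hc (t * t) ht2 (b * b)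
      rw [h4] at h5
      rw [h2]
      simpa using h5
    have h6 : (t * b) ^ s = t * (b * b) := by
      rw [hcomm.mul_pow, hyp.sTwo t i hti, hyp.sOdd b (hord b hb).1 (hord b hb).2, pow_two]
    rw [h3, h6, sub_zero] at h1
    have h7 := congrArg Complex.normSq h1
    rw [map_pow, map_mul] at h7
    rw [h7]
    have : ((p : ℂ) - 3) = (((p : ℝ) - 3 : ℝ) : ℂ) := by push_cast; ring
    rw [this, Complex.normSq_ofReal]
    ring
  have F5 : ∀ z ∈ Subgroup.center G, ∀ b : G,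
      Complex.normSq (χ (t * (b * z))) = Complex.normSq (χ (t * b)) := by
    intro z hz b
    have h1 : t * (b * z) = z * (t * b) := by
      rw [← mul_assoc, Subgroup.mem_center_iff.mp hz (t * b)]
    rw [h1]
    exact hc z hz (t * b)
  -- the counting
  set Z₀ : Finset ↥(Subgroup.zpowers w) :=
    Finset.univ.filter (fun b => (b : G) ∈ Subgroup.center G) with hZ₀
  have hZ₀mem : ∀ b : ↥(Subgroup.zpowers w), b ∈ Z₀ ↔ (b : G) ∈ Subgroup.center G := by
    intro b
    rw [hZ₀, Finset.mem_filter]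
    simp
  have hn0pos : 0 < Z₀.card :=
    Finset.card_pos.mpr ⟨1, (hZ₀mem 1).mpr (Subgroup.one_mem _)⟩
  have hn0lt : Z₀.card < Fintype.card ↥(Subgroup.zpowers w) := by
    rw [← Finset.card_univ]
    apply Finset.card_lt_card
    rw [Finset.ssubset_iff_of_subset (Finset.subset_univ _)]
    exact ⟨⟨w, Subgroup.mem_zpowers w⟩, Finset.mem_univ _, fun h => hwZ ((hZ₀mem _).mp h)⟩
  have hFsum : ∑ b : ↥(Subgroup.zpowers w), Complex.normSq (χ (b : G)) =
      (Z₀.card : ℝ) * ((p : ℝ) - 2) ^ 2 := by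
    have h1 : ∀ b : ↥(Subgroup.zpowers w), Complex.normSq (χ (b : G)) =
        if b ∈ Z₀ then ((p : ℝ) - 2) ^ 2 else 0 := by
      intro b
      by_cases hb : b ∈ Z₀
      · rw [if_pos hb]
        exact F1 _ ((hZ₀mem b).mp hb)
      · rw [if_neg hb, F2 _ b.2 (fun h => hb ((hZ₀mem b).mpr h))]
        simp
    simp only [h1]
    rw [Finset.sum_ite_mem, Finset.univ_inter, Finset.sum_const, nsmul_eq_mul]
  set φ : ↥(Subgroup.zpowers w) → ℝ := fun b => Complex.normSq (χ (t * (b : G))) with hφ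
  have hφnn : ∀ b, 0 ≤ φ b := fun b => Complex.normSq_nonneg _
  have hfsum : ∑ b : ↥(Subgroup.zpowers w), Complex.normSq (χ (t * (b : G))) =
      ∑ b : ↥(Subgroup.zpowers w), φ b := rfl
  rw [hfsum] at hA hB
  rw [hFsum] at hB
  have hncard : (Nat.card ↥(Subgroup.zpowers w) : ℝ) = Fintype.card ↥(Subgroup.zpowers w) := by
    rw [Nat.card_eq_fintype_card]
  set O : Finset ↥(Subgroup.zpowers w) :=
    Finset.univ.filter (fun b => (b : G) ∉ Subgroup.center G ∧ φ b ≠ 0) with hO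
  have hOmem : ∀ b : ↥(Subgroup.zpowers w), b ∈ O ↔ ((b : G) ∉ Subgroup.center G ∧ φ b ≠ 0) := by
    intro b
    rw [hO, Finset.mem_filter]
    simp
  rcases Finset.eq_empty_or_nonempty O with hOe | hOne
  · -- `φ` vanishes off the centre
    have h1 : ∀ b : ↥(Subgroup.zpowers w), φ b = if b ∈ Z₀ then (1 : ℝ) else 0 := by
      intro b
      by_cases hb : b ∈ Z₀
      · rw [if_pos hb]
        exact F3 _ ((hZ₀mem b).mp hb)
      · rw [if_neg hb]
        by_contra h
        have : b ∈ O := (hOmem b).mpr ⟨fun h' => hb ((hZ₀mem b).mpr h'), h⟩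
        rw [hOe] at this
        exact absurd this (Finset.notMem_empty _)
    have h2 : ∑ b : ↥(Subgroup.zpowers w), φ b = (Z₀.card : ℝ) := by
      simp only [h1]
      rw [Finset.sum_ite_mem, Finset.univ_inter, Finset.sum_const, nsmul_eq_mul, mul_one]
    rw [h2, hncard] at hA
    have h3 : (0 : ℝ) < (N₁ : ℝ) - N₂ := by
      by_contra h
      push_neg at h
      have h4 : (Fintype.card ↥(Subgroup.zpowers w) : ℝ) * ((N₁ : ℝ) - N₂) ≤ 0 :=
        mul_nonpos_of_nonneg_of_nonpos (Nat.cast_nonneg _) h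
      have h5 : (0 : ℝ) < Z₀.card := by exact_mod_cast hn0pos
      linarith
    have h4 : N₂ < N₁ := by
      have : (N₂ : ℝ) < N₁ := by linarith
      exact_mod_cast this
    have h5 : (1 : ℝ) ≤ (N₁ : ℝ) - N₂ := by
      have : (N₂ : ℝ) + 1 ≤ N₁ := by exact_mod_cast h4
      linarith
    have h6 : (Fintype.card ↥(Subgroup.zpowers w) : ℝ) ≤ Z₀.card := by
      rw [hA]
      have h7 : (0 : ℝ) ≤ (Fintype.card ↥(Subgroup.zpowers w) : ℝ) := Nat.cast_nonneg _
      nlinarith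
    have h7 : Fintype.card ↥(Subgroup.zpowers w) ≤ Z₀.card := by exact_mod_cast h6
    omega
  · -- a minimiser of `φ` on `O`
    obtain ⟨b₀, hb₀O, hb₀min⟩ := Finset.exists_min_image O φ hOne
    have hb₀ := (hOmem b₀).mp hb₀O
    have hb₀pos : 0 < φ b₀ := lt_of_le_of_ne (hφnn b₀) (Ne.symm hb₀.2)
    have hF4 : φ b₀ ^ 2 = ((p : ℝ) - 3) ^ 2 * φ (b₀ * b₀) := F4 _ b₀.2 hb₀.1
    have hp3 : (0 : ℝ) < ((p : ℝ) - 3) ^ 2 := by nlinarith
    have hb₀sqO : b₀ * b₀ ∈ O := by
      rw [hOmem]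
      refine ⟨hsq _ b₀.2 hb₀.1, ?_⟩
      intro h
      rw [h, mul_zero] at hF4
      have := pow_eq_zero_iff (n := 2) (by norm_num) |>.mp hF4
      exact hb₀.2 this
    have hmin2 : φ b₀ ≤ φ (b₀ * b₀) := hb₀min _ hb₀sqO
    have hbig : ((p : ℝ) - 3) ^ 2 ≤ φ b₀ := by
      by_contra h
      push_neg at h
      nlinarith
    have hbig2 : ((p : ℝ) - 3) ^ 2 ≤ φ (b₀ * b₀) := le_trans hbig hmin2
    -- three disjoint cosets
    have hφmul : ∀ (b z : ↥(Subgroup.zpowers w)), z ∈ Z₀ → φ (b * z) = φ b := by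
      intro b z hz
      exact F5 _ ((hZ₀mem z).mp hz) _
    have hnotZ : ∀ (b z : ↥(Subgroup.zpowers w)), (b : G) ∉ Subgroup.center G → z ∈ Z₀ →
        b * z ∉ Z₀ := by
      intro b z hb hz h
      apply hb
      have h1 := (hZ₀mem _).mp h
      have h2 := (hZ₀mem z).mp hz
      have h3 : (b : G) = ((b * z : ↥(Subgroup.zpowers w)) : G) * (z : G)⁻¹ := by
        simp
      rw [h3]
      exact Subgroup.mul_mem _ h1 (Subgroup.inv_mem _ h2)
    set S₂ : Finset ↥(Subgroup.zpowers w) := Z₀.image (fun z => b₀ * z) with hS₂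
    set S₃ : Finset ↥(Subgroup.zpowers w) := Z₀.image (fun z => b₀ * b₀ * z) with hS₃
    have hd12 : Disjoint Z₀ S₂ := by
      rw [Finset.disjoint_left]
      intro x hx hx2
      rw [hS₂, Finset.mem_image] at hx2
      obtain ⟨z, hz, rfl⟩ := hx2
      exact hnotZ b₀ z hb₀.1 hz hx
    have hd13 : Disjoint Z₀ S₃ := by
      rw [Finset.disjoint_left]
      intro x hx hx3
      rw [hS₃, Finset.mem_image] at hx3
      obtain ⟨z, hz, rfl⟩ := hx3
      exact hnotZ (b₀ * b₀) z (hsq _ b₀.2 hb₀.1) hz hx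
    have hd23 : Disjoint S₂ S₃ := by
      rw [Finset.disjoint_left]
      intro x hx2 hx3
      rw [hS₂, Finset.mem_image] at hx2
      rw [hS₃, Finset.mem_image] at hx3
      obtain ⟨z, hz, rfl⟩ := hx2
      obtain ⟨z', hz', h⟩ := hx3
      -- `b₀ * b₀ * z' = b₀ * z`, so `b₀ = z * z'⁻¹`
      have h1 : b₀ * z' = z := by
        have : b₀ * (b₀ * z') = b₀ * z := by rw [← mul_assoc]; exact h
        exact mul_left_cancel this
      exact hnotZ b₀ z' hb₀.1 hz' (h1 ▸ hz)
    have hsum2 : ∑ x ∈ S₂, φ x = (Z₀.card : ℝ) * φ b₀ := by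
      rw [hS₂, Finset.sum_image (fun x _ y _ h => mul_left_cancel h)]
      rw [Finset.sum_congr rfl (fun z hz => hφmul b₀ z hz), Finset.sum_const, nsmul_eq_mul]
    have hsum3 : ∑ x ∈ S₃, φ x = (Z₀.card : ℝ) * φ (b₀ * b₀) := by
      rw [hS₃, Finset.sum_image (fun x _ y _ h => mul_left_cancel h)]
      rw [Finset.sum_congr rfl (fun z hz => hφmul (b₀ * b₀) z hz), Finset.sum_const, nsmul_eq_mul]
    have hsum1 : ∑ x ∈ Z₀, φ x = (Z₀.card : ℝ) := by
      rw [Finset.sum_congr rfl (fun z hz => F3 _ ((hZ₀mem z).mp hz)), Finset.sum_const,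
        nsmul_eq_mul, mul_one]
    have hlower : (Z₀.card : ℝ) + (Z₀.card : ℝ) * φ b₀ + (Z₀.card : ℝ) * φ (b₀ * b₀) ≤
        ∑ b : ↥(Subgroup.zpowers w), φ b := by
      have h1 : ∑ x ∈ (Z₀ ∪ S₂) ∪ S₃, φ x ≤ ∑ b : ↥(Subgroup.zpowers w), φ b :=
        Finset.sum_le_sum_of_subset_of_nonneg (Finset.subset_univ _) (fun x _ _ => hφnn x)
      have hd : Disjoint (Z₀ ∪ S₂) S₃ := Finset.disjoint_union_left.mpr ⟨hd13, hd23⟩
      rw [Finset.sum_union hd, Finset.sum_union hd12, hsum1, hsum2, hsum3] at h1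
      exact h1
    have hN₂ : (0 : ℝ) ≤ 2 * (Nat.card ↥(Subgroup.zpowers w) : ℝ) * N₂ := by positivity
    have hn0' : (0 : ℝ) < Z₀.card := by exact_mod_cast hn0pos
    have h8 : (Z₀.card : ℝ) * (1 + 2 * ((p : ℝ) - 3) ^ 2) ≤ (Z₀.card : ℝ) * ((p : ℝ) - 2) ^ 2 := by
      nlinarith
    have h9 : 1 + 2 * ((p : ℝ) - 3) ^ 2 ≤ ((p : ℝ) - 2) ^ 2 := le_of_mul_le_mul_left h8 hn0'
    nlinarith

example : Cfsg.Agent.H26.P2.StMix.{u} := mix

end Cfsg.Agent.H98.P2

#print axioms Cfsg.Agent.H98.P2.mix
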