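import Mathlib
import Cfsg.Agent.H26.P2Defs
import Cfsg.Agent.H4.Chars
import Cfsg.Agent.H82.Irr
import Cfsg.Agent.H82.Extra
import Cfsg.Agent.H98.P2Mix

set_option autoImplicit false

/-!
# helper98: P2-MOM (for helper26, S4705)

The norm equation `2 |G| = p |Z| ((p-2)² + I)`, `I` the number of involutions of `G / Z(G)`.
-/

namespace Cfsg.Agent.H98.P2

open Cfsg Cfsg.Agent.H26.P2
open scoped ComplexConjugate

universe u

/-- The elements that are involutions modulo the centre: `|Z|` times the number of involutions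
of `G / Z`. -/
theorem mom_count {G : Type u} [Group G] [Fintype G] [DecidableEq G]
    [DecidablePred (· ∈ Subgroup.center G)] :
    (Finset.univ.filter (fun g : G => g ∉ Subgroup.center G ∧ g * g ∈ Subgroup.center G)).card =
      Nat.card (Subgroup.center G) *
        Nat.card {t : G ⧸ Subgroup.center G // orderOf t = 2} := by
  have h1 := QuotientGroup.card_preimage_mk (Subgroup.center G)
    {t : G ⧸ Subgroup.center G | orderOf t = 2}
  have h2 : Nat.card ↥{t : G ⧸ Subgroup.center G | orderOf t = 2} =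
      Nat.card {t : G ⧸ Subgroup.center G // orderOf t = 2} := rfl
  rw [h2] at h1
  haveI : Fintype ↥(QuotientGroup.mk ⁻¹' {t : G ⧸ Subgroup.center G | orderOf t = 2}) :=
    Fintype.ofFinite _
  rw [← h1, Nat.card_eq_fintype_card]
  symm
  apply Fintype.card_of_subtype
  intro g
  rw [Finset.mem_filter, Set.mem_preimage, Set.mem_setOf_eq]
  haveI : Fact (Nat.Prime 2) := ⟨Nat.prime_two⟩
  rw [orderOf_eq_prime_iff]
  constructor
  · rintro ⟨-, h3, h4⟩
    refine ⟨?_, ?_⟩
    · rw [pow_two]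
      exact (QuotientGroup.eq_one_iff (g * g)).mpr h4
    · intro h
      exact h3 ((QuotientGroup.eq_one_iff g).mp h)
  · rintro ⟨h3, h4⟩
    refine ⟨Finset.mem_univ _, ?_, ?_⟩
    · intro h
      exact h4 ((QuotientGroup.eq_one_iff g).mpr h)
    · rw [pow_two] at h3
      exact (QuotientGroup.eq_one_iff (g * g)).mp h3

/-- **P2-MOM.** -/
theorem mom : StMom.{u} := by
  intro G _ _ p _ P χ μ s hyp hS hA hB
  classical
  haveI : Fintype G := Fintype.ofFinite G
  haveI : Fintype ↥(P : Subgroup G) := Fintype.ofFinite _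
  haveI : Fintype ↥(Subgroup.center G) := Fintype.ofFinite _
  have hirr := hyp.irr
  have hp5 := hyp.hp5
  have hpp : p.Prime := Fact.out
  set F : G → ℂ := fun g => χ g * conj (χ g) with hF
  have hFn : ∀ g, F g = ((Complex.normSq (χ g) : ℝ) : ℂ) := fun g => Complex.mul_conj _
  have hcl : IsClassFunction G χ := Cfsg.Agent.H4.irr_isClassFunction ⟨χ, hirr⟩
  have hFcl : IsClassFunction G F := by
    intro g h
    show χ (h * g * h⁻¹) * conj (χ (h * g * h⁻¹)) = χ g * conj (χ g)
    rw [hcl g h]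
  have hG0 : (Nat.card G : ℂ) ≠ 0 := by
    have : 0 < Nat.card G := Nat.card_pos
    exact_mod_cast this.ne'
  have hZ0 : (Nat.card (Subgroup.center G) : ℂ) ≠ 0 := by
    have : 0 < Nat.card (Subgroup.center G) := Nat.card_pos
    exact_mod_cast this.ne'
  -- the total sum
  have htot : ∑ g : G, F g = (Nat.card G : ℂ) := by
    have h1 := Cfsg.Agent.H4.irr_inner_self (⟨χ, hirr⟩ : IrrCharacter G)
    unfold classInner at h1
    have h2 : ∑ g : G, F g = ∑ g : G, χ g * conj (χ g) := rfl
    rw [h2]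
    field_simp at h1
    exact h1
  -- values on `P`
  have hμ : ∀ x : ↥(P : Subgroup G), conj (((μ x : ℂˣ) : ℂ)) = (((μ x)⁻¹ : ℂˣ) : ℂ) := by
    intro x
    have h1 : (μ x) ^ orderOf x = 1 := by rw [← map_pow, pow_orderOf_eq_one, map_one]
    have h2 : ‖((μ x : ℂˣ) : ℂ)‖ = 1 := by
      have h3 : ((μ x : ℂˣ) : ℂ) ^ orderOf x = 1 := by
        have := congrArg (fun u : ℂˣ => (u : ℂ)) h1
        simpa using this
      have h5 : ‖((μ x : ℂˣ) : ℂ)‖ ^ orderOf x = 1 := by rw [← norm_pow, h3, norm_one]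
      exact (pow_eq_one_iff_of_nonneg (norm_nonneg _) (orderOf_pos x).ne').mp h5
    rw [Units.val_inv_eq_inv_val]
    exact (Complex.inv_eq_conj h2).symm
  have hval : ∀ x : ↥(P : Subgroup G), x ≠ 1 →
      F (x : G) = 2 + ((μ x : ℂˣ) : ℂ) ^ 2 + (((μ x)⁻¹ : ℂˣ) : ℂ) ^ 2 := by
    intro x hx
    show χ x * conj (χ x) = _
    rw [hyp.val x hx, map_neg, map_add, hμ x]
    have h1 : conj ((((μ x)⁻¹ : ℂˣ) : ℂ)) = ((μ x : ℂˣ) : ℂ) := by
      rw [← hμ x, Complex.conj_conj]
    rw [h1]
    have h2 : ((μ x : ℂˣ) : ℂ) * (((μ x)⁻¹ : ℂˣ) : ℂ) = 1 := by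
      rw [← Units.val_mul, mul_inv_cancel, Units.val_one]
    linear_combination 2 * h2
  have hcardP : Fintype.card ↥(P : Subgroup G) = p := by
    rw [← Nat.card_eq_fintype_card]; exact hyp.cardP
  have hsum2 : ∑ x : ↥(P : Subgroup G), ((μ x : ℂˣ) : ℂ) ^ 2 = 0 := by
    have hne : (Units.coeHom ℂ).comp (μ ^ 2) ≠ 1 := by
      intro h
      apply hyp.μne
      ext x
      have h1 : ((μ x : ℂˣ) : ℂ) ^ 2 = 1 := by
        have := DFunLike.congr_fun h x
        simpa using this
      have h2 : (μ x) ^ 2 = 1 := by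
        apply Units.ext
        simpa using h1
      have h3 : (μ x) ^ p = 1 := by
        rw [← map_pow]
        have hx : x ^ Fintype.card ↥(P : Subgroup G) = 1 := pow_card_eq_one
        rw [hcardP] at hx
        rw [hx, map_one]
      have hodd : Odd p := hpp.odd_of_ne_two (by omega)
      obtain ⟨k, hk⟩ := hodd
      have h4 : (μ x) ^ (2 * k + 1) = 1 := by
        rw [← hk]; exact h3
      rw [pow_succ, pow_mul, h2, one_pow, one_mul] at h4
      rw [h4]
      simp
    have := sum_hom_units_eq_zero ((Units.coeHom ℂ).comp (μ ^ 2)) hne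
    simpa using this
  have hsum2' : ∑ x : ↥(P : Subgroup G), (((μ x)⁻¹ : ℂˣ) : ℂ) ^ 2 = 0 := by
    rw [← hsum2]
    exact Fintype.sum_equiv (Equiv.inv _) _ _ (fun x => by simp)
  have hPsum : ∑ x ∈ (Finset.univ : Finset ↥(P : Subgroup G)).erase 1, F (x : G) =
      2 * (p : ℂ) - 4 := by
    have h1 : ∑ x ∈ (Finset.univ : Finset ↥(P : Subgroup G)).erase 1, F (x : G) =
        ∑ x ∈ (Finset.univ : Finset ↥(P : Subgroup G)).erase 1,
          (2 + ((μ x : ℂˣ) : ℂ) ^ 2 + (((μ x)⁻¹ : ℂˣ) : ℂ) ^ 2) :=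
      Finset.sum_congr rfl (fun x hx => hval x (Finset.ne_of_mem_erase hx))
    rw [h1, Finset.sum_erase_eq_sub (Finset.mem_univ _), Finset.sum_add_distrib,
      Finset.sum_add_distrib, hsum2, hsum2', Finset.sum_const, Finset.card_univ, hcardP]
    simp
    ring
  -- the singular part
  have hinner : ∀ x : ↥(P : Subgroup G), ∑ᶠ z : Subgroup.center G, F ((x : G) * (z : G)) =
      (Nat.card (Subgroup.center G) : ℂ) * F (x : G) := by
    intro x
    rw [finsum_eq_sum_of_fintype]
    have h1 : ∀ z : Subgroup.center G, F ((x : G) * (z : G)) = F (x : G) := by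
      intro z
      rw [hFn, hFn]
      have h2 : (x : G) * (z : G) = (z : G) * (x : G) := Subgroup.mem_center_iff.mp z.2 x
      rw [h2, mix_central hirr z.2]
    simp only [h1]
    rw [Finset.sum_const, Finset.card_univ, Nat.card_eq_fintype_card, nsmul_eq_mul]
  have hsing := hS F hFcl
  have hRHS : ∑ᶠ (x : ↥(P : Subgroup G)) (_ : x ≠ 1), ∑ᶠ z : Subgroup.center G,
      F ((x : G) * (z : G)) = (Nat.card (Subgroup.center G) : ℂ) * (2 * (p : ℂ) - 4) := by
    simp only [hinner]
    have h1 := finsum_cond_eq_sum_of_cond_iff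
      (fun x : ↥(P : Subgroup G) => (Nat.card (Subgroup.center G) : ℂ) * F (x : G))
      (p := fun x => x ≠ 1) (t := (Finset.univ : Finset ↥(P : Subgroup G)).erase 1)
      (by intro x _; simp)
    rw [h1, ← Finset.mul_sum, hPsum]
  have hLHS : ∑ᶠ (g : G) (_ : p ∣ orderOf g), F g =
      ∑ g ∈ Finset.univ.filter (fun g : G => p ∣ orderOf g), F g := by
    apply finsum_cond_eq_sum_of_cond_iff
    intro x _
    simp
  rw [hRHS, hLHS] at hsing
  -- the regular part
  have hsplit : ∑ g ∈ Finset.univ.filter (fun g : G => p ∣ orderOf g), F g +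
      ∑ g ∈ Finset.univ.filter (fun g : G => ¬ p ∣ orderOf g), F g = (Nat.card G : ℂ) := by
    rw [Finset.sum_filter_add_sum_filter_not, htot]
  have hχ1 : χ 1 = ((p : ℂ) - 2) := by
    have h1 := Cfsg.Agent.H82.irr_one_eq_charDegree ⟨χ, hirr⟩
    have h2 := hyp.deg
    have h3 : (charDegree χ : ℂ) = (p : ℂ) - 2 := by
      have : ((charDegree χ + 2 : ℕ) : ℂ) = (p : ℂ) := by rw [h2]
      push_cast at this
      linear_combination this
    rw [← h3]
    exact h1
  have hFZ : ∀ g ∈ Subgroup.center G, F g = ((p : ℂ) - 2) ^ 2 := by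
    intro g hg
    rw [hFn]
    have h1 := mix_central hirr hg 1
    rw [mul_one] at h1
    rw [h1, hχ1]
    have : ((p : ℂ) - 2) = (((p : ℝ) - 2 : ℝ) : ℂ) := by push_cast; ring
    rw [this, Complex.normSq_ofReal]
    push_cast
    ring
  have hreg2 : ∀ g : G, g * g ∈ Subgroup.center G → ¬ p ∣ orderOf g := by
    intro g hgg h
    have h1 : ¬ p ∣ orderOf (g * g) := hyp.zreg _ hgg
    apply h1
    have h2 : g ^ (2 * orderOf (g * g)) = 1 := by
      rw [pow_mul, pow_two, pow_orderOf_eq_one]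
    have h3 : p ∣ 2 * orderOf (g * g) := h.trans (orderOf_dvd_of_pow_eq_one h2)
    rcases (Nat.Prime.dvd_mul hpp).mp h3 with h4 | h4
    · have := Nat.le_of_dvd (by norm_num) h4
      omega
    · exact h4
  have hterm : ∀ g : G, (if ¬ p ∣ orderOf g then F g else 0) =
      (if g ∈ Subgroup.center G then ((p : ℂ) - 2) ^ 2 else 0) +
      (if (g ∉ Subgroup.center G ∧ g * g ∈ Subgroup.center G) then 1 else 0) := by
    intro g
    by_cases hg : g ∈ Subgroup.center G
    · rw [if_pos (hyp.zreg g hg), if_pos hg,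
        if_neg (show ¬ (g ∉ Subgroup.center G ∧ g * g ∈ Subgroup.center G) from fun h => h.1 hg),
        hFZ g hg, add_zero]
    · by_cases hgg : g * g ∈ Subgroup.center G
      · rw [if_pos (hreg2 g hgg), if_neg hg, if_pos ⟨hg, hgg⟩, zero_add]
        exact hA g hg hgg
      · rw [if_neg hg,
          if_neg (show ¬ (g ∉ Subgroup.center G ∧ g * g ∈ Subgroup.center G) from
            fun h => hgg h.2), add_zero]
        by_cases hp : p ∣ orderOf g
        · rw [if_neg (not_not.mpr hp)]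
        · rw [if_pos hp]
          show χ g * conj (χ g) = 0
          rw [hB g hp hgg, zero_mul]
  have hregsum : ∑ g ∈ Finset.univ.filter (fun g : G => ¬ p ∣ orderOf g), F g =
      (Nat.card (Subgroup.center G) : ℂ) * ((p : ℂ) - 2) ^ 2 +
      (Nat.card (Subgroup.center G) : ℂ) *
        (Nat.card {t : G ⧸ Subgroup.center G // orderOf t = 2} : ℂ) := by
    rw [Finset.sum_filter]
    simp only [hterm]
    rw [Finset.sum_add_distrib, ← Finset.sum_filter, ← Finset.sum_filter, Finset.sum_const,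
      Finset.sum_const, nsmul_eq_mul, nsmul_eq_mul, mul_one, mom_count]
    have h1 : (Finset.univ.filter (fun g : G => g ∈ Subgroup.center G)).card =
        Nat.card (Subgroup.center G) := by
      rw [Nat.card_eq_fintype_card]
      symm
      apply Fintype.card_of_subtype
      intro g
      simp
    rw [h1]
    push_cast
    ring
  rw [hregsum] at hsplit
  -- conclude
  have hp2 : ((p - 2 : ℕ) : ℂ) = (p : ℂ) - 2 := by
    rw [Nat.cast_sub (by omega)]
    norm_num
  have hfinal : (2 : ℂ) * (Nat.card G : ℂ) = (p : ℂ) * (Nat.card (Subgroup.center G) : ℂ) *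
      (((p : ℂ) - 2) ^ 2 + (Nat.card {t : G ⧸ Subgroup.center G // orderOf t = 2} : ℂ)) := by
    have hp0 : (p : ℂ) ≠ 0 := by
      have : 0 < p := hpp.pos
      exact_mod_cast this.ne'
    set A := ∑ g ∈ Finset.univ.filter (fun g : G => p ∣ orderOf g), F g with hAdef
    set NG := (Nat.card G : ℂ) with hNG
    set NZ := (Nat.card (Subgroup.center G) : ℂ) with hNZ
    set I := (Nat.card {t : G ⧸ Subgroup.center G // orderOf t = 2} : ℂ) with hI
    -- hsing : 2 * p * NZ * A = NG * (NZ * (2 * p - 4))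
    -- hsplit : A + (NZ * (p - 2)^2 + NZ * I) = NG
    have h1 : NZ * ((2 : ℂ) * NG - (p : ℂ) * NZ * (((p : ℂ) - 2) ^ 2 + I)) = 0 := by
      linear_combination (1 / 2 : ℂ) * hsing - ((p : ℂ) * NZ) * hsplit
    rcases mul_eq_zero.mp h1 with h2 | h2
    · exact absurd h2 hZ0
    · linear_combination h2
  unfold MomC
  have : ((2 * Nat.card G : ℕ) : ℂ) = ((p * Nat.card (Subgroup.center G) *
      ((p - 2) ^ 2 + Nat.card {t : G ⧸ Subgroup.center G // orderOf t = 2}) : ℕ) : ℂ) := by
    push_cast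
    rw [hp2]
    exact hfinal
  exact_mod_cast this

example : Cfsg.Agent.H26.P2.StMom.{u} := mom

end Cfsg.Agent.H98.P2

#print axioms Cfsg.Agent.H98.P2.mom
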