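import Cfsg.Agent.H52.QSDefs
import Cfsg.Agent.H29.Dk8

/-!
# QS-P (helper98, for helper52's S2787): the braid relation for elements of order `p` in `PSL₂(F)`.
-/

set_option autoImplicit false

namespace Cfsg.Agent.H98.QS

open Cfsg.Agent.H52.QS Cfsg.Agent.H29.Dk Cfsg.Agent.H65.SL2

section

variable {F : Type*} [Field F]

/-- The Weyl element of `SL₂(F)`. -/
def wE : Matrix.SpecialLinearGroup (Fin 2) F := ⟨!![0, 1; -1, 0], by simp [Matrix.det_fin_two]⟩

theorem wE00 : (wE : Matrix.SpecialLinearGroup (Fin 2) F).1 0 0 = 0 := rfl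
theorem wE01 : (wE : Matrix.SpecialLinearGroup (Fin 2) F).1 0 1 = 1 := rfl
theorem wE10 : (wE : Matrix.SpecialLinearGroup (Fin 2) F).1 1 0 = -1 := rfl
theorem wE11 : (wE : Matrix.SpecialLinearGroup (Fin 2) F).1 1 1 = 0 := rfl

theorem wE_conj : wE * uT (1 : F) * wE⁻¹ = lT (-1) := by
  apply ext4 <;>
    simp [mul00, mul01, mul10, mul11, inv00, inv01, inv10, inv11, wE00, wE01, wE10, wE11]

theorem braid1 : uT (1 : F) * lT (-1) * uT 1 = wE := by
  apply ext4 <;> simp [mul00, mul01, mul10, mul11, wE00, wE01, wE10, wE11]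

theorem braid2 : lT (-1 : F) * uT 1 * lT (-1) = wE := by
  apply ext4 <;> simp [mul00, mul01, mul10, mul11, wE00, wE01, wE10, wE11]

theorem wE_sq_val : ((wE * wE : Matrix.SpecialLinearGroup (Fin 2) F)).1 = -1 := by
  ext i j
  fin_cases i <;> fin_cases j <;>
    simp [mul00, mul01, mul10, mul11, wE00, wE01, wE10, wE11]

/-- Central elements of `SL₂(F)` square to one. -/
theorem center_sq (ζ : Matrix.SpecialLinearGroup (Fin 2) F)
    (h : ζ ∈ Subgroup.center (Matrix.SpecialLinearGroup (Fin 2) F)) : ζ * ζ = 1 := by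
  obtain ⟨r, hr, hr'⟩ := Matrix.SpecialLinearGroup.mem_center_iff.mp h
  apply Subtype.ext
  have h1 : r * r = 1 := by simpa [pow_two] using hr
  rw [Matrix.SpecialLinearGroup.coe_mul, ← hr', ← map_mul, Matrix.SpecialLinearGroup.coe_one, h1,
    map_one]

/-- The projection `SL₂(F) → PSL₂(F)`. -/
def prj (F : Type*) [Field F] :
    Matrix.SpecialLinearGroup (Fin 2) F →* Matrix.ProjectiveSpecialLinearGroup (Fin 2) F :=
  QuotientGroup.mk' (Subgroup.center (Matrix.SpecialLinearGroup (Fin 2) F))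

theorem prj_surj (x : Matrix.ProjectiveSpecialLinearGroup (Fin 2) F) : ∃ M, prj F M = x :=
  QuotientGroup.mk'_surjective _ x

theorem prj_eq_one_iff (a : Matrix.SpecialLinearGroup (Fin 2) F) :
    prj F a = 1 ↔ a ∈ Subgroup.center (Matrix.SpecialLinearGroup (Fin 2) F) :=
  QuotientGroup.eq_one_iff a

theorem prj_eq_iff (a b : Matrix.SpecialLinearGroup (Fin 2) F) :
    prj F a = prj F b ↔ a⁻¹ * b ∈ Subgroup.center (Matrix.SpecialLinearGroup (Fin 2) F) :=
  QuotientGroup.eq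

end

/-- **QS-P**. -/
theorem stP : StP := by
  intro p _ hp2 F _ _ _ x hx1 hxp
  obtain ⟨M, hM⟩ := prj_surj x
  have hζ : M ^ p ∈ Subgroup.center (Matrix.SpecialLinearGroup (Fin 2) F) := by
    rw [← prj_eq_one_iff, map_pow, hM, hxp]
  obtain ⟨k, hk⟩ := (Fact.out : p.Prime).odd_of_ne_two hp2
  have hπM' : prj F (M ^ (p + 1)) = x := by
    rw [map_pow, hM, pow_succ, hxp, one_mul]
  have hM'p : (M ^ (p + 1)) ^ p = 1 := by
    have h1 : p + 1 = 2 * (k + 1) := by omega
    rw [← pow_mul, mul_comm, pow_mul, h1, pow_mul, pow_two, center_sq _ hζ, one_pow]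
  have hM'1 : M ^ (p + 1) ≠ 1 := by
    intro h
    apply hx1
    rw [← hπM', h, map_one]
  have htr : tr (M ^ (p + 1)) = 2 := tr_eq_two_of_pow p (M ^ (p + 1)) 1 (by rwa [pow_one])
  obtain ⟨γ, hγ, hc⟩ := exists_conj_uT (M ^ (p + 1)) htr hM'1
  have hcinj := conjHom_injective γ hγ
  have hx : x = prj F (conjHom γ hγ (uT 1)) := by rw [hc, hπM']
  have hy : prj F (conjHom γ hγ wE) * x * (prj F (conjHom γ hγ wE))⁻¹ =
      prj F (conjHom γ hγ (lT (-1))) := by
    rw [hx, ← map_inv, ← map_mul, ← map_mul, ← map_inv, ← map_mul, ← map_mul, wE_conj]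
  have hxyx : x * prj F (conjHom γ hγ (lT (-1))) * x = prj F (conjHom γ hγ wE) := by
    rw [hx]
    simp only [← map_mul]
    rw [braid1]
  have hyxy : prj F (conjHom γ hγ (lT (-1))) * x * prj F (conjHom γ hγ (lT (-1))) =
      prj F (conjHom γ hγ wE) := by
    rw [hx]
    simp only [← map_mul]
    rw [braid2]
  refine ⟨prj F (conjHom γ hγ wE), ?_, ?_, ?_⟩
  · rw [hy, hx]
    intro h
    have h1 := (prj_eq_iff _ _).mp h
    have h2 := Subgroup.mem_center_iff.mp h1 (conjHom γ hγ (lT (-1)))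
    have h4 : conjHom γ hγ (uT 1) =
        (conjHom γ hγ (lT (-1)))⁻¹ * conjHom γ hγ (uT 1) * conjHom γ hγ (lT (-1)) := by
      rw [← h2]; group
    have h3 : conjHom γ hγ (lT (-1) * uT 1) = conjHom γ hγ (uT 1 * lT (-1)) := by
      rw [map_mul, map_mul]
      calc conjHom γ hγ (lT (-1)) * conjHom γ hγ (uT 1)
          = conjHom γ hγ (lT (-1)) *
            ((conjHom γ hγ (lT (-1)))⁻¹ * conjHom γ hγ (uT 1) * conjHom γ hγ (lT (-1))) := by
            rw [← h4]
        _ = conjHom γ hγ (uT 1) * conjHom γ hγ (lT (-1)) := by group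
    have h5 := hcinj h3
    have h6 := congrArg (fun A : Matrix.SpecialLinearGroup (Fin 2) F => A.1 0 0) h5
    simp [mul00] at h6
  · rw [hy, hxyx, hyxy]
  · rw [hy, hxyx, ← map_mul, ← map_mul, prj_eq_one_iff, Subgroup.mem_center_iff]
    intro h
    apply Subtype.ext
    have h7 : γ * (-1 : Matrix (Fin 2) (Fin 2) F) * γ⁻¹ = -1 := by
      rw [Matrix.mul_neg, Matrix.mul_one, Matrix.neg_mul,
        Matrix.mul_nonsing_inv γ (isUnit_iff_ne_zero.2 hγ)]
    rw [Matrix.SpecialLinearGroup.coe_mul, Matrix.SpecialLinearGroup.coe_mul, conjHom_coe, wE_sq_val,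
      h7]
    simp

end Cfsg.Agent.H98.QS
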