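import Cfsg.Agent.H52.QSDefs

/-!
# QS-SECB (helper98, for helper52's S2787): `SL₂(K)` acts on `W × W` through a ring homomorphism
`K → End W`.
-/

set_option autoImplicit false

namespace Cfsg.Agent.H98.QS

open Cfsg.Agent.H52.QS

universe u

section

variable {p : ℕ} {K : Type} [Field K] {W : Type u} [AddCommGroup W] [Module (ZMod p) W]

/-- The endomorphism of `W × W` attached to a `2 × 2` matrix through `r`. -/
def phi (r : K →+* Module.End (ZMod p) W) (A : Matrix (Fin 2) (Fin 2) K) :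
    Module.End (ZMod p) (W × W) :=
  LinearMap.prod
    ((r (A 0 0)).comp (LinearMap.fst (ZMod p) W W) + (r (A 0 1)).comp (LinearMap.snd (ZMod p) W W))
    ((r (A 1 0)).comp (LinearMap.fst (ZMod p) W W) + (r (A 1 1)).comp (LinearMap.snd (ZMod p) W W))

theorem phi_apply (r : K →+* Module.End (ZMod p) W) (A : Matrix (Fin 2) (Fin 2) K) (w₁ w₂ : W) :
    phi r A (w₁, w₂) = (r (A 0 0) w₁ + r (A 0 1) w₂, r (A 1 0) w₁ + r (A 1 1) w₂) := rfl

theorem phi_one (r : K →+* Module.End (ZMod p) W) : phi r 1 = 1 := by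
  apply LinearMap.ext
  rintro ⟨w₁, w₂⟩
  rw [phi_apply]
  simp

theorem phi_mul (r : K →+* Module.End (ZMod p) W) (A B : Matrix (Fin 2) (Fin 2) K) :
    phi r (A * B) = phi r A * phi r B := by
  apply LinearMap.ext
  rintro ⟨w₁, w₂⟩
  rw [Module.End.mul_apply, phi_apply, phi_apply, phi_apply]
  simp only [Matrix.mul_apply, Fin.sum_univ_two, map_add, map_mul, LinearMap.add_apply,
    Module.End.mul_apply]
  ext <;> simp <;> abel

end

/-- **QS-SECB**. -/
theorem secB : StSecB.{u} := by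
  intro p _ K _ W _ _ r
  refine ⟨{ toFun := fun d => phi r d.1, map_one' := ?_, map_mul' := ?_ }, ?_, ?_⟩
  · show phi r (1 : Matrix.SpecialLinearGroup (Fin 2) K).1 = 1
    rw [Matrix.SpecialLinearGroup.coe_one, phi_one]
  · intro a b
    show phi r (a * b).1 = phi r a.1 * phi r b.1
    rw [Matrix.SpecialLinearGroup.coe_mul, phi_mul]
  · intro d w₁ w₂
    rfl
  · intro hW d d' h
    obtain ⟨w, hw⟩ := exists_ne (0 : W)
    have hr : ∀ a : K, r a = 0 → a = 0 := by
      intro a ha
      by_contra hne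
      have h1 : r (a⁻¹ * a) w = w := by rw [inv_mul_cancel₀ hne, map_one]; rfl
      rw [map_mul, ha, mul_zero] at h1
      exact hw h1.symm
    have hr' : ∀ a b : K, r a = r b → a = b := by
      intro a b hab
      have := hr (a - b) (by rw [map_sub, hab, sub_self])
      exact sub_eq_zero.mp this
    have h' : phi r d.1 = phi r d'.1 := h
    have e1 : ∀ w₁ : W, phi r d.1 (w₁, 0) = phi r d'.1 (w₁, 0) := fun w₁ => by rw [h']
    have e2 : ∀ w₂ : W, phi r d.1 (0, w₂) = phi r d'.1 (0, w₂) := fun w₂ => by rw [h']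
    simp only [phi_apply, map_zero, add_zero, zero_add, Prod.mk.injEq] at e1 e2
    apply Subtype.ext
    ext i j
    fin_cases i <;> fin_cases j
    · exact hr' _ _ (LinearMap.ext fun w₁ => (e1 w₁).1)
    · exact hr' _ _ (LinearMap.ext fun w₂ => (e2 w₂).1)
    · exact hr' _ _ (LinearMap.ext fun w₁ => (e1 w₁).2)
    · exact hr' _ _ (LinearMap.ext fun w₂ => (e2 w₂).2)

end Cfsg.Agent.H98.QS
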