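import Mathlib

set_option autoImplicit false

namespace Cfsg.Agent.H98.SelfDual

open Module

variable {F : Type*} [Field F] {G : Type*} [Group G] {V : Type*} [AddCommGroup V] [Module F V]

theorem rho_self_inv (ρ : Representation F G V) (g : G) (v : V) : ρ g (ρ g⁻¹ v) = v := by
  rw [← Module.End.mul_apply, ← map_mul, mul_inv_cancel, map_one, Module.End.one_apply]

/-- Maschke: an invariant subspace has an invariant complement. -/
theorem exists_inv_compl [Finite G] [NeZero (Nat.card G : F)] (ρ : Representation F G V)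
    (N : Submodule F V) (hN : ∀ g, ∀ v ∈ N, ρ g v ∈ N) :
    ∃ N' : Submodule F V, (∀ g, ∀ v ∈ N', ρ g v ∈ N') ∧ IsCompl N N' := by
  let N₀ : Subrepresentation ρ := ⟨N, fun g v hv => hN g v hv⟩
  obtain ⟨q, hq⟩ := MonoidAlgebra.Submodule.exists_isCompl
    (Subrepresentation.subrepresentationSubmoduleOrderIso N₀)
  let q' : Subrepresentation ρ := Subrepresentation.subrepresentationSubmoduleOrderIso.symm q
  have h1 : IsCompl N₀ q' := by
    rw [Subrepresentation.subrepresentationSubmoduleOrderIso.isCompl_iff]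
    simpa [q'] using hq
  refine ⟨q'.toSubmodule, fun g v hv => q'.apply_mem_toSubmodule g hv, ?_⟩
  constructor
  · rw [disjoint_iff]
    exact congrArg Subrepresentation.toSubmodule h1.1.eq_bot
  · rw [codisjoint_iff]
    exact congrArg Subrepresentation.toSubmodule h1.2.eq_top

theorem exists_perp_decomp [FiniteDimensional F V] (B : LinearMap.BilinForm F V) (H : Submodule F V)
    (hnd : ∀ y ∈ H, (∀ x ∈ H, B x y = 0) → y = 0) (u : V) :
    ∃ h ∈ H, ∀ x ∈ H, B x (u - h) = 0 := by
  let φ : ↥H →ₗ[F] Module.Dual F ↥H := (LinearMap.flip B).domRestrict₁₂ H H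
  have hφ : ∀ (h x : ↥H), φ h x = B (x : V) (h : V) := fun h x => rfl
  have hinj : Function.Injective φ := by
    rw [injective_iff_map_eq_zero]
    intro h hh
    apply Subtype.ext
    apply hnd h h.2
    intro x hx
    have h1 := hφ h ⟨x, hx⟩
    rw [hh, LinearMap.zero_apply] at h1
    exact h1.symm
  have hsurj : Function.Surjective φ :=
    (LinearMap.injective_iff_surjective_of_finrank_eq_finrank
      (Subspace.dual_finrank_eq).symm).mp hinj
  obtain ⟨h, hh⟩ := hsurj ((LinearMap.flip B u).domRestrict H)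
  refine ⟨h, h.2, fun x hx => ?_⟩
  have h1 := hφ h ⟨x, hx⟩
  rw [hh] at h1
  have h2 : B x u = B x h := h1
  rw [map_sub, h2, sub_self]

theorem isCompl_aux (U H H' C : Submodule F V) (hdis : H ⊓ H' = ⊥) (hsup : H ⊔ H' = U)
    (hC : IsCompl U C) : IsCompl H (H' ⊔ C) := by
  have hHU : H ≤ U := le_sup_left.trans hsup.le
  have hH'U : H' ≤ U := le_sup_right.trans hsup.le
  constructor
  · rw [Submodule.disjoint_def]
    intro x hx hx'
    obtain ⟨h', hh', c, hc, rfl⟩ := Submodule.mem_sup.mp hx'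
    have hcU : c ∈ U := by
      have : c = (h' + c) - h' := by abel
      rw [this]
      exact U.sub_mem (hHU hx) (hH'U hh')
    have hc0 : c = 0 := by
      have : c ∈ U ⊓ C := ⟨hcU, hc⟩
      rw [hC.inf_eq_bot] at this
      exact (Submodule.mem_bot F).mp this
    subst hc0
    rw [add_zero] at hx ⊢
    have : h' ∈ H ⊓ H' := ⟨hx, hh'⟩
    rw [hdis] at this
    exact (Submodule.mem_bot F).mp this
  · rw [codisjoint_iff, ← sup_assoc, hsup]
    exact hC.sup_eq_top

theorem proj_pair (U H H' : Submodule F V) (hdis : H ⊓ H' = ⊥) (hsup : H ⊔ H' = U) :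
    ∃ π π' : V →ₗ[F] V, (∀ h ∈ H, π h = h) ∧ (∀ h' ∈ H', π h' = 0) ∧
      (∀ h ∈ H, π' h = 0) ∧ (∀ h' ∈ H', π' h' = h') := by
  obtain ⟨C, hC⟩ := Submodule.exists_isCompl U
  have c1 := isCompl_aux U H H' C hdis hsup hC
  have c2 := isCompl_aux U H' H C (by rw [inf_comm]; exact hdis) (by rw [sup_comm]; exact hsup) hC
  refine ⟨H.projection (H' ⊔ C) c1, H'.projection (H ⊔ C) c2, ?_, ?_, ?_, ?_⟩
  · intro h hh
    exact Submodule.projection_apply_of_mem_left c1 hh
  · intro h' hh'
    exact Submodule.projection_apply_of_mem_right c1 (Submodule.mem_sup_left hh')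
  · intro h hh
    exact Submodule.projection_apply_of_mem_right c2 (Submodule.mem_sup_left hh)
  · intro h' hh'
    exact Submodule.projection_apply_of_mem_left c2 hh'

/-- `U` carries a bilinear form that is alternating, invariant and nondegenerate on `U`. -/
def AltOn (ρ : Representation F G V) (U : Submodule F V) : Prop :=
  ∃ A : LinearMap.BilinForm F V, (∀ x ∈ U, A x x = 0) ∧
    (∀ g : G, ∀ x ∈ U, ∀ y ∈ U, A (ρ g x) (ρ g y) = A x y) ∧
    (∀ x ∈ U, (∀ y ∈ U, A x y = 0) → x = 0)

theorem AltOn.glue (ρ : Representation F G V) (U H H' : Submodule F V)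
    (hH : ∀ g, ∀ v ∈ H, ρ g v ∈ H) (hH' : ∀ g, ∀ v ∈ H', ρ g v ∈ H')
    (hdis : H ⊓ H' = ⊥) (hsup : H ⊔ H' = U) (h1 : AltOn ρ H) (h2 : AltOn ρ H') : AltOn ρ U := by
  obtain ⟨A₁, a1, i1, n1⟩ := h1
  obtain ⟨A₂, a2, i2, n2⟩ := h2
  obtain ⟨π, π', p1, p2, p3, p4⟩ := proj_pair U H H' hdis hsup
  have key : ∀ x ∈ U, ∃ h ∈ H, ∃ h' ∈ H', x = h + h' ∧ π x = h ∧ π' x = h' := by
    intro x hx
    rw [← hsup] at hx
    obtain ⟨h, hh, h', hh', rfl⟩ := Submodule.mem_sup.mp hx
    refine ⟨h, hh, h', hh', rfl, ?_, ?_⟩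
    · rw [map_add, p1 h hh, p2 h' hh', add_zero]
    · rw [map_add, p3 h hh, p4 h' hh', zero_add]
  have keyg : ∀ g, ∀ h ∈ H, ∀ h' ∈ H',
      π (ρ g (h + h')) = ρ g h ∧ π' (ρ g (h + h')) = ρ g h' := by
    intro g h hh h' hh'
    constructor
    · rw [map_add, map_add, p1 _ (hH g h hh), p2 _ (hH' g h' hh'), add_zero]
    · rw [map_add, map_add, p3 _ (hH g h hh), p4 _ (hH' g h' hh'), zero_add]
  have hHU : H ≤ U := le_sup_left.trans hsup.le
  have hH'U : H' ≤ U := le_sup_right.trans hsup.le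
  refine ⟨A₁.compl₁₂ π π + A₂.compl₁₂ π' π', ?_, ?_, ?_⟩
  · intro x hx
    obtain ⟨h, hh, h', hh', -, e1, e2⟩ := key x hx
    simp only [LinearMap.add_apply, LinearMap.compl₁₂_apply, e1, e2]
    rw [a1 h hh, a2 h' hh', add_zero]
  · intro g x hx y hy
    obtain ⟨h, hh, h', hh', rfl, e1, e2⟩ := key x hx
    obtain ⟨k, hk, k', hk', rfl, e3, e4⟩ := key y hy
    obtain ⟨g1, g2⟩ := keyg g h hh h' hh'
    obtain ⟨g3, g4⟩ := keyg g k hk k' hk'
    simp only [LinearMap.add_apply, LinearMap.compl₁₂_apply, e1, e2, e3, e4, g1, g2, g3, g4]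
    rw [i1 g h hh k hk, i2 g h' hh' k' hk']
  · intro x hx hxy
    obtain ⟨h, hh, h', hh', rfl, e1, e2⟩ := key x hx
    have hh0 : h = 0 := by
      apply n1 h hh
      intro k hk
      have := hxy k (hHU hk)
      simp only [LinearMap.add_apply, LinearMap.compl₁₂_apply, e1, e2, p1 k hk, p3 k hk,
        map_zero, add_zero] at this
      exact this
    have hh'0 : h' = 0 := by
      apply n2 h' hh'
      intro k' hk'
      have := hxy k' (hH'U hk')
      simp only [LinearMap.add_apply, LinearMap.compl₁₂_apply, e1, e2, p2 k' hk', p4 k' hk',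
        map_zero, zero_add] at this
      exact this
    rw [hh0, hh'0, add_zero]

theorem AltOn.hyp [CharP F 2] (ρ : Representation F G V) (B : LinearMap.BilinForm F V)
    (R T : Submodule F V)
    (hR : ∀ g, ∀ v ∈ R, ρ g v ∈ R) (hT : ∀ g, ∀ v ∈ T, ρ g v ∈ T) (hdis : R ⊓ T = ⊥)
    (hinv : ∀ g, ∀ r ∈ R, ∀ t ∈ T, B (ρ g r) (ρ g t) = B r t)
    (hl : ∀ r ∈ R, (∀ t ∈ T, B r t = 0) → r = 0)
    (hr : ∀ t ∈ T, (∀ r ∈ R, B r t = 0) → t = 0) :
    AltOn ρ (R ⊔ T) := by
  obtain ⟨π, π', p1, p2, p3, p4⟩ := proj_pair (R ⊔ T) R T hdis rfl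
  have key : ∀ x ∈ R ⊔ T, ∃ r ∈ R, ∃ t ∈ T, x = r + t ∧ π x = r ∧ π' x = t := by
    intro x hx
    obtain ⟨h, hh, h', hh', rfl⟩ := Submodule.mem_sup.mp hx
    refine ⟨h, hh, h', hh', rfl, ?_, ?_⟩
    · rw [map_add, p1 h hh, p2 h' hh', add_zero]
    · rw [map_add, p3 h hh, p4 h' hh', zero_add]
  have keyg : ∀ g, ∀ h ∈ R, ∀ h' ∈ T,
      π (ρ g (h + h')) = ρ g h ∧ π' (ρ g (h + h')) = ρ g h' := by
    intro g h hh h' hh'
    constructor
    · rw [map_add, map_add, p1 _ (hR g h hh), p2 _ (hT g h' hh'), add_zero]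
    · rw [map_add, map_add, p3 _ (hR g h hh), p4 _ (hT g h' hh'), zero_add]
  refine ⟨B.compl₁₂ π π' + LinearMap.flip (B.compl₁₂ π π'), ?_, ?_, ?_⟩
  · intro x _
    simp only [LinearMap.add_apply, LinearMap.flip_apply, LinearMap.compl₁₂_apply]
    exact CharTwo.add_self_eq_zero _
  · intro g x hx y hy
    obtain ⟨r, hr', t, ht, rfl, e1, e2⟩ := key x hx
    obtain ⟨s, hs, u, hu, rfl, e3, e4⟩ := key y hy
    obtain ⟨g1, g2⟩ := keyg g r hr' t ht
    obtain ⟨g3, g4⟩ := keyg g s hs u hu
    simp only [LinearMap.add_apply, LinearMap.flip_apply, LinearMap.compl₁₂_apply, e1, e2, e3, e4,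
      g1, g2, g3, g4]
    rw [hinv g r hr' u hu, hinv g s hs t ht]
  · intro x hx hxy
    obtain ⟨r, hr', t, ht, rfl, e1, e2⟩ := key x hx
    have hr0 : r = 0 := by
      apply hl r hr'
      intro u hu
      have := hxy u (Submodule.mem_sup_right hu)
      simp only [LinearMap.add_apply, LinearMap.flip_apply, LinearMap.compl₁₂_apply, e1, e2,
        p2 u hu, p4 u hu, map_zero, LinearMap.zero_apply, add_zero] at this
      exact this
    have ht0 : t = 0 := by
      apply hr t ht
      intro s hs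
      have := hxy s (Submodule.mem_sup_left hs)
      simp only [LinearMap.add_apply, LinearMap.flip_apply, LinearMap.compl₁₂_apply, e1, e2,
        p1 s hs, p3 s hs, map_zero, zero_add] at this
      exact this
    rw [hr0, ht0, add_zero]

theorem AltOn.case0 [CharP F 2] (ρ : Representation F G V) (B : LinearMap.BilinForm F V)
    (U : Submodule F V)
    (hinv : ∀ g, ∀ x ∈ U, ∀ y ∈ U, B (ρ g x) (ρ g y) = B x y)
    (h0 : ∀ x ∈ U, (∀ y ∈ U, B x y = B y x) → x = 0) : AltOn ρ U := by
  refine ⟨B + LinearMap.flip B, ?_, ?_, ?_⟩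
  · intro x _
    simp only [LinearMap.add_apply, LinearMap.flip_apply]
    exact CharTwo.add_self_eq_zero _
  · intro g x hx y hy
    simp only [LinearMap.add_apply, LinearMap.flip_apply]
    rw [hinv g x hx y hy, hinv g y hy x hx]
  · intro x hx hxy
    apply h0 x hx
    intro y hy
    have := hxy y hy
    simp only [LinearMap.add_apply, LinearMap.flip_apply] at this
    exact CharTwo.add_eq_zero.mp this

theorem altOn_of_form [Finite G] [FiniteDimensional F V] [CharP F 2] [NeZero (Nat.card G : F)]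
    (ρ : Representation F G V) :
    ∀ n : ℕ, ∀ U : Submodule F V, finrank F U ≤ n → (∀ g, ∀ v ∈ U, ρ g v ∈ U) →
      (∀ u ∈ U, (∀ g, ρ g u = u) → u = 0) → ∀ B : LinearMap.BilinForm F V,
      (∀ g, ∀ x ∈ U, ∀ y ∈ U, B (ρ g x) (ρ g y) = B x y) →
      (∀ y ∈ U, (∀ x ∈ U, B x y = 0) → y = 0) → AltOn ρ U := by
  classical
  haveI : Fintype G := Fintype.ofFinite G
  intro n
  induction n with
  | zero =>
    intro U hn hU hfix B hinv hnd
    have hbot : U = ⊥ := Submodule.finrank_eq_zero.mp (Nat.le_zero.mp hn)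
    apply AltOn.case0 ρ B U hinv
    intro x hx _
    rw [hbot] at hx
    exact (Submodule.mem_bot F).mp hx
  | succ n ih =>
    intro U hn hU hfix B hinv hnd
    by_cases h0 : ∀ x ∈ U, (∀ y ∈ U, B x y = B y x) → x = 0
    · exact AltOn.case0 ρ B U hinv h0
    obtain ⟨x₀, hx₀⟩ := not_forall.mp h0
    obtain ⟨hx₀U, hx₀'⟩ := Classical.not_imp.mp hx₀
    obtain ⟨hx₀sym, hx₀ne⟩ := Classical.not_imp.mp hx₀'
    let R : Submodule F V :=
      { carrier := {x | x ∈ U ∧ ∀ y ∈ U, B x y = B y x}
        add_mem' := by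
          rintro a b ⟨ha, ha'⟩ ⟨hb, hb'⟩
          refine ⟨U.add_mem ha hb, fun y hy => ?_⟩
          rw [map_add, LinearMap.add_apply, map_add, ha' y hy, hb' y hy]
        zero_mem' := ⟨U.zero_mem, fun y _ => by simp⟩
        smul_mem' := by
          rintro c a ⟨ha, ha'⟩
          refine ⟨U.smul_mem c ha, fun y hy => ?_⟩
          rw [map_smul, LinearMap.smul_apply, map_smul, ha' y hy] }
    have hRU : R ≤ U := fun x hx => hx.1
    have hRsym : ∀ x ∈ R, ∀ y ∈ U, B x y = B y x := fun x hx => hx.2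
    have hmove : ∀ g, ∀ x ∈ U, ∀ y ∈ U, B (ρ g x) y = B x (ρ g⁻¹ y) := by
      intro g x hx y hy
      have := hinv g x hx (ρ g⁻¹ y) (hU g⁻¹ y hy)
      rwa [rho_self_inv] at this
    have hmove' : ∀ g, ∀ x ∈ U, ∀ y ∈ U, B x (ρ g y) = B (ρ g⁻¹ x) y := by
      intro g x hx y hy
      have := hinv g (ρ g⁻¹ x) (hU g⁻¹ x hx) y hy
      rwa [rho_self_inv] at this
    have hRinv : ∀ g, ∀ v ∈ R, ρ g v ∈ R := by
      intro g v hv
      refine ⟨hU g v hv.1, fun y hy => ?_⟩
      rw [hmove g v hv.1 y hy, hv.2 _ (hU g⁻¹ y hy), hmove' g y hy v hv.1]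
    have hRalt : ∀ x ∈ R, B x x = 0 := by
      intro x hx
      have hsum : ∀ S : Finset G, (∑ g ∈ S, ρ g x) ∈ R ∧
          B (∑ g ∈ S, ρ g x) (∑ g ∈ S, ρ g x) = (S.card : F) * B x x := by
        intro S
        induction S using Finset.induction_on with
        | empty => exact ⟨by simpa using R.zero_mem, by simp⟩
        | insert a S ha ihS =>
          obtain ⟨m, e⟩ := ihS
          have hax : ρ a x ∈ R := hRinv a x hx
          rw [Finset.sum_insert ha, Finset.card_insert_of_notMem ha]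
          refine ⟨R.add_mem hax m, ?_⟩
          simp only [map_add, LinearMap.add_apply]
          rw [e, hRsym _ hax _ (hRU m), hinv a x hx.1 x hx.1]
          have h2 := CharTwo.add_self_eq_zero (B (∑ g ∈ S, ρ g x) (ρ a x))
          push_cast
          linear_combination h2
      have hs := hsum Finset.univ
      have hfixs : ∀ g, ρ g (∑ h : G, ρ h x) = ∑ h : G, ρ h x := by
        intro g
        rw [map_sum]
        refine Fintype.sum_equiv (Equiv.mulLeft g) _ _ (fun h => ?_)
        show ρ g (ρ h x) = ρ (g * h) x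
        rw [map_mul, Module.End.mul_apply]
      have hs0 : (∑ h : G, ρ h x) = 0 := hfix _ (hRU hs.1) hfixs
      have h3 := hs.2
      rw [hs0] at h3
      simp only [map_zero, LinearMap.zero_apply, Finset.card_univ] at h3
      have hcard : (Fintype.card G : F) ≠ 0 := by
        rw [Fintype.card_eq_nat_card]; exact NeZero.ne _
      exact (mul_eq_zero.mp h3.symm).resolve_left hcard
    have hR0 : x₀ ∈ R := ⟨hx₀U, hx₀sym⟩
    have hH : ∃ H : Submodule F V, H ≤ U ∧ (∀ g, ∀ v ∈ H, ρ g v ∈ H) ∧ H ≠ ⊥ ∧ AltOn ρ H ∧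
        (∀ y ∈ H, (∀ x ∈ H, B x y = 0) → y = 0) := by
      by_cases hc : ∃ a ∈ R, ∃ b ∈ R, B a b ≠ 0
      · obtain ⟨a, haR, b, hbR, hab⟩ := hc
        let R₀ : Submodule F V :=
          { carrier := {x | x ∈ R ∧ ∀ y ∈ R, B x y = 0}
            add_mem' := by
              rintro a b ⟨ha, ha'⟩ ⟨hb, hb'⟩
              refine ⟨R.add_mem ha hb, fun y hy => ?_⟩
              rw [map_add, LinearMap.add_apply, ha' y hy, hb' y hy, add_zero]
            zero_mem' := ⟨R.zero_mem, fun y _ => by simp⟩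
            smul_mem' := by
              rintro c a ⟨ha, ha'⟩
              refine ⟨R.smul_mem c ha, fun y hy => ?_⟩
              rw [map_smul, LinearMap.smul_apply, ha' y hy, smul_zero] }
        have hR₀inv : ∀ g, ∀ v ∈ R₀, ρ g v ∈ R₀ := by
          intro g v hv
          refine ⟨hRinv g v hv.1, fun y hy => ?_⟩
          rw [hmove g v (hRU hv.1) y (hRU hy)]
          exact hv.2 _ (hRinv g⁻¹ y hy)
        obtain ⟨N', hN'inv, hN'⟩ := exists_inv_compl ρ R₀ hR₀inv
        let R₁ : Submodule F V := N' ⊓ R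
        have hR₁R : R₁ ≤ R := inf_le_right
        have hsplit : ∀ r ∈ R, ∃ r₀ ∈ R₀, ∃ r₁ ∈ R₁, r = r₀ + r₁ := by
          intro r hr
          have : r ∈ R₀ ⊔ N' := by rw [hN'.sup_eq_top]; exact Submodule.mem_top
          obtain ⟨r₀, hr₀, n', hn', rfl⟩ := Submodule.mem_sup.mp this
          refine ⟨r₀, hr₀, n', ⟨hn', ?_⟩, rfl⟩
          have : n' = (r₀ + n') - r₀ := by abel
          rw [this]
          exact R.sub_mem hr hr₀.1
        have hnd1 : ∀ y ∈ R₁, (∀ x ∈ R₁, B x y = 0) → y = 0 := by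
          intro y hy hxy
          have hyR₀ : y ∈ R₀ := by
            refine ⟨hy.2, fun r hr => ?_⟩
            obtain ⟨r₀, hr₀, r₁, hr₁, rfl⟩ := hsplit r hr
            rw [hRsym y hy.2 _ (hRU hr), map_add, LinearMap.add_apply, hr₀.2 y hy.2,
              hxy r₁ hr₁, add_zero]
          have : y ∈ R₀ ⊓ N' := ⟨hyR₀, hy.1⟩
          rw [hN'.inf_eq_bot] at this
          exact (Submodule.mem_bot F).mp this
        refine ⟨R₁, hR₁R.trans hRU, ?_, ?_, ⟨B, ?_, ?_, ?_⟩, hnd1⟩
        · intro g v hv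
          exact ⟨hN'inv g v hv.1, hRinv g v hv.2⟩
        · intro hbot
          apply hab
          obtain ⟨r₀, hr₀, r₁, hr₁, rfl⟩ := hsplit a haR
          have : r₁ = 0 := by
            have h := hr₁
            rw [hbot] at h
            exact (Submodule.mem_bot F).mp h
          rw [this, add_zero]
          exact hr₀.2 b hbR
        · intro x hx; exact hRalt x hx.2
        · intro g x hx y hy; exact hinv g x (hRU hx.2) y (hRU hy.2)
        · intro x hx hxy
          apply hnd1 x hx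
          intro y hy
          rw [← hRsym x hx.2 y (hRU hy.2)]
          exact hxy y hy
      · have hc' : ∀ a ∈ R, ∀ b ∈ R, B a b = 0 :=
          fun a ha b hb => by_contra (fun h => hc ⟨a, ha, b, hb, h⟩)
        let Rp : Submodule F V :=
          { carrier := {y | y ∈ U ∧ ∀ r ∈ R, B r y = 0}
            add_mem' := by
              rintro a b ⟨ha, ha'⟩ ⟨hb, hb'⟩
              refine ⟨U.add_mem ha hb, fun r hr => ?_⟩
              rw [map_add, ha' r hr, hb' r hr, add_zero]
            zero_mem' := ⟨U.zero_mem, fun r _ => by simp⟩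
            smul_mem' := by
              rintro c a ⟨ha, ha'⟩
              refine ⟨U.smul_mem c ha, fun r hr => ?_⟩
              rw [map_smul, ha' r hr, smul_zero] }
        have hRpinv : ∀ g, ∀ v ∈ Rp, ρ g v ∈ Rp := by
          intro g v hv
          refine ⟨hU g v hv.1, fun r hr => ?_⟩
          rw [hmove' g r (hRU hr) v hv.1]
          exact hv.2 _ (hRinv g⁻¹ r hr)
        have hRRp : R ≤ Rp := fun r hr => ⟨hRU hr, fun r' hr' => hc' r' hr' r hr⟩
        obtain ⟨N', hN'inv, hN'⟩ := exists_inv_compl ρ Rp hRpinv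
        let T : Submodule F V := N' ⊓ U
        have hTU : T ≤ U := inf_le_right
        have hTinv : ∀ g, ∀ v ∈ T, ρ g v ∈ T :=
          fun g v hv => ⟨hN'inv g v hv.1, hU g v hv.2⟩
        have hsplit : ∀ u ∈ U, ∃ y ∈ Rp, ∃ t ∈ T, u = y + t := by
          intro u hu
          have : u ∈ Rp ⊔ N' := by rw [hN'.sup_eq_top]; exact Submodule.mem_top
          obtain ⟨y, hy, n', hn', rfl⟩ := Submodule.mem_sup.mp this
          refine ⟨y, hy, n', ⟨hn', ?_⟩, rfl⟩
          have : n' = (y + n') - y := by abel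
          rw [this]
          exact U.sub_mem hu hy.1
        have hTRp : ∀ t ∈ T, t ∈ Rp → t = 0 := by
          intro t ht ht'
          have : t ∈ Rp ⊓ N' := ⟨ht', ht.1⟩
          rw [hN'.inf_eq_bot] at this
          exact (Submodule.mem_bot F).mp this
        have hl : ∀ r ∈ R, (∀ t ∈ T, B r t = 0) → r = 0 := by
          intro r hr hrt
          apply hnd r (hRU hr)
          intro u hu
          obtain ⟨y, hy, t, ht, rfl⟩ := hsplit u hu
          rw [← hRsym r hr _ hu, map_add, hy.2 r hr, hrt t ht, add_zero]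
        have hrr : ∀ t ∈ T, (∀ r ∈ R, B r t = 0) → t = 0 :=
          fun t ht h => hTRp t ht ⟨hTU ht, h⟩
        have hdis : R ⊓ T = ⊥ := by
          rw [eq_bot_iff]
          intro x hx
          exact (Submodule.mem_bot F).mpr (hTRp x hx.2 (hRRp hx.1))
        refine ⟨R ⊔ T, sup_le hRU hTU, ?_, ?_, ?_, ?_⟩
        · intro g v hv
          obtain ⟨r, hr, t, ht, rfl⟩ := Submodule.mem_sup.mp hv
          rw [map_add]
          exact Submodule.add_mem_sup (hRinv g r hr) (hTinv g t ht)
        · intro hbot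
          apply hx₀ne
          have : x₀ ∈ R ⊔ T := Submodule.mem_sup_left hR0
          rw [hbot] at this
          exact (Submodule.mem_bot F).mp this
        · exact AltOn.hyp ρ B R T hRinv hTinv hdis
            (fun g r hr t ht => hinv g r (hRU hr) t (hTU ht)) hl hrr
        · intro y hy hxy
          obtain ⟨r, hr, t, ht, rfl⟩ := Submodule.mem_sup.mp hy
          have ht0 : t = 0 := by
            apply hrr t ht
            intro r' hr'
            have := hxy r' (Submodule.mem_sup_left hr')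
            rw [map_add, hc' r' hr' r hr, zero_add] at this
            exact this
          subst ht0
          rw [add_zero]
          apply hl r hr
          intro t' ht'
          have := hxy t' (Submodule.mem_sup_right ht')
          rw [add_zero] at this
          rw [hRsym r hr t' (hTU ht')]
          exact this
    obtain ⟨H, hHU, hHinv, hHne, hHalt, hHnd⟩ := hH
    let H' : Submodule F V :=
      { carrier := {y | y ∈ U ∧ ∀ h ∈ H, B h y = 0}
        add_mem' := by
          rintro a b ⟨ha, ha'⟩ ⟨hb, hb'⟩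
          refine ⟨U.add_mem ha hb, fun r hr => ?_⟩
          rw [map_add, ha' r hr, hb' r hr, add_zero]
        zero_mem' := ⟨U.zero_mem, fun r _ => by simp⟩
        smul_mem' := by
          rintro c a ⟨ha, ha'⟩
          refine ⟨U.smul_mem c ha, fun r hr => ?_⟩
          rw [map_smul, ha' r hr, smul_zero] }
    have hH'U : H' ≤ U := fun y hy => hy.1
    have hH'inv : ∀ g, ∀ v ∈ H', ρ g v ∈ H' := by
      intro g v hv
      refine ⟨hU g v hv.1, fun h hh => ?_⟩
      rw [hmove' g h (hHU hh) v hv.1]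
      exact hv.2 _ (hHinv g⁻¹ h hh)
    have hdis : H ⊓ H' = ⊥ := by
      rw [eq_bot_iff]
      intro y hy
      exact (Submodule.mem_bot F).mpr (hHnd y hy.1 (fun x hx => hy.2.2 x hx))
    have hsup : H ⊔ H' = U := by
      apply le_antisymm (sup_le hHU hH'U)
      intro u hu
      obtain ⟨h, hh, hperp⟩ := exists_perp_decomp B H hHnd u
      have : u = h + (u - h) := by abel
      rw [this]
      exact Submodule.add_mem_sup hh ⟨U.sub_mem hu (hHU hh), hperp⟩
    have hnd' : ∀ y ∈ H', (∀ x ∈ H', B x y = 0) → y = 0 := by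
      intro y hy hxy
      apply hnd y hy.1
      intro u hu
      rw [← hsup] at hu
      obtain ⟨h, hh, h', hh', rfl⟩ := Submodule.mem_sup.mp hu
      rw [map_add, LinearMap.add_apply, hy.2 h hh, hxy h' hh', add_zero]
    have hfin : finrank F H' ≤ n := by
      have h1 := Submodule.finrank_sup_add_finrank_inf_eq H H'
      rw [hsup, hdis, finrank_bot, add_zero] at h1
      have h2 : 0 < finrank F H := by
        apply Nat.pos_of_ne_zero
        intro h
        exact hHne (Submodule.finrank_eq_zero.mp h)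
      omega
    have hH'alt := ih H' hfin hH'inv (fun u hu => hfix u (hH'U hu)) B
      (fun g x hx y hy => hinv g x (hH'U hx) y (hH'U hy)) hnd'
    exact AltOn.glue ρ U H H' hHinv hH'inv hdis hsup hHalt hH'alt

theorem result_even [Finite G] [FiniteDimensional F V] [CharP F 2] [NeZero (Nat.card G : F)]
    (ρ : Representation F G V) (B : LinearMap.BilinForm F V) (hB : B.Nondegenerate)
    (hBinv : ∀ g : G, ∀ x y : V, B (ρ g x) (ρ g y) = B x y) :
    ∃ U W : Submodule F V, IsCompl U W ∧ (∀ g : G, ∀ u ∈ U, ρ g u ∈ U) ∧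
      (∀ g : G, ∀ w ∈ W, ρ g w ∈ W) ∧
      (∃ A : LinearMap.BilinForm F V, (∀ x : V, A x x = 0) ∧
        (∀ g : G, ∀ x ∈ U, ∀ y ∈ U, A (ρ g x) (ρ g y) = A x y) ∧
        (∀ x ∈ U, (∀ y ∈ U, A x y = 0) → x = 0)) ∧
      (∃ S : LinearMap.BilinForm F V, (∀ x y : V, S x y = S y x) ∧
        (∀ g : G, ∀ x ∈ W, ∀ y ∈ W, S (ρ g x) (ρ g y) = S x y) ∧
        (∀ x ∈ W, (∀ y ∈ W, S x y = 0) → x = 0)) ∧
      (∀ g : G, ∀ w ∈ W, ρ g w = w) := by
  classical
  haveI : Fintype G := Fintype.ofFinite G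
  have hcard : (Nat.card G : F) ≠ 0 := NeZero.ne _
  let e : V →ₗ[F] V := (Nat.card G : F)⁻¹ • ∑ g : G, ρ g
  have he : ∀ v, e v = (Nat.card G : F)⁻¹ • ∑ g : G, ρ g v := by
    intro v
    show ((Nat.card G : F)⁻¹ • ∑ g : G, ρ g) v = _
    rw [LinearMap.smul_apply, LinearMap.sum_apply]
  have hfixe : ∀ g v, ρ g (e v) = e v := by
    intro g v
    rw [he, map_smul, map_sum]
    congr 1
    refine Fintype.sum_equiv (Equiv.mulLeft g) _ _ (fun h => ?_)
    show ρ g (ρ h v) = ρ (g * h) v
    rw [map_mul, Module.End.mul_apply]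
  have heg : ∀ g v, e (ρ g v) = e v := by
    intro g v
    rw [he, he]
    congr 1
    refine Fintype.sum_equiv (Equiv.mulRight g) _ _ (fun h => ?_)
    show ρ h (ρ g v) = ρ (h * g) v
    rw [map_mul, Module.End.mul_apply]
  have hefix : ∀ v, (∀ g, ρ g v = v) → e v = v := by
    intro v hv
    rw [he]
    simp only [hv, Finset.sum_const, Finset.card_univ]
    rw [← Nat.cast_smul_eq_nsmul F, smul_smul, Fintype.card_eq_nat_card, inv_mul_cancel₀ hcard,
      one_smul]
  have hee : ∀ v, e (e v) = e v := fun v => hefix (e v) (fun g => hfixe g v)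
  have hadj : ∀ x y, B (e x) y = B x (e y) := by
    intro x y
    rw [he, he, map_smul, LinearMap.smul_apply, map_smul, map_sum, LinearMap.sum_apply, map_sum]
    congr 1
    refine Fintype.sum_equiv (Equiv.inv G) _ _ (fun g => ?_)
    show B (ρ g x) y = B x (ρ g⁻¹ y)
    have := hBinv g x (ρ g⁻¹ y)
    rwa [rho_self_inv] at this
  let U : Submodule F V := LinearMap.ker e
  let W : Submodule F V := LinearMap.range e
  have hidem : IsIdempotentElem e := LinearMap.ext (fun v => hee v)
  have hUW : IsCompl U W := (LinearMap.IsIdempotentElem.isCompl hidem).symm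
  have hUinv : ∀ g : G, ∀ u ∈ U, ρ g u ∈ U := by
    intro g u hu
    have hu0 : e u = 0 := hu
    show e (ρ g u) = 0
    rw [heg, hu0]
  have hWfix : ∀ g : G, ∀ w ∈ W, ρ g w = w := by
    rintro g w ⟨v, rfl⟩
    exact hfixe g v
  have hWinv : ∀ g : G, ∀ w ∈ W, ρ g w ∈ W := fun g w hw => by rw [hWfix g w hw]; exact hw
  have hUfix : ∀ u ∈ U, (∀ g, ρ g u = u) → u = 0 := by
    intro u hu hg
    have h1 := hefix u hg
    have h2 : e u = 0 := hu
    rw [← h1, h2]
  have hUnd : ∀ y ∈ U, (∀ x ∈ U, B x y = 0) → y = 0 := by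
    intro y hy hxy
    apply hB.2 y
    intro v
    have hy0 : e y = 0 := hy
    have h1 : v - e v ∈ U := by
      show e (v - e v) = 0
      rw [map_sub, hee, sub_self]
    have h2 := hxy _ h1
    rw [map_sub, LinearMap.sub_apply, hadj, hy0, map_zero, sub_zero] at h2
    exact h2
  obtain ⟨A₀, a1, a2, a3⟩ := altOn_of_form ρ (finrank F V) U (Submodule.finrank_le U) hUinv hUfix B
    (fun g x _ y _ => hBinv g x y) hUnd
  let π : V →ₗ[F] V := LinearMap.id - e
  have hπU : ∀ x, π x ∈ U := by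
    intro x
    show e (x - e x) = 0
    rw [map_sub, hee, sub_self]
  have hπid : ∀ x ∈ U, π x = x := by
    intro x hx
    have hx0 : e x = 0 := hx
    show x - e x = x
    rw [hx0, sub_zero]
  refine ⟨U, W, hUW, hUinv, hWinv, ⟨A₀.compl₁₂ π π, ?_, ?_, ?_⟩, ?_, hWfix⟩
  · intro x
    rw [LinearMap.compl₁₂_apply]
    exact a1 _ (hπU x)
  · intro g x hx y hy
    rw [LinearMap.compl₁₂_apply, LinearMap.compl₁₂_apply, hπid _ (hUinv g x hx),
      hπid _ (hUinv g y hy), hπid x hx, hπid y hy]
    exact a2 g x hx y hy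
  · intro x hx hxy
    apply a3 x hx
    intro y hy
    have := hxy y hy
    rwa [LinearMap.compl₁₂_apply, hπid x hx, hπid y hy] at this
  · let b := Module.finBasis F ↥W
    let πW : V →ₗ[F] ↥W := e.rangeRestrict
    have hπW : ∀ w : ↥W, πW (w : V) = w := by
      intro w
      obtain ⟨v, hv⟩ := w.2
      apply Subtype.ext
      show e (w : V) = w
      rw [← hv, hee]
    let S : LinearMap.BilinForm F V := LinearMap.mk₂ F
      (fun x y => ∑ i, b.repr (πW x) i * b.repr (πW y) i)
      (fun x x' y => by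
        simp only [map_add, Finsupp.add_apply, add_mul, Finset.sum_add_distrib])
      (fun c x y => by
        simp only [map_smul, Finsupp.smul_apply, smul_eq_mul, Finset.mul_sum]
        exact Finset.sum_congr rfl (fun i _ => by ring))
      (fun x y y' => by
        simp only [map_add, Finsupp.add_apply, mul_add, Finset.sum_add_distrib])
      (fun c x y => by
        simp only [map_smul, Finsupp.smul_apply, smul_eq_mul, Finset.mul_sum]
        exact Finset.sum_congr rfl (fun i _ => by ring))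
    have hS : ∀ x y, S x y = ∑ i, b.repr (πW x) i * b.repr (πW y) i := fun x y => rfl
    refine ⟨S, fun x y => ?_, fun g x hx y hy => ?_, fun x hx hxy => ?_⟩
    · rw [hS, hS]; exact Finset.sum_congr rfl (fun i _ => mul_comm _ _)
    · rw [hWfix g x hx, hWfix g y hy]
    · have hrepr : ∀ i, b.repr (πW x) i = 0 := by
        intro i
        have h1 := hxy (b i : V) (b i).2
        rw [hS, hπW (b i)] at h1
        simpa [Finsupp.single_apply] using h1
      have h2 : πW x = 0 := by
        apply b.repr.injective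
        ext i
        simp [hrepr i]
      have h3 : e x = 0 := congrArg Subtype.val h2
      obtain ⟨v, rfl⟩ := hx
      rw [hee] at h3
      exact h3

theorem result_odd [FiniteDimensional F V] (h2F : (2 : F) ≠ 0)
    (ρ : Representation F G V) (B : LinearMap.BilinForm F V) (hB : B.Nondegenerate)
    (hBinv : ∀ g : G, ∀ x y : V, B (ρ g x) (ρ g y) = B x y) :
    ∃ U W : Submodule F V, IsCompl U W ∧ (∀ g : G, ∀ u ∈ U, ρ g u ∈ U) ∧
      (∀ g : G, ∀ w ∈ W, ρ g w ∈ W) ∧
      (∃ A : LinearMap.BilinForm F V, (∀ x : V, A x x = 0) ∧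
        (∀ g : G, ∀ x ∈ U, ∀ y ∈ U, A (ρ g x) (ρ g y) = A x y) ∧
        (∀ x ∈ U, (∀ y ∈ U, A x y = 0) → x = 0)) ∧
      (∃ S : LinearMap.BilinForm F V, (∀ x y : V, S x y = S y x) ∧
        (∀ g : G, ∀ x ∈ W, ∀ y ∈ W, S (ρ g x) (ρ g y) = S x y) ∧
        (∀ x ∈ W, (∀ y ∈ W, S x y = 0) → x = 0)) := by
  let τ : V →ₗ[F] V := LinearMap.BilinForm.symmCompOfNondegenerate (LinearMap.flip B) B hB
  have hτ : ∀ v w, B (τ w) v = B v w := fun v w =>
    LinearMap.BilinForm.symmCompOfNondegenerate_left_apply (LinearMap.flip B) hB v w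
  have hiso : ∀ x y, B (τ x) (τ y) = B x y := by
    intro x y
    rw [hτ (τ y) x, hτ x y]
  have hτinj : Function.Injective τ := by
    rw [injective_iff_map_eq_zero]
    intro x hx
    apply hB.1 x
    intro y
    rw [← hiso x y, hx, map_zero, LinearMap.zero_apply]
  have hτsurj : Function.Surjective τ := LinearMap.surjective_of_injective hτinj
  have hτρ : ∀ g y, τ (ρ g y) = ρ g (τ y) := by
    intro g y
    rw [← sub_eq_zero]
    apply hB.1
    intro x
    rw [map_sub, LinearMap.sub_apply, hτ x (ρ g y)]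
    have h1 := hBinv g (τ y) (ρ g⁻¹ x)
    rw [rho_self_inv, hτ (ρ g⁻¹ x) y] at h1
    have h2 := hBinv g (ρ g⁻¹ x) y
    rw [rho_self_inv] at h2
    rw [h1, h2, sub_self]
  let N : V →ₗ[F] V := τ + LinearMap.id
  have hN : ∀ v, N v = τ v + v := fun v => rfl
  have hNρ : ∀ g y, N (ρ g y) = ρ g (N y) := by
    intro g y; rw [hN, hN, hτρ, map_add]
  have hNk : ∀ (k : ℕ) g y, (N ^ k) (ρ g y) = ρ g ((N ^ k) y) := by
    intro k
    induction k with
    | zero => intro g y; simp
    | succ k ih =>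
      intro g y
      rw [pow_succ, Module.End.mul_apply, Module.End.mul_apply, hNρ, ih]
  have hτN : ∀ c, τ (N c) = N (τ c) := by
    intro c; rw [hN, hN, map_add]
  have hτNk : ∀ (k : ℕ) c, τ ((N ^ k) c) = (N ^ k) (τ c) := by
    intro k
    induction k with
    | zero => intro c; simp
    | succ k ih =>
      intro c
      rw [pow_succ, Module.End.mul_apply, Module.End.mul_apply, ih, hτN]
  have hadj : ∀ c a, B (τ c) (N a) = B (N c) a := by
    intro c a
    rw [hN, hN, map_add, hiso, map_add, LinearMap.add_apply, add_comm]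
  have hQ : ∀ (k : ℕ) u, (N ^ k) u = 0 → ∀ a, B u ((N ^ k) a) = 0 := by
    intro k
    induction k with
    | zero =>
      intro u hu a
      rw [pow_zero, Module.End.one_apply] at hu
      rw [hu, map_zero, LinearMap.zero_apply]
    | succ k ih =>
      intro u hu a
      obtain ⟨c, rfl⟩ := hτsurj u
      have hc : (N ^ (k + 1)) c = 0 := by
        apply hτinj
        rw [hτNk, hu, map_zero]
      rw [pow_succ', Module.End.mul_apply, hadj]
      apply ih
      show (N ^ k * N) c = 0
      rw [← pow_succ]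
      exact hc
  obtain ⟨n, hn, hn1⟩ : ∃ n : ℕ,
      IsCompl (LinearMap.ker (N ^ n)) (LinearMap.range (N ^ n)) ∧ 1 ≤ n :=
    ((LinearMap.eventually_isCompl_ker_pow_range_pow N).and (Filter.eventually_ge_atTop 1)).exists
  let U : Submodule F V := LinearMap.ker (N ^ n)
  let W : Submodule F V := LinearMap.range (N ^ n)
  have hUmem : ∀ u, u ∈ U ↔ (N ^ n) u = 0 := fun u => LinearMap.mem_ker
  have hUinv : ∀ g : G, ∀ u ∈ U, ρ g u ∈ U := by
    intro g u hu
    rw [hUmem] at hu ⊢
    rw [hNk, hu, map_zero]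
  have hWinv : ∀ g : G, ∀ w ∈ W, ρ g w ∈ W := by
    rintro g w ⟨z, rfl⟩
    exact ⟨ρ g z, hNk n g z⟩
  have hτU : ∀ u ∈ U, τ u ∈ U := by
    intro u hu
    rw [hUmem] at hu ⊢
    rw [← hτNk, hu, map_zero]
  have hO1 : ∀ u ∈ U, ∀ w ∈ W, B u w = 0 := by
    rintro u hu w ⟨z, rfl⟩
    exact hQ n u ((hUmem u).mp hu) z
  have hO2 : ∀ w ∈ W, ∀ u ∈ U, B w u = 0 := by
    intro w hw u hu
    rw [← hτ w u]
    exact hO1 (τ u) (hτU u hu) w hw
  have hall : ∀ x, (∀ u ∈ U, B u x = 0) → (∀ w ∈ W, B w x = 0) → x = 0 := by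
    intro x h1 h2
    apply hB.2 x
    intro v
    have : v ∈ U ⊔ W := by rw [hn.sup_eq_top]; exact Submodule.mem_top
    obtain ⟨u, hu, w, hw, rfl⟩ := Submodule.mem_sup.mp this
    rw [map_add, LinearMap.add_apply, h1 u hu, h2 w hw, add_zero]
  have hsurjU : ∀ u' ∈ U, ∃ y ∈ U, τ y - y = u' := by
    let f : V →ₗ[F] V := τ - LinearMap.id
    have hfU : ∀ x ∈ U, f x ∈ U := by
      intro x hx
      show τ x - x ∈ U
      exact U.sub_mem (hτU x hx) hx
    have hinj : Function.Injective (f.restrict hfU) := by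
      rw [injective_iff_map_eq_zero]
      rintro ⟨y, hy⟩ h0
      have h1 : τ y - y = 0 := congrArg Subtype.val h0
      have h2 : N y = (2 : F) • y := by
        rw [hN, sub_eq_zero.mp h1, two_smul]
      have h3 : ∀ k : ℕ, (N ^ k) y = (2 : F) ^ k • y := by
        intro k
        induction k with
        | zero => simp
        | succ k ih =>
          rw [pow_succ, Module.End.mul_apply, h2, map_smul, ih, smul_smul, ← pow_succ']
      have h4 := h3 n
      rw [(hUmem y).mp hy] at h4
      have h5 : y = 0 := by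
        rcases smul_eq_zero.mp h4.symm with h | h
        · exact absurd h (pow_ne_zero n h2F)
        · exact h
      exact Subtype.ext h5
    have hsurj := LinearMap.surjective_of_injective hinj
    intro u' hu'
    obtain ⟨⟨y, hy⟩, hyu⟩ := hsurj ⟨u', hu'⟩
    exact ⟨y, hy, congrArg Subtype.val hyu⟩
  have hsurjW : ∀ w' ∈ W, ∃ y ∈ W, N y = w' := by
    have hNW : ∀ x ∈ W, N x ∈ W := by
      rintro x ⟨z, rfl⟩
      refine ⟨N z, ?_⟩
      have e1 : (N ^ n * N) z = (N * N ^ n) z := by rw [← pow_succ, ← pow_succ']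
      exact e1
    have hinj : Function.Injective (N.restrict hNW) := by
      rw [injective_iff_map_eq_zero]
      rintro ⟨y, hy⟩ h0
      have h1 : N y = 0 := congrArg Subtype.val h0
      have h2 : y ∈ U := by
        rw [hUmem]
        have e1 : N ^ n = N ^ (n - 1) * N := by rw [← pow_succ, Nat.sub_add_cancel hn1]
        rw [e1, Module.End.mul_apply, h1, map_zero]
      have h3 : y ∈ U ⊓ W := ⟨h2, hy⟩
      rw [hn.inf_eq_bot] at h3
      exact Subtype.ext ((Submodule.mem_bot F).mp h3)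
    have hsurj := LinearMap.surjective_of_injective hinj
    intro w' hw'
    obtain ⟨⟨y, hy⟩, hyw⟩ := hsurj ⟨w', hw'⟩
    exact ⟨y, hy, congrArg Subtype.val hyw⟩
  refine ⟨U, W, hn, hUinv, hWinv, ⟨B - LinearMap.flip B, ?_, ?_, ?_⟩,
    ⟨B + LinearMap.flip B, ?_, ?_, ?_⟩⟩
  · intro x
    simp only [LinearMap.sub_apply, LinearMap.flip_apply, sub_self]
  · intro g x _ y _
    simp only [LinearMap.sub_apply, LinearMap.flip_apply]
    rw [hBinv g x y, hBinv g y x]
  · intro x hx hxy
    apply hall x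
    · intro u' hu'
      obtain ⟨y, hy, rfl⟩ := hsurjU u' hu'
      have := hxy y hy
      simp only [LinearMap.sub_apply, LinearMap.flip_apply] at this
      rw [map_sub, LinearMap.sub_apply, hτ x y]
      exact this
    · intro w hw
      exact hO2 w hw x hx
  · intro x y
    simp only [LinearMap.add_apply, LinearMap.flip_apply]
    exact add_comm _ _
  · intro g x _ y _
    simp only [LinearMap.add_apply, LinearMap.flip_apply]
    rw [hBinv g x y, hBinv g y x]
  · intro x hx hxy
    apply hall x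
    · intro u hu
      exact hO1 u hu x hx
    · intro w' hw'
      obtain ⟨y, hy, rfl⟩ := hsurjW w' hw'
      have := hxy y hy
      simp only [LinearMap.add_apply, LinearMap.flip_apply] at this
      rw [hN, map_add, LinearMap.add_apply, hτ x y]
      exact this

end Cfsg.Agent.H98.SelfDual
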