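import Mathlib
import Cfsg.Agent.H42.SpdDefs
import Cfsg.Agent.H50.SpCard
import Cfsg.Agent.H17.Symp

/-!
# S5961 team project, piece SPD-CNT

If `r` divides the number of unordered orthogonal decompositions of the symplectic space `F^(2d)`
into `t` nondegenerate `a`-spaces, then `cc F r ≤ 2 d`.  (`S_t` acts freely on the ordered
decompositions, `Sp_2d(F)` acts transitively on them by Witt, and `r` divides `|Sp_2d(F)|`.)
-/

set_option autoImplicit false

namespace Cfsg.Agent.H98.Spd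

open Cfsg Cfsg.Agent.H42.Spd Matrix

universe u

section

variable {F : Type u} [Field F] {d a t : ℕ}

theorem valid_injective {D : Fin t → Submodule F (Fin d ⊕ Fin d → F)} (hD : Valid d a D) :
    Function.Injective D := by
  apply hD.1.indep.injective
  intro i hi
  have h0 := hD.1.finrank_eq i
  rw [hi, finrank_bot] at h0
  have h1 := hD.1.pos
  omega

theorem valid_comp {D : Fin t → Submodule F (Fin d ⊕ Fin d → F)} (hD : Valid d a D)
    (σ : Equiv.Perm (Fin t)) : Valid d a (D ∘ σ) :=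
  ⟨{ two_le := hD.1.two_le
     pos := hD.1.pos
     finrank_eq := fun i => hD.1.finrank_eq (σ i)
     indep := hD.1.indep.comp σ.injective
     iSup_eq_top := by
       rw [← hD.1.iSup_eq_top]
       exact Equiv.iSup_comp (g := D) σ },
   fun j => hD.2.1 (σ j),
   fun j j' hjj' => hD.2.2 (σ j) (σ j') (fun h => hjj' (σ.injective h))⟩

/-- The linear automorphism of `F^(2d)` given by a symplectic matrix. -/
noncomputable def spEquiv (g : ↥(Matrix.symplecticGroup (Fin d) F)) :
    (Fin d ⊕ Fin d → F) ≃ₗ[F] (Fin d ⊕ Fin d → F) :=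
  LinearEquiv.ofLinearMap
    (Matrix.toLin' (g : Matrix (Fin d ⊕ Fin d) (Fin d ⊕ Fin d) F))
    (Matrix.toLin' ((g⁻¹ : ↥(Matrix.symplecticGroup (Fin d) F)) :
      Matrix (Fin d ⊕ Fin d) (Fin d ⊕ Fin d) F))
    (by
      rw [← Matrix.toLin'_mul]
      have h : (g : Matrix (Fin d ⊕ Fin d) (Fin d ⊕ Fin d) F) *
          ((g⁻¹ : ↥(Matrix.symplecticGroup (Fin d) F)) :
            Matrix (Fin d ⊕ Fin d) (Fin d ⊕ Fin d) F) = 1 := by
        have h1 := congrArg (Subtype.val) (mul_inv_cancel g)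
        exact h1
      rw [h, Matrix.toLin'_one])
    (by
      rw [← Matrix.toLin'_mul]
      have h : ((g⁻¹ : ↥(Matrix.symplecticGroup (Fin d) F)) :
            Matrix (Fin d ⊕ Fin d) (Fin d ⊕ Fin d) F) *
          (g : Matrix (Fin d ⊕ Fin d) (Fin d ⊕ Fin d) F) = 1 := by
        have h1 := congrArg (Subtype.val) (inv_mul_cancel g)
        exact h1
      rw [h, Matrix.toLin'_one])

theorem valid_map {D : Fin t → Submodule F (Fin d ⊕ Fin d → F)} (hD : Valid d a D)
    (g : ↥(Matrix.symplecticGroup (Fin d) F)) :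
    Valid d a (fun j => (D j).map
      (Matrix.toLin' (g : Matrix (Fin d ⊕ Fin d) (Fin d ⊕ Fin d) F))) := by
  have hform := (Cfsg.Agent.H17.mem_symplecticGroup_iff_form d
    (g : Matrix (Fin d ⊕ Fin d) (Fin d ⊕ Fin d) F)).mp g.2
  have hmap : ∀ j, (D j).map (Matrix.toLin' (g : Matrix (Fin d ⊕ Fin d) (Fin d ⊕ Fin d) F)) =
      (D j).map ((spEquiv g : (Fin d ⊕ Fin d → F) ≃ₗ[F] (Fin d ⊕ Fin d → F)) :
        (Fin d ⊕ Fin d → F) →ₗ[F] (Fin d ⊕ Fin d → F)) := fun j => rfl
  refine ⟨?_, ?_, ?_⟩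
  · exact
      { two_le := hD.1.two_le
        pos := hD.1.pos
        finrank_eq := fun i => by
          show Module.finrank F ↥((D i).map _) = a
          rw [hmap, LinearEquiv.finrank_map_eq]; exact hD.1.finrank_eq i
        indep := by
          have h1 := hD.1.indep.map_orderIso (Submodule.orderIsoMapComap (spEquiv g))
          exact h1
        iSup_eq_top := by
          show (⨆ j, (D j).map _) = ⊤
          rw [← Submodule.map_iSup]
          have h1 : (⨆ j, D j) = ⊤ := hD.1.iSup_eq_top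
          rw [h1, Submodule.map_top]
          exact LinearEquiv.range (spEquiv g) }
  · intro j u hu hu0
    obtain ⟨u₀, hu₀, rfl⟩ := Submodule.mem_map.mp hu
    have hu₀0 : u₀ ≠ 0 := by
      rintro rfl
      exact hu0 (map_zero _)
    obtain ⟨v, hv, hne⟩ := hD.2.1 j u₀ hu₀ hu₀0
    refine ⟨Matrix.toLin' (g : Matrix (Fin d ⊕ Fin d) (Fin d ⊕ Fin d) F) v,
      Submodule.mem_map_of_mem hv, ?_⟩
    rw [Matrix.toLin'_apply, Matrix.toLin'_apply, hform]
    exact hne
  · intro j j' hjj' u hu v hv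
    obtain ⟨u₀, hu₀, rfl⟩ := Submodule.mem_map.mp hu
    obtain ⟨v₀, hv₀, rfl⟩ := Submodule.mem_map.mp hv
    rw [Matrix.toLin'_apply, Matrix.toLin'_apply, hform]
    exact hD.2.2 j j' hjj' u₀ hu₀ v₀ hv₀

/-- The symmetric group acts (freely) on the ordered decompositions. -/
noncomputable instance permAction : MulAction (Equiv.Perm (Fin t))
    {D : Fin t → Submodule F (Fin d ⊕ Fin d → F) // Valid d a D} where
  smul σ D := ⟨D.1 ∘ σ.symm, valid_comp D.2 σ.symm⟩
  one_smul D := Subtype.ext (by funext i; rfl)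
  mul_smul σ τ D := Subtype.ext (by funext i; rfl)

theorem factorial_dvd_card :
    t.factorial ∣
      Nat.card {D : Fin t → Submodule F (Fin d ⊕ Fin d → F) // Valid d a D} := by
  have hfree : ∀ D : {D : Fin t → Submodule F (Fin d ⊕ Fin d → F) // Valid d a D},
      MulAction.stabilizer (Equiv.Perm (Fin t)) D = ⊥ := by
    intro D
    rw [eq_bot_iff]
    intro σ hσ
    rw [Subgroup.mem_bot]
    have h1 : D.1 ∘ σ.symm = D.1 := congrArg Subtype.val (MulAction.mem_stabilizer_iff.mp hσ)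
    have hinj := valid_injective D.2
    ext i
    have h2 := congrFun h1 (σ i)
    simp only [Function.comp_apply, Equiv.symm_apply_apply] at h2
    have h3 := hinj h2
    rw [← h3]; rfl
  have e := MulAction.selfEquivOrbitsQuotientProd hfree
  have h := Nat.card_congr e
  rw [Nat.card_prod, Nat.card_perm, Nat.card_eq_fintype_card (α := Fin t), Fintype.card_fin] at h
  exact Dvd.intro_left _ h.symm

theorem card_dvd_card_sp (hW : StWitt.{u})  [Fintype F]
    (hex : ∃ D : Fin t → Submodule F (Fin d ⊕ Fin d → F), Valid d a D) :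
    Nat.card {D : Fin t → Submodule F (Fin d ⊕ Fin d → F) // Valid d a D} ∣
      Nat.card ↥(Matrix.symplecticGroup (Fin d) F) := by
  obtain ⟨D₀, hD₀⟩ := hex
  have h := Cfsg.Agent.H50.SpCard.card_eq_card_mul_stab
    (G := ↥(Matrix.symplecticGroup (Fin d) F))
    (X := {D : Fin t → Submodule F (Fin d ⊕ Fin d → F) // Valid d a D})
    (fun g D => ⟨fun j => (D.1 j).map
      (Matrix.toLin' (g : Matrix (Fin d ⊕ Fin d) (Fin d ⊕ Fin d) F)), valid_map D.2 g⟩)
    (by
      intro D
      apply Subtype.ext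
      funext j
      show (D.1 j).map (Matrix.toLin' (1 : Matrix (Fin d ⊕ Fin d) (Fin d ⊕ Fin d) F)) = D.1 j
      rw [Matrix.toLin'_one]
      exact Submodule.map_id _)
    (by
      intro g h D
      apply Subtype.ext
      funext j
      show (D.1 j).map (Matrix.toLin' ((g : Matrix (Fin d ⊕ Fin d) (Fin d ⊕ Fin d) F) *
        (h : Matrix (Fin d ⊕ Fin d) (Fin d ⊕ Fin d) F))) =
        ((D.1 j).map (Matrix.toLin' (h : Matrix (Fin d ⊕ Fin d) (Fin d ⊕ Fin d) F))).map
          (Matrix.toLin' (g : Matrix (Fin d ⊕ Fin d) (Fin d ⊕ Fin d) F))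
      rw [Matrix.toLin'_mul]
      exact Submodule.map_comp _ _ _)
    ⟨D₀, hD₀⟩
    (by
      intro D
      obtain ⟨g, hg⟩ := hW F d a t D₀ D.1 hD₀ D.2
      exact ⟨g, Subtype.ext (funext hg)⟩)
  exact Dvd.intro _ h.symm

end

theorem cnt (hW : StWitt.{u}) : StCnt.{u} := by
  intro F _ _ d a t r hr hrF hex hΩ
  have : Fact r.Prime := ⟨hr⟩
  have h1 : r ∣ Nat.card {D : Fin t → Submodule F (Fin d ⊕ Fin d → F) // Valid d a D} :=
    hΩ.trans (Nat.div_dvd_of_dvd factorial_dvd_card)
  have h2 : r ∣ Nat.card ↥(Matrix.symplecticGroup (Fin d) F) :=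
    h1.trans (card_dvd_card_sp hW hex)
  rw [Cfsg.Agent.H50.SpCard.card_sp (F := F) (q := Fintype.card F) rfl d] at h2
  -- r does not divide q
  have hq : ¬ r ∣ Fintype.card F := by
    intro hdvd
    obtain ⟨p, hpchar⟩ := CharP.exists F
    have := hpchar
    obtain ⟨k, hp, hk⟩ := FiniteField.card F p
    rw [hk] at hdvd
    have hrp : r = p := (Nat.prime_dvd_prime_iff_eq hr hp).mp (hr.dvd_of_dvd_pow hdvd)
    apply hrF
    rw [hrp]
    exact CharP.cast_eq_zero F p
  have h3 : r ∣ ∏ i ∈ Finset.range d, (Fintype.card F ^ (2 * (i + 1)) - 1) := by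
    rcases (Nat.Prime.dvd_mul hr).mp h2 with h | h
    · exact absurd (hr.dvd_of_dvd_pow h) hq
    · exact h
  obtain ⟨i, hi, hdvd⟩ := (Nat.Prime.prime hr).exists_mem_finset_dvd h3
  have hid : i + 1 ≤ d := Finset.mem_range.mp hi
  have hpow : ((Fintype.card F : ℕ) : ZMod r) ^ (2 * (i + 1)) = 1 := by
    have h4 : ((Fintype.card F ^ (2 * (i + 1)) - 1 : ℕ) : ZMod r) = 0 :=
      (ZMod.natCast_eq_zero_iff _ _).mpr hdvd
    have hle : 1 ≤ Fintype.card F ^ (2 * (i + 1)) := Nat.one_le_pow _ _ Fintype.card_pos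
    rw [Nat.cast_sub hle, sub_eq_zero] at h4
    push_cast at h4
    exact h4
  have hord := orderOf_dvd_of_pow_eq_one hpow
  unfold cc
  split_ifs with hev
  · have := Nat.le_of_dvd (by omega) hord
    omega
  · have hodd : Odd (orderOf ((Fintype.card F : ℕ) : ZMod r)) := Nat.not_even_iff_odd.mp hev
    have hcop : Nat.Coprime (orderOf ((Fintype.card F : ℕ) : ZMod r)) 2 :=
      Nat.Coprime.symm (Nat.coprime_two_left.mpr hodd)
    have h5 : orderOf ((Fintype.card F : ℕ) : ZMod r) ∣ i + 1 := hcop.dvd_of_dvd_mul_left hord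
    have := Nat.le_of_dvd (by omega) h5
    omega

example : Cfsg.Agent.H42.Spd.StWitt.{u} → Cfsg.Agent.H42.Spd.StCnt.{u} := cnt

end Cfsg.Agent.H98.Spd
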