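import Cfsg.Agent.Lib.Helper96.TWDefs

set_option autoImplicit false

/-!
Piece S5707-NF of the team project S5707 (helper96): wreath normal form of the elements of the
standard tensor-wreath subgroup.
-/

namespace Cfsg.Agent.H98.TW

open Cfsg Cfsg.Geo Matrix Cfsg.Agent.Lib.Helper96.TW
open scoped MatrixGroups

universe u

theorem nf : StNF.{u} := by
  intro hAlg F _ k t g hg
  classical
  obtain ⟨-, -, -, -, -, -, -, h8, h9, h10, h11, h12⟩ := hAlg F k t
  unfold tensorWreathStandard at hg
  induction hg using Subgroup.closure_induction with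
  | mem x hx =>
    rcases hx with ⟨gs, hgs⟩ | ⟨σ, hσ⟩
    · refine ⟨gs, 1, ?_⟩
      rw [h11, mul_one]
      ext a b
      exact hgs a b
    · refine ⟨fun _ => 1, σ, ?_⟩
      have e : pureM (fun _ : Fin t => (((1 : GL (Fin k) F)) : Matrix (Fin k) (Fin k) F)) =
          (1 : Matrix (Idx k t) (Idx k t) F) := h9
      rw [e, one_mul]
      ext a b
      exact hσ a b
  | one =>
    refine ⟨fun _ => 1, 1, ?_⟩
    have e : pureM (fun _ : Fin t => (((1 : GL (Fin k) F)) : Matrix (Fin k) (Fin k) F)) =
        (1 : Matrix (Idx k t) (Idx k t) F) := h9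
    rw [e, h11, mul_one]
    rfl
  | mul x y hx hy ihx ihy =>
    obtain ⟨gs, σ, h1⟩ := ihx
    obtain ⟨hs, τ, h2⟩ := ihy
    refine ⟨fun i => gs i * hs (σ.symm i), σ * τ, ?_⟩
    have e12 : permM F k t σ *
        pureM (fun i => ((hs i : GL (Fin k) F) : Matrix (Fin k) (Fin k) F)) =
        pureM (fun i => ((hs (σ.symm i) : GL (Fin k) F) : Matrix (Fin k) (Fin k) F)) *
          permM F k t σ := h12 σ _
    have e8 : pureM (fun i => ((gs i : GL (Fin k) F) : Matrix (Fin k) (Fin k) F)) *
        pureM (fun i => ((hs (σ.symm i) : GL (Fin k) F) : Matrix (Fin k) (Fin k) F)) =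
        pureM (fun i => ((gs i * hs (σ.symm i) : GL (Fin k) F) : Matrix (Fin k) (Fin k) F)) :=
      h8 _ _
    rw [Units.val_mul, h1, h2]
    calc pureM (fun i => ((gs i : GL (Fin k) F) : Matrix (Fin k) (Fin k) F)) * permM F k t σ *
          (pureM (fun i => ((hs i : GL (Fin k) F) : Matrix (Fin k) (Fin k) F)) * permM F k t τ)
        = pureM (fun i => ((gs i : GL (Fin k) F) : Matrix (Fin k) (Fin k) F)) *
          (permM F k t σ * pureM (fun i => ((hs i : GL (Fin k) F) : Matrix (Fin k) (Fin k) F))) *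
            permM F k t τ := by simp only [mul_assoc]
      _ = (pureM (fun i => ((gs i : GL (Fin k) F) : Matrix (Fin k) (Fin k) F)) *
          pureM (fun i => ((hs (σ.symm i) : GL (Fin k) F) : Matrix (Fin k) (Fin k) F))) *
            (permM F k t σ * permM F k t τ) := by rw [e12]; simp only [mul_assoc]
      _ = pureM (fun i => ((gs i * hs (σ.symm i) : GL (Fin k) F) : Matrix (Fin k) (Fin k) F)) *
            permM F k t (σ * τ) := by rw [e8, h10]
  | inv x hx ih =>
    obtain ⟨gs, σ, h1⟩ := ih
    refine ⟨fun i => (gs (σ i))⁻¹, σ⁻¹, ?_⟩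
    apply Units.inv_eq_of_mul_eq_one_right
    have e12 : permM F k t σ *
        pureM (fun i => (((gs (σ i))⁻¹ : GL (Fin k) F) : Matrix (Fin k) (Fin k) F)) =
        pureM (fun i => (((gs i)⁻¹ : GL (Fin k) F) : Matrix (Fin k) (Fin k) F)) *
          permM F k t σ := by
      have h := h12 σ (fun i => (((gs (σ i))⁻¹ : GL (Fin k) F) : Matrix (Fin k) (Fin k) F))
      simp only [Equiv.apply_symm_apply] at h
      exact h
    have e8 : pureM (fun i => ((gs i : GL (Fin k) F) : Matrix (Fin k) (Fin k) F)) *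
        pureM (fun i => (((gs i)⁻¹ : GL (Fin k) F) : Matrix (Fin k) (Fin k) F)) =
        (1 : Matrix (Idx k t) (Idx k t) F) := by
      rw [h8]
      have e : (fun i => ((gs i : GL (Fin k) F) : Matrix (Fin k) (Fin k) F) *
          (((gs i)⁻¹ : GL (Fin k) F) : Matrix (Fin k) (Fin k) F)) =
          fun _ : Fin t => (1 : Matrix (Fin k) (Fin k) F) := by
        funext i
        rw [← Units.val_mul, mul_inv_cancel, Units.val_one]
      rw [e, h9]
    rw [h1]
    calc pureM (fun i => ((gs i : GL (Fin k) F) : Matrix (Fin k) (Fin k) F)) * permM F k t σ *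
          (pureM (fun i => (((gs (σ i))⁻¹ : GL (Fin k) F) : Matrix (Fin k) (Fin k) F)) *
            permM F k t σ⁻¹)
        = pureM (fun i => ((gs i : GL (Fin k) F) : Matrix (Fin k) (Fin k) F)) *
          (permM F k t σ *
            pureM (fun i => (((gs (σ i))⁻¹ : GL (Fin k) F) : Matrix (Fin k) (Fin k) F))) *
            permM F k t σ⁻¹ := by simp only [mul_assoc]
      _ = (pureM (fun i => ((gs i : GL (Fin k) F) : Matrix (Fin k) (Fin k) F)) *
          pureM (fun i => (((gs i)⁻¹ : GL (Fin k) F) : Matrix (Fin k) (Fin k) F))) *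
            (permM F k t σ * permM F k t σ⁻¹) := by rw [e12]; simp only [mul_assoc]
      _ = 1 := by rw [e8, h10, mul_inv_cancel, h11, one_mul]

example : StNF.{u} := nf

end Cfsg.Agent.H98.TW
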