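import Cfsg.Agent.Lib.Helper96.TWDefs

set_option autoImplicit false

/-!
Piece S5707-SIM of the team project S5707 (helper96): if `pureM gs * permM σ` preserves the polar
form of the standard model, every factor `gs i` is a similarity of the exchange form.
-/

namespace Cfsg.Agent.H98.TW

open Cfsg Cfsg.Geo Matrix Cfsg.Agent.Lib.Helper96.TW
open scoped MatrixGroups

universe u

section

variable {F : Type u} [Field F] {k t : ℕ}

/-- the Gram-type sum of a matrix with respect to the exchange form -/
def Bf (g : Matrix (Fin k) (Fin k) F) (u v : Fin k) : F := ∑ p, g p u * g p.rev v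

theorem Bf_eq (g : Matrix (Fin k) (Fin k) F) (u v : Fin k) :
    (gᵀ * Jm F k * g) u v = Bf g u v := by
  classical
  unfold Bf
  rw [Matrix.mul_apply]
  have h1 : ∀ q : Fin k, (gᵀ * Jm F k) u q = g q.rev u := by
    intro q
    rw [Matrix.mul_apply, Finset.sum_eq_single q.rev]
    · unfold Jm
      rw [Matrix.transpose_apply, Fin.rev_rev, if_pos rfl, mul_one]
    · intro p _ hp
      have h2 : ¬ q = p.rev := by
        intro h
        apply hp
        rw [h, Fin.rev_rev]
      unfold Jm
      rw [if_neg h2, mul_zero]
    · intro h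
      exact absurd (Finset.mem_univ _) h
  simp_rw [h1]
  exact Fintype.sum_equiv Fin.revPerm _ _ (fun q => by rw [Fin.revPerm_apply, Fin.rev_rev])

theorem col_pure_perm (gs' : Fin t → Matrix (Fin k) (Fin k) F) (σ : Equiv.Perm (Fin t))
    (a x : Idx k t) :
    ((pureM gs' * permM F k t σ) *ᵥ (Pi.single a 1 : Idx k t → F)) x =
      ∏ j, gs' j (x j) (a (σ.symm j)) := by
  classical
  rw [Matrix.mulVec_single_one]
  show (pureM gs' * permM F k t σ) x a = _
  rw [Matrix.mul_apply, Finset.sum_eq_single (a ∘ σ.symm)]
  · have h1 : a = (a ∘ σ.symm) ∘ σ := by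
      funext j
      simp
    unfold permM pureM
    rw [if_pos h1, mul_one]
    rfl
  · intro z _ hz
    have h1 : ¬ a = z ∘ σ := by
      intro h
      apply hz
      rw [h]
      funext j
      simp
    unfold permM
    rw [if_neg h1, mul_zero]
  · intro h
    exact absurd (Finset.mem_univ _) h

end

theorem sim : StSim.{u} := by
  intro _ F _ k t Q c hcases hSM gs σ hpres i
  classical
  have hk : 0 < k := by
    rcases hcases with ⟨h, -⟩ | ⟨h, -⟩ <;> omega
  obtain ⟨gs', hgs'⟩ : ∃ gs' : Fin t → Matrix (Fin k) (Fin k) F,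
      gs' = fun i => ((gs i : GL (Fin k) F) : Matrix (Fin k) (Fin k) F) := ⟨_, rfl⟩
  rw [← hgs'] at hpres
  have hkey : ∀ a' b' : Idx k t,
      ∏ j, Bf (gs' j) (a' j) (b' j) = if b' = revI a' then 1 else 0 := by
    intro a' b'
    have h := hpres (Pi.single (a' ∘ σ) 1) (Pi.single (b' ∘ σ) 1)
    rw [hSM.polar, hSM.polar] at h
    have hL : ∑ w, ((pureM gs' * permM F k t σ) *ᵥ (Pi.single (a' ∘ σ) 1 : Idx k t → F)) w *
        ((pureM gs' * permM F k t σ) *ᵥ (Pi.single (b' ∘ σ) 1 : Idx k t → F)) (revI w) =
        ∏ j, Bf (gs' j) (a' j) (b' j) := by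
      have e1 : ∀ j, (a' ∘ σ) (σ.symm j) = a' j := by
        intro j
        simp
      have e2 : ∀ j, (b' ∘ σ) (σ.symm j) = b' j := by
        intro j
        simp
      simp_rw [col_pure_perm, e1, e2, ← Finset.prod_mul_distrib]
      unfold Bf
      rw [Finset.prod_univ_sum, Fintype.piFinset_univ]
      rfl
    have hR : ∑ w, (Pi.single (a' ∘ σ) 1 : Idx k t → F) w *
        (Pi.single (b' ∘ σ) 1 : Idx k t → F) (revI w) = if b' = revI a' then 1 else 0 := by
      rw [Finset.sum_eq_single (a' ∘ σ)]
      · rw [Pi.single_eq_same, one_mul, Pi.single_apply]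
        have hiff : (revI (a' ∘ σ) = b' ∘ σ) ↔ b' = revI a' := by
          constructor
          · intro hh
            funext j
            have h3 := congrFun hh (σ.symm j)
            simp only [revI, Function.comp_apply, Equiv.apply_symm_apply] at h3
            exact h3.symm
          · intro hh
            rw [hh]
            rfl
        rw [if_congr hiff rfl rfl]
      · intro w _ hw
        rw [Pi.single_eq_of_ne hw, zero_mul]
      · intro h
        exact absurd (Finset.mem_univ _) h
    rw [hL, hR] at h
    exact mul_left_cancel₀ hSM.c_ne h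
  obtain ⟨o, ho⟩ : ∃ o : Fin k, o = ⟨0, hk⟩ := ⟨_, rfl⟩
  obtain ⟨ν, hν⟩ : ∃ ν : F, ν = ∏ j ∈ Finset.univ.erase i, Bf (gs' j) o o.rev := ⟨_, rfl⟩
  have hpq : ∀ p q : Fin k, Bf (gs' i) p q * ν = if q = p.rev then 1 else 0 := by
    intro p q
    have h := hkey (Function.update (fun _ => o) i p) (Function.update (fun _ => o.rev) i q)
    rw [← Finset.mul_prod_erase Finset.univ _ (Finset.mem_univ i), Function.update_self,
      Function.update_self] at h
    have h1 : ∏ j ∈ Finset.univ.erase i, Bf (gs' j) (Function.update (fun _ => o) i p j)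
        (Function.update (fun _ => o.rev) i q j) = ν := by
      rw [hν]
      apply Finset.prod_congr rfl
      intro j hj
      have hji : j ≠ i := Finset.ne_of_mem_erase hj
      rw [Function.update_of_ne hji, Function.update_of_ne hji]
    rw [h1] at h
    rw [h]
    have hiff : (Function.update (fun _ : Fin t => o.rev) i q =
        revI (Function.update (fun _ : Fin t => o) i p)) ↔ q = p.rev := by
      constructor
      · intro hh
        have h3 := congrFun hh i
        simp only [revI, Function.update_self] at h3
        exact h3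
      · intro hh
        funext j
        by_cases hji : j = i
        · subst hji
          simp only [revI, Function.update_self]
          exact hh
        · simp only [revI, Function.update_of_ne hji]
    rw [if_congr hiff rfl rfl]
  have hν0 : ν ≠ 0 := by
    intro h0
    have h := hpq o o.rev
    rw [h0, mul_zero, if_pos rfl] at h
    exact zero_ne_one h
  refine ⟨ν⁻¹, inv_ne_zero hν0, ?_⟩
  have hgi : ((gs i : GL (Fin k) F) : Matrix (Fin k) (Fin k) F) = gs' i := by rw [hgs']
  rw [hgi]
  ext p q
  rw [Bf_eq, Matrix.smul_apply, smul_eq_mul]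
  have h := hpq p q
  unfold Jm
  rw [← h]
  field_simp

example : StSim.{u} := sim

end Cfsg.Agent.H98.TW
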