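import Mathlib
import Cfsg.Agent.H77.TmDefs2
import Cfsg.Agent.H53.Ev2ExJMinus
import Cfsg.Agent.H36.TqSq
import Cfsg.Agent.H49.MinusForm
import Cfsg.Agent.H49.SimpleForms

/-!
# S5987-NEGEX (helper98, for helper77)

If `d = k + 1` is odd and `q ≡ 7 (mod 8)` then `Ω⁻_{2d}(q)` contains an element of square `-1`:
an isometry `x₀` with `x₀ * x₀ = -1` exists (helper53's EV2-EXJMINUS), and with `s² = 2` the
matrix `y = s⁻¹ (1 + x₀)` is an isometry with `y * y = x₀`; squares of isometries lie in `Ω`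
(helper36's S5978-SQMEM).
-/

set_option autoImplicit false
open scoped MatrixGroups
open scoped Matrix

namespace Cfsg.Agent.H98.Tm

open Cfsg.Agent.H49 Cfsg.Agent.H77.Tq Cfsg.Agent.H77.Tm Module

universe u

/-- An isometry `x` with `x * x = -1` is the square of the isometry `s⁻¹ (1 + x)`, `s² = 2`. -/
theorem negEx_sqrt {ι : Type} [Fintype ι] [DecidableEq ι] {F : Type u} [Field F]
    (Q : QuadraticForm F (ι → F)) (h2 : (2 : F) ≠ 0) (s : F) (hs : (2 : F) = s * s)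
    (x : GL ι F) (hx : x ∈ Cfsg.isometryGroup F ⇑Q)
    (hxx : (x : Matrix ι ι F) * (x : Matrix ι ι F) = -1) :
    ∃ y : GL ι F, y ∈ Cfsg.isometryGroup F ⇑Q ∧ y * y = x := by
  have hs0 : s ≠ 0 := by
    rintro rfl
    rw [mul_zero] at hs
    exact h2 hs
  obtain ⟨X, hX⟩ : ∃ X : Matrix ι ι F, X = (x : Matrix ι ι F) := ⟨_, rfl⟩
  rw [← hX] at hxx
  have hXQ : ∀ v, Q (X *ᵥ v) = Q v := by
    intro v
    rw [hX]
    exact (mem_isometryGroup_iff.mp hx) v
  have hpol : ∀ u, QuadraticMap.polar ⇑Q u (X *ᵥ u) = 0 := by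
    intro u
    have h1 : QuadraticMap.polar ⇑Q (X *ᵥ u) (X *ᵥ (X *ᵥ u)) =
        QuadraticMap.polar ⇑Q u (X *ᵥ u) := by
      rw [QuadraticMap.polar, QuadraticMap.polar, ← Matrix.mulVec_add, hXQ, hXQ, hXQ, hXQ]
    have h3 : X *ᵥ (X *ᵥ u) = -u := by
      rw [Matrix.mulVec_mulVec, hxx, Matrix.neg_mulVec, Matrix.one_mulVec]
    rw [h3, QuadraticMap.polar_neg_right, QuadraticMap.polar_comm] at h1
    have h4 : (2 : F) * QuadraticMap.polar ⇑Q u (X *ᵥ u) = 0 := by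
      linear_combination (-1 : F) * h1
    exact (mul_eq_zero.mp h4).resolve_left h2
  obtain ⟨Y, hY⟩ : ∃ Y : Matrix ι ι F, Y = s⁻¹ • (1 + X) := ⟨_, rfl⟩
  have hss : s⁻¹ * s⁻¹ * 2 = 1 := by
    rw [hs]
    field_simp
  have hYY : Y * Y = X := by
    rw [hY, Matrix.smul_mul, Matrix.mul_smul, smul_smul, add_mul, mul_add, mul_add, one_mul,
      one_mul, mul_one, hxx]
    have h1 : (1 : Matrix ι ι F) + X + (X + -1) = (2 : F) • X := by
      rw [two_smul]
      abel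
    rw [h1, smul_smul, hss, one_smul]
  have hYX : Y * X = X * Y := by
    rw [hY, Matrix.smul_mul, Matrix.mul_smul, add_mul, mul_add, one_mul, mul_one]
  have hinv1 : Y * (Y * -X) = 1 := by
    rw [← mul_assoc, hYY, mul_neg, hxx, neg_neg]
  have hinv2 : Y * -X * Y = 1 := by
    rw [mul_neg, neg_mul, hYX, mul_assoc, hYY, hxx, neg_neg]
  obtain ⟨y, hy⟩ : ∃ y : GL ι F, (y : Matrix ι ι F) = Y := ⟨⟨Y, Y * -X, hinv1, hinv2⟩, rfl⟩
  refine ⟨y, ?_, ?_⟩
  · rw [mem_isometryGroup_iff]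
    intro u
    have e1 : Y *ᵥ u = s⁻¹ • (u + X *ᵥ u) := by
      rw [hY, Matrix.smul_mulVec, Matrix.add_mulVec, Matrix.one_mulVec]
    have e2 : Q (u + X *ᵥ u) = 2 * Q u := by
      have h1 := hpol u
      rw [QuadraticMap.polar, hXQ] at h1
      linear_combination h1
    rw [hy, e1, QuadraticMap.map_smul, e2, smul_eq_mul, ← mul_assoc, hss, one_mul]
  · apply Units.ext
    rw [Units.val_mul, hy, hYY, hX]

/-- **S5987-NEGEX**. -/
theorem negEx : StNegEx.{u} := by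
  classical
  intro F _ _ k a b h2 hab hk hq
  have hkE : Even k := by
    rcases Nat.even_or_odd k with h | h
    · exact h
    · exact absurd h.add_one (Nat.not_even_iff_odd.mpr hk)
  have hm1 : ¬ IsSquare (-1 : F) := by
    rw [FiniteField.isSquare_neg_one_iff]
    omega
  obtain ⟨s, hs⟩ : IsSquare (2 : F) := by
    rw [FiniteField.isSquare_two_iff]
    omega
  obtain ⟨x₀, hx₀, hxx⟩ := Cfsg.Agent.H53.Ev2.exJMinus F k a b h2 hab hkE hm1
  obtain ⟨Q, hQdef⟩ : ∃ Q : QuadraticForm F (MI k → F), Q = QMin k F a b := ⟨_, rfl⟩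
  have hQcoe : ⇑Q = Cfsg.quadFormMinus k F a b := by
    rw [hQdef]
    exact QMin_coe k a b
  have hnd : (QuadraticMap.polarBilin Q).Nondegenerate := by
    rw [hQdef]
    exact QMin_nondeg k a b (disc_ne_zero_of_aniso a b hab)
  rw [← hQcoe] at hx₀
  obtain ⟨y, hy, hyy⟩ := negEx_sqrt Q h2 s hs x₀ hx₀ hxx
  refine ⟨x₀, ?_, hxx⟩
  rw [← hyy, ← hQcoe]
  exact Cfsg.Agent.H36.Tq.sqMem F (MI k) Q h2 hnd y hy

example : Cfsg.Agent.H77.Tm.StNegEx.{u} := negEx

end Cfsg.Agent.H98.Tm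

#print axioms Cfsg.Agent.H98.Tm.negEx
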