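import Mathlib
import Cfsg.Agent.H77.TmDefs2
import Cfsg.Agent.H49.Spinor
import Cfsg.Agent.H49.GeoGlue
import Cfsg.Agent.H49.MinusForm
import Cfsg.Agent.H49.SimpleForms
import Cfsg.Agent.H45.OmInvol

/-!
# S5987-NEGMEM (helper98, for helper77)

If `Ω⁻_{2k+2}(q)` contains an element `x` with `x * x = -1` then `k + 1` is odd and
`q ≡ 7 (mod 8)`: in an adapted basis `v_l, x v_l` (`Q = 1`), `x` is the product of the
reflections in `v_l + x v_l` and `v_l`, so its spinor norm is `2 ^ (k + 1)`.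
-/

set_option autoImplicit false
open scoped MatrixGroups
open scoped Matrix

namespace Cfsg.Agent.H98.Tm

open Cfsg.Agent.H49 Cfsg.Agent.H77.Tq Cfsg.Agent.H77.Tm Module

universe u

/-- An isometry `x` with `x * x = -1` is the product of the reflections in `v_l + x v_l` and in
`v_l`, for an adapted basis `v_l, x v_l` with `Q = 1`. -/
theorem negMem_prod {ι : Type} [Fintype ι] [DecidableEq ι] {F : Type u} [Field F]
    (Q : QuadraticForm F (ι → F)) (h2 : (2 : F) ≠ 0) (x : Matrix ι ι F) (hxx : x * x = -1)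
    (n : ℕ) (bs : Module.Basis (Fin n ⊕ Fin n) F (ι → F))
    (hb1 : ∀ l : Fin n, bs (Sum.inr l) = x *ᵥ bs (Sum.inl l))
    (hb2 : ∀ i, Q (bs i) = 1)
    (hb3 : ∀ i j, i ≠ j → QuadraticMap.polar (⇑Q) (bs i) (bs j) = 0) :
    x = ((((List.finRange n).map (fun l => bs (Sum.inl l) + bs (Sum.inr l))) ++
      ((List.finRange n).map (fun l => bs (Sum.inl l)))).map
        (fun v => Cfsg.reflectionMatrix (⇑Q) v)).prod := by
  obtain ⟨vs₁, hvs₁⟩ : ∃ vs₁ : List (ι → F),
      vs₁ = (List.finRange n).map (fun l => bs (Sum.inl l)) := ⟨_, rfl⟩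
  obtain ⟨vs₂, hvs₂⟩ : ∃ vs₂ : List (ι → F),
      vs₂ = (List.finRange n).map (fun l => bs (Sum.inl l) + bs (Sum.inr l)) := ⟨_, rfl⟩
  rw [← hvs₁, ← hvs₂, List.map_append, List.prod_append]
  have hself : ∀ i, QuadraticMap.polar (⇑Q) (bs i) (bs i) = 2 := by
    intro i
    rw [QuadraticMap.polar_self, hb2, two_smul, one_add_one_eq_two]
  have hmem₁ : ∀ v, v ∈ vs₁ ↔ ∃ l, v = bs (Sum.inl l) := by
    intro v
    rw [hvs₁, List.mem_map]
    constructor
    · rintro ⟨l, -, rfl⟩; exact ⟨l, rfl⟩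
    · rintro ⟨l, rfl⟩; exact ⟨l, List.mem_finRange l, rfl⟩
  have hmem₂ : ∀ v, v ∈ vs₂ ↔ ∃ l, v = bs (Sum.inl l) + bs (Sum.inr l) := by
    intro v
    rw [hvs₂, List.mem_map]
    constructor
    · rintro ⟨l, -, rfl⟩; exact ⟨l, rfl⟩
    · rintro ⟨l, rfl⟩; exact ⟨l, List.mem_finRange l, rfl⟩
  have hlr : ∀ l l' : Fin n, (Sum.inl l : Fin n ⊕ Fin n) ≠ Sum.inr l' := fun l l' h => by cases h
  have hrl : ∀ l l' : Fin n, (Sum.inr l : Fin n ⊕ Fin n) ≠ Sum.inl l' := fun l l' h => by cases h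
  have hpw₁ : vs₁.Pairwise (fun u w => QuadraticMap.polar (⇑Q) u w = 0) := by
    rw [hvs₁, List.pairwise_map]
    exact (List.nodup_finRange n).imp (fun hne => hb3 _ _ (fun h => hne (Sum.inl.inj h)))
  have hne₁ : ∀ v ∈ vs₁, Q v ≠ 0 := by
    intro v hv
    obtain ⟨l, rfl⟩ := (hmem₁ v).mp hv
    rw [hb2]
    exact one_ne_zero
  have hpw₂ : vs₂.Pairwise (fun u w => QuadraticMap.polar (⇑Q) u w = 0) := by
    rw [hvs₂, List.pairwise_map]
    refine (List.nodup_finRange n).imp (fun {l l'} hne => ?_)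
    have hne' : l ≠ l' := hne
    rw [QuadraticMap.polar_add_left, QuadraticMap.polar_add_right, QuadraticMap.polar_add_right,
      hb3 _ _ (fun h => hne' (Sum.inl.inj h)), hb3 _ _ (hlr l l'), hb3 _ _ (hrl l l'),
      hb3 _ _ (fun h => hne' (Sum.inr.inj h))]
    simp
  have hne₂ : ∀ v ∈ vs₂, Q v ≠ 0 := by
    intro v hv
    obtain ⟨l, rfl⟩ := (hmem₂ v).mp hv
    have h1 : Q (bs (Sum.inl l) + bs (Sum.inr l)) = 2 := by
      have h3 := hb3 (Sum.inl l) (Sum.inr l) (hlr l l)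
      rw [QuadraticMap.polar, hb2, hb2] at h3
      linear_combination h3
    rw [h1]
    exact h2
  -- the action of the two products
  have hR1 : ∀ l, (vs₁.map (fun v => Cfsg.reflectionMatrix (⇑Q) v)).prod *ᵥ bs (Sum.inl l)
      = -bs (Sum.inl l) := fun l =>
    Cfsg.Agent.H45.prod_refl_neg Q vs₁ hpw₁ hne₁ _ ((hmem₁ _).mpr ⟨l, rfl⟩)
  have hR2 : ∀ l, (vs₁.map (fun v => Cfsg.reflectionMatrix (⇑Q) v)).prod *ᵥ bs (Sum.inr l)
      = bs (Sum.inr l) := by
    intro l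
    apply Cfsg.Agent.H45.prod_refl_fix
    intro w hw
    obtain ⟨l', rfl⟩ := (hmem₁ w).mp hw
    exact hb3 _ _ (hlr l' l)
  have hS1 : ∀ l, (vs₂.map (fun v => Cfsg.reflectionMatrix (⇑Q) v)).prod *ᵥ
      (bs (Sum.inl l) + bs (Sum.inr l)) = -(bs (Sum.inl l) + bs (Sum.inr l)) := fun l =>
    Cfsg.Agent.H45.prod_refl_neg Q vs₂ hpw₂ hne₂ _ ((hmem₂ _).mpr ⟨l, rfl⟩)
  have hS2 : ∀ l, (vs₂.map (fun v => Cfsg.reflectionMatrix (⇑Q) v)).prod *ᵥ
      (bs (Sum.inl l) - bs (Sum.inr l)) = bs (Sum.inl l) - bs (Sum.inr l) := by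
    intro l
    apply Cfsg.Agent.H45.prod_refl_fix
    intro w hw
    obtain ⟨l', rfl⟩ := (hmem₂ w).mp hw
    rw [QuadraticMap.polar_add_left, QuadraticMap.polar_sub_right, QuadraticMap.polar_sub_right]
    by_cases hll : l' = l
    · subst hll
      rw [hself, hself, hb3 _ _ (hlr l' l'), hb3 _ _ (hrl l' l')]
      ring
    · rw [hb3 _ _ (fun h => hll (Sum.inl.inj h)), hb3 _ _ (hlr l' l), hb3 _ _ (hrl l' l),
        hb3 _ _ (fun h => hll (Sum.inr.inj h))]
      ring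
  have hS3 : ∀ l, (vs₂.map (fun v => Cfsg.reflectionMatrix (⇑Q) v)).prod *ᵥ bs (Sum.inl l)
      = -bs (Sum.inr l) := by
    intro l
    have h1 : bs (Sum.inl l) = (2 : F)⁻¹ • ((bs (Sum.inl l) + bs (Sum.inr l)) +
        (bs (Sum.inl l) - bs (Sum.inr l))) := by
      rw [add_add_sub_cancel, ← two_smul F (bs (Sum.inl l)), smul_smul, inv_mul_cancel₀ h2,
        one_smul]
    have h3 : -bs (Sum.inr l) = (2 : F)⁻¹ • (-(bs (Sum.inl l) + bs (Sum.inr l)) +
        (bs (Sum.inl l) - bs (Sum.inr l))) := by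
      have h4 : -(bs (Sum.inl l) + bs (Sum.inr l)) + (bs (Sum.inl l) - bs (Sum.inr l))
          = (2 : F) • (-bs (Sum.inr l)) := by
        rw [two_smul]; abel
      rw [h4, smul_smul, inv_mul_cancel₀ h2, one_smul]
    rw [h3]
    conv_lhs => rw [h1]
    rw [Matrix.mulVec_smul, Matrix.mulVec_add, hS1, hS2]
  have hS4 : ∀ l, (vs₂.map (fun v => Cfsg.reflectionMatrix (⇑Q) v)).prod *ᵥ bs (Sum.inr l)
      = -bs (Sum.inl l) := by
    intro l
    have h1 : bs (Sum.inr l) = (2 : F)⁻¹ • ((bs (Sum.inl l) + bs (Sum.inr l)) -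
        (bs (Sum.inl l) - bs (Sum.inr l))) := by
      rw [add_sub_sub_cancel, ← two_smul F (bs (Sum.inr l)), smul_smul, inv_mul_cancel₀ h2,
        one_smul]
    have h3 : -bs (Sum.inl l) = (2 : F)⁻¹ • (-(bs (Sum.inl l) + bs (Sum.inr l)) -
        (bs (Sum.inl l) - bs (Sum.inr l))) := by
      have h4 : -(bs (Sum.inl l) + bs (Sum.inr l)) - (bs (Sum.inl l) - bs (Sum.inr l))
          = (2 : F) • (-bs (Sum.inl l)) := by
        rw [two_smul]; abel
      rw [h4, smul_smul, inv_mul_cancel₀ h2, one_smul]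
    rw [h3]
    conv_lhs => rw [h1]
    rw [Matrix.mulVec_smul, Matrix.mulVec_sub, hS1, hS2]
  apply Matrix.toLin'.injective
  apply bs.ext
  intro i
  rw [Matrix.toLin'_apply, Matrix.toLin'_apply, ← Matrix.mulVec_mulVec]
  rcases i with l | l
  · rw [hR1, Matrix.mulVec_neg, hS3, neg_neg, hb1]
  · rw [hR2, hS4, hb1, Matrix.mulVec_mulVec, hxx, Matrix.neg_mulVec, Matrix.one_mulVec]

/-- **S5987-NEGMEM**. -/
theorem negMem (hAd : StBAdapt.{u}) (hC : StBCond.{u}) : StNegMem.{u} := by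
  classical
  intro F _ _ k a b h2 hab x hxΩ hxx
  obtain ⟨Q, hQdef⟩ : ∃ Q : QuadraticForm F (MI k → F), Q = QMin k F a b := ⟨_, rfl⟩
  have hQcoe : ⇑Q = Cfsg.quadFormMinus k F a b := by
    rw [hQdef]
    exact QMin_coe k a b
  have hnd : (QuadraticMap.polarBilin Q).Nondegenerate := by
    rw [hQdef]
    exact QMin_nondeg k a b (disc_ne_zero_of_aniso a b hab)
  rw [← hQcoe] at hxΩ
  obtain ⟨g, hgc, hgx⟩ := (mem_omegaGL_iff (⇑Q) x).mp hxΩ
  have hx : x ∈ Cfsg.isometryGroup F ⇑Q := by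
    rw [← hgx]
    exact g.2
  obtain ⟨hm1, hk⟩ := hC F k a b h2 hab x (by rw [← hQcoe]; exact hx) hxx
  obtain ⟨n, bs, hb1, hb2, hb3⟩ := hAd F (MI k) Q h2 hnd x hx hxx
  have hn : n = k + 1 := by
    have h1 : Module.finrank F (MI k → F) = Fintype.card (Fin n ⊕ Fin n) :=
      Module.finrank_eq_card_basis bs
    rw [Module.finrank_fintype_fun_eq_card] at h1
    simp only [Fintype.card_sum, Fintype.card_fin] at h1
    omega
  have hprod := negMem_prod Q h2 (x : Matrix (MI k) (MI k) F) hxx n bs hb1 hb2 hb3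
  have hvs : ∀ v ∈ ((List.finRange n).map (fun l => bs (Sum.inl l) + bs (Sum.inr l))) ++
      ((List.finRange n).map (fun l => bs (Sum.inl l))), Q v ≠ 0 := by
    intro v hv
    rcases List.mem_append.mp hv with hv | hv
    · obtain ⟨l, -, rfl⟩ := List.mem_map.mp hv
      have h1 : Q (bs (Sum.inl l) + bs (Sum.inr l)) = 2 := by
        have h3 := hb3 (Sum.inl l) (Sum.inr l) (fun h => by cases h)
        rw [QuadraticMap.polar, hb2, hb2] at h3
        linear_combination h3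
      rw [h1]
      exact h2
    · obtain ⟨l, -, rfl⟩ := List.mem_map.mp hv
      rw [hb2]
      exact one_ne_zero
  have hgm : ((g : Matrix.GeneralLinearGroup (MI k) F) : Matrix (MI k) (MI k) F)
      = ((((List.finRange n).map (fun l => bs (Sum.inl l) + bs (Sum.inr l))) ++
        ((List.finRange n).map (fun l => bs (Sum.inl l)))).map
          (fun v => Cfsg.reflectionMatrix (⇑Q) v)).prod := by
    rw [hgx]
    exact hprod
  obtain ⟨-, hsq⟩ := (mem_commutator_iff_of_prod_refl Q h2 g _ hvs hgm).mp hgc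
  have hP : ((((List.finRange n).map (fun l => bs (Sum.inl l) + bs (Sum.inr l))) ++
      ((List.finRange n).map (fun l => bs (Sum.inl l)))).map (fun v => Q v)).prod
      = (2 : F) ^ n := by
    rw [List.map_append, List.prod_append, List.map_map, List.map_map]
    have e1 : ∀ z ∈ (List.finRange n).map
        ((fun v => Q v) ∘ fun l => bs (Sum.inl l) + bs (Sum.inr l)), z = (2 : F) := by
      intro z hz
      obtain ⟨l, -, rfl⟩ := List.mem_map.mp hz
      have h3 := hb3 (Sum.inl l) (Sum.inr l) (fun h => by cases h)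
      rw [QuadraticMap.polar, hb2, hb2] at h3
      show Q (bs (Sum.inl l) + bs (Sum.inr l)) = 2
      linear_combination h3
    have e2 : ∀ z ∈ (List.finRange n).map ((fun v => Q v) ∘ fun l => bs (Sum.inl l)),
        z = (1 : F) := by
      intro z hz
      obtain ⟨l, -, rfl⟩ := List.mem_map.mp hz
      exact hb2 _
    rw [List.prod_eq_pow_card _ _ e1, List.prod_eq_pow_card _ _ e2, List.length_map,
      List.length_map, List.length_finRange, one_pow, mul_one]
  rw [hP, hn] at hsq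
  have hsq2 : IsSquare (2 : F) := by
    obtain ⟨j, hj⟩ := hk
    obtain ⟨c, hc⟩ := hsq
    have h2j : (2 : F) ^ j ≠ 0 := pow_ne_zero _ h2
    refine ⟨c / 2 ^ j, ?_⟩
    rw [div_mul_div_comm, ← hc, eq_div_iff (mul_ne_zero h2j h2j), hj]
    ring
  refine ⟨hk.add_one, ?_⟩
  have h8 := FiniteField.isSquare_two_iff.mp hsq2
  have h4 : Fintype.card F % 4 = 3 := by
    by_contra hne
    exact hm1 (FiniteField.isSquare_neg_one_iff.mpr hne)
  omega

example (hAd : Cfsg.Agent.H77.Tq.StBAdapt.{u}) (hC : Cfsg.Agent.H77.Tq.StBCond.{u}) :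
    Cfsg.Agent.H77.Tm.StNegMem.{u} := negMem hAd hC

end Cfsg.Agent.H98.Tm

#print axioms Cfsg.Agent.H98.Tm.negMem
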