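import Mathlib
import Cfsg.Agent.H77.TqDefs
import Cfsg.Agent.H49.Basic

set_option autoImplicit false
open scoped MatrixGroups
open scoped Matrix

/-!
Piece S5978-LIN of the team project S5978 (helper77): an isometry commuting with `K` is `L`-linear
in adapted coordinates and preserves the diagonal form.
-/

namespace Cfsg.Agent.H98.Tq

open Module Cfsg.Agent.H77.Tq

universe u

/-- Matrices are determined by their action on vectors. -/
theorem mat_ext_mulVec {R : Type*} [CommRing R] {ι κ : Type*} [Fintype ι] [DecidableEq ι]
    (A B : Matrix κ ι R) (h : ∀ v, A *ᵥ v = B *ᵥ v) : A = B := by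
  ext i j
  have h1 := congrFun (h (Pi.single j 1)) i
  simpa using h1

/-- Nondegeneracy of the trace form of a finite extension of finite fields. -/
theorem eq_zero_of_trace_mul {F L : Type u} [Field F] [Fintype F] [Field L] [Fintype L]
    [Algebra F L] (d : L) (h : ∀ c : L, Algebra.trace F L (c * d) = 0) : d = 0 := by
  have hnd := traceForm_nondegenerate F L
  apply hnd.1 d
  intro c
  rw [Algebra.traceForm_apply, mul_comm]
  exact h c

theorem lin : StLin.{u} := by
  intro F _ _ ι _ _ Q K L _ _ _ n ψ φ α hKO hKC y hy hcomm
  classical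
  have hyQ : ∀ u : ι → F, Q ((y : Matrix ι ι F) *ᵥ u) = Q u :=
    Cfsg.Agent.H49.mem_isometryGroup_iff.mp hy
  -- the `L`-linear map
  let T : (Fin n → L) →ₗ[L] (Fin n → L) :=
    { toFun := fun w => φ.symm ((y : Matrix ι ι F) *ᵥ φ w)
      map_add' := by
        intro w w'
        rw [map_add, Matrix.mulVec_add, map_add]
      map_smul' := by
        intro c w
        simp only [RingHom.id_apply]
        apply φ.injective
        rw [LinearEquiv.apply_symm_apply, hKC.smul, hKC.smul, LinearEquiv.apply_symm_apply,
          Matrix.mulVec_mulVec, Matrix.mulVec_mulVec, hcomm _ (hKC.mem c)] }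
  have hT : ∀ w : Fin n → L, φ (T w) = (y : Matrix ι ι F) *ᵥ φ w := by
    intro w
    exact LinearEquiv.apply_symm_apply φ _
  have hYw : ∀ w : Fin n → L, (LinearMap.toMatrix' T) *ᵥ w = T w := by
    intro w
    rw [← Matrix.toLin'_apply, Matrix.toLin'_toMatrix']
  refine ⟨LinearMap.toMatrix' T, ?_, ?_⟩
  · intro w
    rw [hYw, hT]
  · -- the form
    have hpol : ∀ u u' : ι → F, QuadraticMap.polar (⇑Q) ((y : Matrix ι ι F) *ᵥ u)
        ((y : Matrix ι ι F) *ᵥ u') = QuadraticMap.polar (⇑Q) u u' := by
      intro u u'
      unfold QuadraticMap.polar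
      rw [← Matrix.mulVec_add, hyQ, hyQ, hyQ]
    have htr : ∀ w w' : Fin n → L,
        Algebra.trace F L (∑ l, α l * T w l * T w' l) =
          Algebra.trace F L (∑ l, α l * w l * w' l) := by
      intro w w'
      rw [← hKC.form, ← hKC.form, hT, hT, hpol]
    have hform : ∀ w w' : Fin n → L,
        ∑ l, α l * T w l * T w' l = ∑ l, α l * w l * w' l := by
      intro w w'
      rw [← sub_eq_zero]
      apply eq_zero_of_trace_mul (F := F)
      intro c
      have h1 := htr (c • w) w'
      rw [map_smul] at h1
      have e1 : c * (∑ l, α l * T w l * T w' l - ∑ l, α l * w l * w' l) =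
          ∑ l, α l * (c • T w) l * T w' l - ∑ l, α l * (c • w) l * w' l := by
        rw [mul_sub, Finset.mul_sum, Finset.mul_sum]
        congr 1
        · refine Finset.sum_congr rfl fun l _ => ?_
          simp only [Pi.smul_apply, smul_eq_mul]
          ring
        · refine Finset.sum_congr rfl fun l _ => ?_
          simp only [Pi.smul_apply, smul_eq_mul]
          ring
      rw [e1, map_sub, h1, sub_self]
    ext i j
    have h2 := hform (Pi.single i 1) (Pi.single j 1)
    rw [← hYw, ← hYw] at h2
    simp only [Matrix.mulVec_single_one] at h2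
    rw [Matrix.mul_apply]
    simp only [Matrix.mul_apply, Matrix.transpose_apply, Matrix.diagonal_apply, mul_ite, mul_zero,
      Finset.sum_ite_eq', Finset.mem_univ, if_true]
    have h3 : ∑ l, (LinearMap.toMatrix' T) l i * α l * (LinearMap.toMatrix' T) l j =
        ∑ l, α l * (LinearMap.toMatrix' T).col i l * (LinearMap.toMatrix' T).col j l := by
      refine Finset.sum_congr rfl fun l _ => ?_
      simp only [Matrix.col_apply]
      ring
    rw [h3, h2]
    by_cases hij : i = j
    · subst hij
      simp [Pi.single_apply]
    · simp [Pi.single_apply, hij, Ne.symm hij]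

example : StLin.{u} := lin

end Cfsg.Agent.H98.Tq
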