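import Mathlib
import Cfsg.Agent.H77.TqDefs
import Cfsg.Agent.H49.Isom
import Cfsg.Agent.H49.SimpleForms
import Cfsg.Agent.H42.ElusSpA
import Cfsg.Agent.S0286

set_option autoImplicit false
open scoped MatrixGroups
open scoped Matrix

/-!
Piece S5978-ORDDIAGODD of the team project S5978 (helper77): the order of the isometry group of a
diagonal form in odd dimension.
-/

namespace Cfsg.Agent.H98.Tq

open Module Cfsg.Agent.H77.Tq

universe u

/-- The diagonal form as a quadratic form. -/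
noncomputable def diagQ {L : Type u} [Field L] {n : ℕ} (α : Fin n → L) :
    QuadraticForm L (Fin n → L) :=
  QuadraticMap.weightedSumSquares L α

theorem diagQ_apply {L : Type u} [Field L] {n : ℕ} (α : Fin n → L) (w : Fin n → L) :
    diagQ α w = ∑ l, α l * w l ^ 2 := by
  rw [diagQ, QuadraticMap.weightedSumSquares_apply]
  refine Finset.sum_congr rfl fun l _ => ?_
  rw [smul_eq_mul, sq]

theorem diagQ_polar {L : Type u} [Field L] {n : ℕ} (α : Fin n → L) (u v : Fin n → L) :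
    QuadraticMap.polar (⇑(diagQ α)) u v = ∑ l, 2 * α l * u l * v l := by
  unfold QuadraticMap.polar
  rw [diagQ_apply, diagQ_apply, diagQ_apply, ← Finset.sum_sub_distrib, ← Finset.sum_sub_distrib]
  refine Finset.sum_congr rfl fun l _ => ?_
  simp only [Pi.add_apply]
  ring

theorem diagQ_nd {L : Type u} [Field L] {n : ℕ} (α : Fin n → L) (h2 : (2 : L) ≠ 0)
    (hα : ∀ l, α l ≠ 0) (u : Fin n → L)
    (h : ∀ v, QuadraticMap.polar (⇑(diagQ α)) u v = 0) : u = 0 := by
  classical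
  funext l
  have h1 := h (Pi.single l 1)
  rw [diagQ_polar, Finset.sum_eq_single l] at h1
  · simp only [Pi.single_eq_same, mul_one] at h1
    rcases mul_eq_zero.mp h1 with h3 | h3
    · exact absurd h3 (mul_ne_zero h2 (hα l))
    · exact h3
  · intro l' _ hl'
    simp [Pi.single_apply, hl']
  · intro hl
    exact absurd (Finset.mem_univ l) hl

theorem diagQ_nondeg {L : Type u} [Field L] {n : ℕ} (α : Fin n → L) (h2 : (2 : L) ≠ 0)
    (hα : ∀ l, α l ≠ 0) : (QuadraticMap.polarBilin (diagQ α)).Nondegenerate :=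
  ⟨fun u h => diagQ_nd α h2 hα u (fun v => by simpa using h v),
    fun u h => diagQ_nd α h2 hα u (fun v => by
      rw [QuadraticMap.polar_comm]
      simpa using h v)⟩

/-- Odd cardinality from `2 ≠ 0`. -/
theorem odd_card_of_two_ne_zero {L : Type u} [Field L] [Fintype L] (h2 : (2 : L) ≠ 0) :
    Odd (Fintype.card L) := by
  rw [Nat.odd_iff]
  apply FiniteField.odd_card_of_char_ne_two
  intro h
  apply h2
  have h3 := ringChar.Nat.cast_ringChar (R := L)
  rw [h] at h3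
  exact_mod_cast h3

/-- Scaling a form does not change its isometry group. -/
theorem isometryGroup_smul {L : Type u} [Field L] {ι : Type} [Fintype ι] [DecidableEq ι]
    (Q : QuadraticForm L (ι → L)) (c : L) (hc : c ≠ 0) :
    Cfsg.isometryGroup L ⇑(c • Q) = Cfsg.isometryGroup L ⇑Q := by
  ext x
  rw [Cfsg.Agent.H49.mem_isometryGroup_iff, Cfsg.Agent.H49.mem_isometryGroup_iff]
  constructor
  · intro h v
    have h1 := h v
    rw [QuadraticMap.coeFn_smul] at h1
    simp only [Pi.smul_apply, smul_eq_mul] at h1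
    exact mul_left_cancel₀ hc h1
  · intro h v
    rw [QuadraticMap.coeFn_smul]
    simp only [Pi.smul_apply, smul_eq_mul]
    rw [h v]

theorem ordDiagOdd : StOrdDiagOdd.{u} := by
  intro L _ _ n α h2 hα hodd
  classical
  obtain ⟨m, hm⟩ := hodd
  have hnm : n / 2 = m := by omega
  rw [hnm]
  have hfr1 : finrank L (Fin n → L) = 2 * m + 1 := by
    rw [Module.finrank_fin_fun, hm]
  obtain ⟨b₁, a₁, ha₁, -, hb₁⟩ :=
    Cfsg.Agent.H49.odd_standard_gram hfr1 (diagQ α) (diagQ_nondeg α h2 hα)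
  have hfr2 : finrank L (Unit ⊕ (Fin m ⊕ Fin m) → L) = 2 * m + 1 := by
    rw [Module.finrank_pi]
    simp
    omega
  obtain ⟨b₂, a₂, ha₂, -, hb₂⟩ := Cfsg.Agent.H49.odd_standard_gram hfr2
    (Cfsg.Agent.H49.QOdd m L) (Cfsg.Agent.H49.QOdd_nondeg m h2)
  obtain ⟨e₁, he₁⟩ : ∃ e₁ : (Unit ⊕ (Fin m ⊕ Fin m) → L) ≃ₗ[L] (Fin n → L),
      ∀ i, e₁ (Pi.single i 1) = b₁ i :=
    ⟨b₁.equivFun.symm, fun i => by simp⟩
  obtain ⟨D', hD'⟩ : ∃ D' : QuadraticForm L (Unit ⊕ (Fin m ⊕ Fin m) → L),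
      ∀ v, D' v = diagQ α (e₁ v) := ⟨(diagQ α).comp e₁.toLinearMap, fun v => rfl⟩
  have hD'pol : ∀ x y, QuadraticMap.polar (⇑D') x y =
      QuadraticMap.polar (⇑(diagQ α)) (e₁ x) (e₁ y) := by
    intro x y
    unfold QuadraticMap.polar
    rw [hD', hD', hD', map_add]
  have hD'nd : ∀ a, (∀ b, QuadraticMap.polar (⇑D') a b = 0) → a = 0 := by
    intro a h
    have h1 : e₁ a = 0 := by
      apply diagQ_nd α h2 hα
      intro v
      obtain ⟨b, rfl⟩ := e₁.surjective v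
      rw [← hD'pol]
      exact h b
    exact e₁.injective (h1.trans (map_zero e₁).symm)
  obtain ⟨c, hc⟩ : ∃ c : L, c = a₁ / a₂ := ⟨_, rfl⟩
  have hc0 : c ≠ 0 := by
    rw [hc]
    exact div_ne_zero ha₁ ha₂
  obtain ⟨u, hu⟩ : ∃ u : Unit ⊕ (Fin m ⊕ Fin m) → (Unit ⊕ (Fin m ⊕ Fin m) → L),
      u = Sum.elim (fun _ => b₂ (Sum.inl ()))
        (Sum.elim (fun j => b₂ (Sum.inr (Sum.inl j))) (fun j => c⁻¹ • b₂ (Sum.inr (Sum.inr j)))) :=
    ⟨_, rfl⟩
  have hL : ∀ x y, QuadraticMap.polar (⇑(c • Cfsg.Agent.H49.QOdd m L)) x y =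
      c * QuadraticMap.polar (⇑(Cfsg.Agent.H49.QOdd m L)) x y := by
    intro x y
    rw [QuadraticMap.coeFn_smul, QuadraticMap.polar_smul, smul_eq_mul]
  have hgram : ∀ i j, QuadraticMap.polar (⇑(c • Cfsg.Agent.H49.QOdd m L)) (u i) (u j) =
      QuadraticMap.polar (⇑D') ((Pi.basisFun L (Unit ⊕ (Fin m ⊕ Fin m))) i)
        ((Pi.basisFun L (Unit ⊕ (Fin m ⊕ Fin m))) j) := by
    intro i j
    have hR : QuadraticMap.polar (⇑D') ((Pi.basisFun L (Unit ⊕ (Fin m ⊕ Fin m))) i)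
        ((Pi.basisFun L (Unit ⊕ (Fin m ⊕ Fin m))) j) = Cfsg.Agent.H49.oddGram m L a₁ i j := by
      rw [← hb₁ i j, hD'pol]
      simp only [Pi.basisFun_apply]
      rw [he₁, he₁]
    rw [hR, hL, hu]
    rcases i with (i | i | i) <;> rcases j with (j | j | j)
    · simp only [Sum.elim_inl, hb₂]
      simp only [Cfsg.Agent.H49.oddGram, Matrix.fromBlocks_apply₁₁, Matrix.diagonal_apply_eq]
      rw [hc]
      field_simp
    · simp only [Sum.elim_inl, Sum.elim_inr, hb₂]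
      simp [Cfsg.Agent.H49.oddGram]
    · simp only [Sum.elim_inl, Sum.elim_inr, QuadraticMap.polar_smul_right, hb₂]
      simp [Cfsg.Agent.H49.oddGram]
    · simp only [Sum.elim_inl, Sum.elim_inr, hb₂]
      simp [Cfsg.Agent.H49.oddGram]
    · simp only [Sum.elim_inl, Sum.elim_inr, hb₂]
      simp [Cfsg.Agent.H49.oddGram, Cfsg.Agent.H49.hypGram]
    · simp only [Sum.elim_inl, Sum.elim_inr, QuadraticMap.polar_smul_right, hb₂]
      simp only [Cfsg.Agent.H49.oddGram, Cfsg.Agent.H49.hypGram, Matrix.fromBlocks_apply₂₂,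
        Matrix.fromBlocks_apply₁₂, smul_eq_mul]
      rw [← mul_assoc, mul_inv_cancel₀ hc0, one_mul]
    · simp only [Sum.elim_inl, Sum.elim_inr, QuadraticMap.polar_smul_left, hb₂]
      simp [Cfsg.Agent.H49.oddGram]
    · simp only [Sum.elim_inl, Sum.elim_inr, QuadraticMap.polar_smul_left, hb₂]
      simp only [Cfsg.Agent.H49.oddGram, Cfsg.Agent.H49.hypGram, Matrix.fromBlocks_apply₂₂,
        Matrix.fromBlocks_apply₂₁, smul_eq_mul]
      rw [← mul_assoc, mul_inv_cancel₀ hc0, one_mul]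
    · simp only [Sum.elim_inl, Sum.elim_inr, QuadraticMap.polar_smul_left,
        QuadraticMap.polar_smul_right, hb₂]
      simp [Cfsg.Agent.H49.oddGram, Cfsg.Agent.H49.hypGram]
  obtain ⟨g, hg, -⟩ := Cfsg.Agent.H49.exists_isometry_of_gram h2
    (Pi.basisFun L (Unit ⊕ (Fin m ⊕ Fin m))) D' (c • Cfsg.Agent.H49.QOdd m L) hD'nd u hgram
  have hcard1 : Nat.card ↥(Cfsg.isometryGroup L (fun w : Fin n → L => ∑ l, α l * w l ^ 2)) =
      Nat.card ↥(Cfsg.isometryGroup L ⇑D') :=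
    (Cfsg.Agent.H42.card_isometry_congr (⇑D') (fun w : Fin n → L => ∑ l, α l * w l ^ 2) e₁
      (fun v => by rw [hD', diagQ_apply])).symm
  have hcard2 : Nat.card ↥(Cfsg.isometryGroup L ⇑D') =
      Nat.card ↥(Cfsg.isometryGroup L ⇑(c • Cfsg.Agent.H49.QOdd m L)) :=
    Cfsg.Agent.H42.card_isometry_congr _ _ g hg
  rw [hcard1, hcard2, isometryGroup_smul _ c hc0, Cfsg.Agent.H49.QOdd_coe]
  exact Cfsg.Agent.S0286.result rfl (odd_card_of_two_ne_zero h2) m

example : StOrdDiagOdd.{u} := ordDiagOdd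

end Cfsg.Agent.H98.Tq
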