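import Mathlib
import Cfsg.Agent.H77.TqDefs
import Cfsg.Agent.H49.Isom
import Cfsg.Agent.H49.MinusForm
import Cfsg.Agent.H42.ElusSpA
import Cfsg.Agent.S0288
import Cfsg.Agent.H98.TqOrdDiagOdd

set_option autoImplicit false
open scoped MatrixGroups
open scoped Matrix

/-!
Piece S5978-ORDDIAGEVEN of the team project S5978 (helper77): the order of the isometry group of a
diagonal form of minus type in even dimension.
-/

namespace Cfsg.Agent.H98.Tq

open Module Cfsg.Agent.H77.Tq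

universe u

theorem diagQ_polar_dot {L : Type u} [Field L] {n : ℕ} (α : Fin n → L) (u v : Fin n → L) :
    QuadraticMap.polar (⇑(diagQ α)) u v =
      u ⬝ᵥ (Matrix.diagonal (fun l => 2 * α l) *ᵥ v) := by
  rw [diagQ_polar]
  simp only [dotProduct, Matrix.mulVec_diagonal]
  refine Finset.sum_congr rfl fun l _ => ?_
  ring

theorem ordDiagEven : StOrdDiagEven.{u} := by
  intro L _ _ n α h2 hα heven hn0 hns
  classical
  obtain ⟨m, hm⟩ := heven
  have hnm : n / 2 = m := by omega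
  have hm1 : 1 ≤ m := by omega
  rw [hnm] at hns ⊢
  have hfr1 : finrank L (Fin n → L) = 2 * m := by
    rw [Module.finrank_fin_fun, hm]
    ring
  rcases Cfsg.Agent.H49.even_standard_gram hfr1 (diagQ α) (diagQ_nondeg α h2 hα) with
    ⟨b, -, hb⟩ | ⟨b, ζ, hζ, -, hb⟩
  · -- hyperbolic: contradiction with the discriminant
    exfalso
    obtain ⟨d, hd, hdet⟩ := Cfsg.Agent.H49.gram_det_basis (⇑(diagQ α))
      (Matrix.diagonal (fun l => 2 * α l)) (diagQ_polar_dot α) b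
    have h1 : (Matrix.of fun i j : Fin m ⊕ Fin m =>
        QuadraticMap.polar (⇑(diagQ α)) (b i) (b j)) = Cfsg.Agent.H49.hypGram m L := by
      ext i j
      exact hb i j
    rw [h1, Cfsg.Agent.H49.det_hypGram, Matrix.det_diagonal, Finset.prod_mul_distrib,
      Finset.prod_const, Finset.card_univ, Fintype.card_fin] at hdet
    apply hns
    have h2m : (2 : L) ^ n = (2 ^ m) ^ 2 := by
      rw [← pow_mul, hm]
      congr 1
      ring
    have h3 : (-1 : L) ^ m * (∏ l, α l) * (d * 2 ^ m) ^ 2 = 1 := by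
      have h4 : (-1 : L) ^ m * (∏ l, α l) * (d * 2 ^ m) ^ 2 =
          (-1 : L) ^ m * (d ^ 2 * (2 ^ n * ∏ l, α l)) := by
        rw [h2m]
        ring
      rw [h4, ← hdet, ← mul_pow]
      simp
    have hd2 : d * 2 ^ m ≠ 0 := mul_ne_zero hd (pow_ne_zero _ h2)
    refine ⟨(d * 2 ^ m)⁻¹, ?_⟩
    field_simp
    linear_combination h3
  · -- minus type
    obtain ⟨e₁, he₁⟩ : ∃ e₁ : ((Fin (m - 1) ⊕ Fin (m - 1)) ⊕ Fin 2 → L) ≃ₗ[L] (Fin n → L),
        ∀ i, e₁ (Pi.single i 1) = b i :=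
      ⟨b.equivFun.symm, fun i => by simp⟩
    obtain ⟨D', hD'⟩ : ∃ D' : QuadraticForm L ((Fin (m - 1) ⊕ Fin (m - 1)) ⊕ Fin 2 → L),
        ∀ v, D' v = diagQ α (e₁ v) := ⟨(diagQ α).comp e₁.toLinearMap, fun v => rfl⟩
    have hD'pol : ∀ x y, QuadraticMap.polar (⇑D') x y =
        QuadraticMap.polar (⇑(diagQ α)) (e₁ x) (e₁ y) := by
      intro x y
      unfold QuadraticMap.polar
      rw [hD', hD', hD', map_add]
    have hD'nd : ∀ a, (∀ b, QuadraticMap.polar (⇑D') a b = 0) → a = 0 := by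
      intro a h
      have h1 : e₁ a = 0 := by
        apply diagQ_nd α h2 hα
        intro v
        obtain ⟨b, rfl⟩ := e₁.surjective v
        rw [← hD'pol]
        exact h b
      exact e₁.injective (h1.trans (map_zero e₁).symm)
    obtain ⟨u, hu⟩ : ∃ u : (Fin (m - 1) ⊕ Fin (m - 1)) ⊕ Fin 2 →
        ((Fin (m - 1) ⊕ Fin (m - 1)) ⊕ Fin 2 → L), u = fun i => Pi.single i (1 : L) := ⟨_, rfl⟩
    have hgram : ∀ i j, QuadraticMap.polar (⇑(Cfsg.Agent.H49.QMin (m - 1) L 1 ζ)) (u i) (u j) =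
        QuadraticMap.polar (⇑D') ((Pi.basisFun L ((Fin (m - 1) ⊕ Fin (m - 1)) ⊕ Fin 2)) i)
          ((Pi.basisFun L ((Fin (m - 1) ⊕ Fin (m - 1)) ⊕ Fin 2)) j) := by
      intro i j
      rw [hD'pol, hu]
      simp only [Pi.basisFun_apply]
      rw [he₁, he₁, hb i j, Cfsg.Agent.H49.QMin_coe, Cfsg.Agent.H49.polar_quadFormMinus,
        Matrix.mulVec_single_one, single_one_dotProduct]
      rfl
    obtain ⟨g, hg, -⟩ := Cfsg.Agent.H49.exists_isometry_of_gram h2
      (Pi.basisFun L ((Fin (m - 1) ⊕ Fin (m - 1)) ⊕ Fin 2)) D'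
      (Cfsg.Agent.H49.QMin (m - 1) L 1 ζ) hD'nd u hgram
    have hcard1 : Nat.card ↥(Cfsg.isometryGroup L (fun w : Fin n → L => ∑ l, α l * w l ^ 2)) =
        Nat.card ↥(Cfsg.isometryGroup L ⇑D') :=
      (Cfsg.Agent.H42.card_isometry_congr (⇑D') (fun w : Fin n → L => ∑ l, α l * w l ^ 2) e₁
        (fun v => by rw [hD', diagQ_apply])).symm
    have hcard2 : Nat.card ↥(Cfsg.isometryGroup L ⇑D') =
        Nat.card ↥(Cfsg.isometryGroup L ⇑(Cfsg.Agent.H49.QMin (m - 1) L 1 ζ)) :=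
      Cfsg.Agent.H42.card_isometry_congr _ _ g hg
    have hab : ∀ z₁ z₂ : L, z₁ ^ 2 + 1 * z₁ * z₂ + ζ * z₂ ^ 2 = 0 → z₁ = 0 ∧ z₂ = 0 := by
      intro z₁ z₂ h
      have hz2 : z₂ = 0 := by
        by_contra hz
        apply hζ (z₁ / z₂)
        field_simp
        linear_combination h
      subst hz2
      refine ⟨?_, rfl⟩
      have h5 : z₁ ^ 2 = 0 := by linear_combination h
      exact pow_eq_zero_iff (two_ne_zero) |>.mp h5
    have key := Cfsg.Agent.S0288.key (F := L) rfl 1 ζ hab (m - 1)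
    have hk : m - 1 + 1 = m := by omega
    rw [hk] at key
    rw [hcard1, hcard2, Cfsg.Agent.H49.QMin_coe, key]

example : StOrdDiagEven.{u} := ordDiagEven

end Cfsg.Agent.H98.Tq
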