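import Mathlib
import Cfsg.Agent.Lib.Helper96.TqPlusDefs
import Cfsg.Agent.H49.Isom
import Cfsg.Agent.H49.Plus
import Cfsg.Agent.H42.ElusSpA
import Cfsg.Agent.S0287
import Cfsg.Agent.H98.TqOrdDiagEven

set_option autoImplicit false
open scoped MatrixGroups
open scoped Matrix

/-!
Piece S5977-ORDDIAGEVEN of the team project S5977 (helper96): the order of the isometry group of a
diagonal form of plus type in even dimension.
-/

namespace Cfsg.Agent.H98.Tqp

open Module Cfsg.Agent.H77.Tq Cfsg.Agent.Lib.Helper96.TqP Cfsg.Agent.H98.Tq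

universe u

theorem ordDiagEvenP : StOrdDiagEvenP.{u} := by
  intro L _ _ n α h2 hα heven hn0 hsq
  classical
  obtain ⟨m, hm⟩ := heven
  have hnm : n / 2 = m := by omega
  have hm1 : 1 ≤ m := by omega
  rw [hnm] at hsq ⊢
  have hfr1 : finrank L (Fin n → L) = 2 * m := by
    rw [Module.finrank_fin_fun, hm]
    ring
  have h2m : (2 : L) ^ n = (2 ^ m) ^ 2 := by
    rw [← pow_mul, hm]
    congr 1
    ring
  rcases Cfsg.Agent.H49.even_standard_gram hfr1 (diagQ α) (diagQ_nondeg α h2 hα) with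
    ⟨b, -, hb⟩ | ⟨b, ζ, hζ, -, hb⟩
  · -- hyperbolic
    obtain ⟨e₁, he₁⟩ : ∃ e₁ : (Fin m ⊕ Fin m → L) ≃ₗ[L] (Fin n → L),
        ∀ i, e₁ (Pi.single i 1) = b i :=
      ⟨b.equivFun.symm, fun i => by simp⟩
    obtain ⟨D', hD'⟩ : ∃ D' : QuadraticForm L (Fin m ⊕ Fin m → L),
        ∀ v, D' v = diagQ α (e₁ v) := ⟨(diagQ α).comp e₁.toLinearMap, fun v => rfl⟩
    have hD'pol : ∀ x y, QuadraticMap.polar (⇑D') x y =
        QuadraticMap.polar (⇑(diagQ α)) (e₁ x) (e₁ y) := by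
      intro x y
      unfold QuadraticMap.polar
      rw [hD', hD', hD', map_add]
    have hD'nd : ∀ a, (∀ b, QuadraticMap.polar (⇑D') a b = 0) → a = 0 := by
      intro a h
      have h1 : e₁ a = 0 := by
        apply diagQ_nd α h2 hα
        intro v
        obtain ⟨b, rfl⟩ := e₁.surjective v
        rw [← hD'pol]
        exact h b
      exact e₁.injective (h1.trans (map_zero e₁).symm)
    obtain ⟨u, hu⟩ : ∃ u : Fin m ⊕ Fin m → (Fin m ⊕ Fin m → L),
        u = fun i => Pi.single i (1 : L) := ⟨_, rfl⟩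
    have hgram : ∀ i j, QuadraticMap.polar (⇑(Cfsg.Agent.H49.QP m L)) (u i) (u j) =
        QuadraticMap.polar (⇑D') ((Pi.basisFun L (Fin m ⊕ Fin m)) i)
          ((Pi.basisFun L (Fin m ⊕ Fin m)) j) := by
      intro i j
      rw [hD'pol, hu]
      simp only [Pi.basisFun_apply]
      rw [he₁, he₁, hb i j, Cfsg.Agent.H49.QP_coe, Cfsg.Agent.H49.polar_quadFormPlus,
        Matrix.mulVec_single_one, single_one_dotProduct]
      rfl
    obtain ⟨g, hg, -⟩ := Cfsg.Agent.H49.exists_isometry_of_gram h2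
      (Pi.basisFun L (Fin m ⊕ Fin m)) D' (Cfsg.Agent.H49.QP m L) hD'nd u hgram
    have hcard1 : Nat.card ↥(Cfsg.isometryGroup L (fun w : Fin n → L => ∑ l, α l * w l ^ 2)) =
        Nat.card ↥(Cfsg.isometryGroup L ⇑D') :=
      (Cfsg.Agent.H42.card_isometry_congr (⇑D') (fun w : Fin n → L => ∑ l, α l * w l ^ 2) e₁
        (fun v => by rw [hD', diagQ_apply])).symm
    have hcard2 : Nat.card ↥(Cfsg.isometryGroup L ⇑D') =
        Nat.card ↥(Cfsg.isometryGroup L ⇑(Cfsg.Agent.H49.QP m L)) :=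
      Cfsg.Agent.H42.card_isometry_congr _ _ g hg
    rw [hcard1, hcard2, Cfsg.Agent.H49.QP_coe]
    exact Cfsg.Agent.S0287.result rfl m hm1
  · -- minus type: contradiction with the discriminant
    exfalso
    obtain ⟨d, hd, hdet⟩ := Cfsg.Agent.H49.gram_det_basis (⇑(diagQ α))
      (Matrix.diagonal (fun l => 2 * α l)) (diagQ_polar_dot α) b
    have h1 : (Matrix.of fun i j : (Fin (m - 1) ⊕ Fin (m - 1)) ⊕ Fin 2 =>
        QuadraticMap.polar (⇑(diagQ α)) (b i) (b j)) = Cfsg.Agent.H49.minusGram (m - 1) L 1 ζ := by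
      ext i j
      exact hb i j
    rw [h1, Cfsg.Agent.H49.det_minusGram, Matrix.det_diagonal, Finset.prod_mul_distrib,
      Finset.prod_const, Finset.card_univ, Fintype.card_fin] at hdet
    apply Cfsg.Agent.H49.not_isSquare_of_no_root h2 hζ
    obtain ⟨s, hs⟩ := hsq
    have hpm : (-1 : L) ^ m = -(-1 : L) ^ (m - 1) := by
      obtain ⟨k, rfl⟩ : ∃ k, m = k + 1 := ⟨m - 1, by omega⟩
      simp [pow_succ]
    refine ⟨s * (d * 2 ^ m), ?_⟩
    have h3 : (1 - 4 * ζ : L) = (-1 : L) ^ m * ((-1 : L) ^ (m - 1) * (4 * ζ - 1 ^ 2)) := by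
      rw [hpm]
      have h4 : ((-1 : L) ^ (m - 1)) * ((-1 : L) ^ (m - 1)) = 1 := by
        rw [← mul_pow]
        simp
      linear_combination (4 * ζ - 1 : L) * h4
    rw [h3, hdet, h2m]
    linear_combination (d ^ 2 * (2 ^ m) ^ 2 : L) * hs

example : StOrdDiagEvenP.{u} := ordDiagEvenP

end Cfsg.Agent.H98.Tqp
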