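import Mathlib
import Cfsg.Agent.Lib.Helper96.TqPlusDefs
import Cfsg.Agent.H49.Siegel
import Cfsg.Agent.H49.Plus

/-!
# S5977-SIEGEL (piece for helper96; plus-type twin of helper3's S5978-SIEGEL, H3/TqSiegel.lean)

A long root (Siegel) element of `Ω⁺_{2d}(q)`, `q` odd, `d ≥ 2`: order `p`, non-scalar,
`x - 1` of rank two.
-/

set_option autoImplicit false
open scoped MatrixGroups
open scoped Matrix

namespace Cfsg.Agent.H98.Tqp

open Cfsg.Agent.H77.Tq Cfsg.Agent.Lib.Helper96.TqP Cfsg.Agent.H49 Module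

universe u

theorem sgp_Q_single {F : Type u} [Field F] (m : ℕ) (i : Fin m) :
    QP m F (Pi.single (Sum.inl i) 1) = 0 := by
  rw [QP_apply]
  simp [Pi.single_apply]

theorem siegelP (hOdd : StOddMem.{u}) : StSiegelP.{u} := by
  intro F _ _ p _ _ m h2 hm
  have hQ : (QuadraticMap.polarBilin (QP m F)).Nondegenerate := QP_nondeg m F
  obtain ⟨i0, i1, hi01⟩ : ∃ i0 i1 : Fin m, i0 ≠ i1 :=
    ⟨⟨0, by omega⟩, ⟨1, by omega⟩, by simp [Fin.ext_iff]⟩
  obtain ⟨u, hu_def⟩ : ∃ u : (Fin m ⊕ Fin m) → F, u = Pi.single (Sum.inl (i0)) 1 := ⟨_, rfl⟩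
  obtain ⟨v, hv_def⟩ : ∃ v : (Fin m ⊕ Fin m) → F, v = Pi.single (Sum.inl (i1)) 1 := ⟨_, rfl⟩
  have hpu : ∀ w, QuadraticMap.polar (⇑(QP m F)) u w = w (Sum.inr (i0)) := by
    intro w; rw [hu_def]; exact polar_QP_single_inl m F i0 w
  have hpv : ∀ w, QuadraticMap.polar (⇑(QP m F)) v w = w (Sum.inr (i1)) := by
    intro w; rw [hv_def]; exact polar_QP_single_inl m F i1 w
  have hu : QP m F u = 0 := by
    rw [hu_def]; exact sgp_Q_single m i0
  have hv : QP m F v = 0 := by
    rw [hv_def]; exact sgp_Q_single m i1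
  have huv : QuadraticMap.polar (⇑(QP m F)) u v = 0 := by
    rw [hpu, hv_def]; simp
  obtain ⟨x, hx_def⟩ : ∃ x : ↥(Cfsg.isometryGroup F (⇑(QP m F))),
      x = siegelG (QP m F) u v hu hv huv 1 := ⟨_, rfl⟩
  have hxv : ∀ w : (Fin m ⊕ Fin m) → F, ((x : GL ((Fin m ⊕ Fin m)) F) : Matrix ((Fin m ⊕ Fin m)) ((Fin m ⊕ Fin m)) F) *ᵥ w
      = w + (w (Sum.inr (i0)) • v - w (Sum.inr (i1)) • u) := by
    intro w
    rw [hx_def, siegelG_mulVec, hpu, hpv, one_smul]
  have hxN : ∀ w : (Fin m ⊕ Fin m) → F, (((x : GL ((Fin m ⊕ Fin m)) F) : Matrix ((Fin m ⊕ Fin m)) ((Fin m ⊕ Fin m)) F) - 1) *ᵥ w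
      = w (Sum.inr (i0)) • v - w (Sum.inr (i1)) • u := by
    intro w
    rw [Matrix.sub_mulVec, hxv, Matrix.one_mulVec, add_sub_cancel_left]
  have hpow : ∀ k : ℕ, x ^ k = siegelG (QP m F) u v hu hv huv (k : F) := by
    intro k
    induction k with
    | zero =>
      rw [pow_zero, Nat.cast_zero]
      apply Subtype.ext
      apply Units.ext
      rw [siegelG_coe, siegel_zero]
      rfl
    | succ k ih =>
      rw [pow_succ, ih, hx_def, siegelG_mul, Nat.cast_succ]
  refine ⟨(x : GL ((Fin m ⊕ Fin m)) F), ?_, ?_, ?_, ?_⟩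
  · have hmem : x ∈ commutator ↥(Cfsg.isometryGroup F (⇑(QP m F))) := by
      rw [hx_def]
      exact siegelG_mem_commutator_odd (QP m F) h2 hQ u v hu hv huv 1
    unfold Cfsg.Geo.omegaGL
    exact ⟨x, hmem, rfl⟩
  · have h1 : x ^ p = 1 := by
      rw [hpow p, CharP.cast_eq_zero F p]
      apply Subtype.ext
      apply Units.ext
      rw [siegelG_coe, siegel_zero]
      rfl
    have h2' : ((x ^ p : ↥(Cfsg.isometryGroup F (⇑(QP m F)))) : GL ((Fin m ⊕ Fin m)) F)
        = (x : GL ((Fin m ⊕ Fin m)) F) ^ p := by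
      push_cast
      rfl
    rw [← h2', h1]
    rfl
  · intro z hz
    have h1 := hxv (Pi.single (Sum.inr (i0)) 1)
    rw [hz, Matrix.smul_mulVec, Matrix.one_mulVec] at h1
    have h2' := congrFun h1 (Sum.inl (i1))
    rw [hu_def, hv_def] at h2'
    simp [Pi.single_apply, hi01, hi01.symm] at h2'
  · have hR : (((x : GL ((Fin m ⊕ Fin m)) F) : Matrix ((Fin m ⊕ Fin m)) ((Fin m ⊕ Fin m)) F) - 1).rank
        = finrank F ↥(LinearMap.range
          (((x : GL ((Fin m ⊕ Fin m)) F) : Matrix ((Fin m ⊕ Fin m)) ((Fin m ⊕ Fin m)) F) - 1).mulVecLin) := rfl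
    have hli : LinearIndependent F ![u, v] := by
      rw [LinearIndependent.pair_iff]
      intro s t hst
      have e0 := congrFun hst (Sum.inl (i0))
      have e1 := congrFun hst (Sum.inl (i1))
      rw [hu_def, hv_def] at e0 e1
      simp [Pi.single_apply, hi01, hi01.symm] at e0 e1
      exact ⟨e0, e1⟩
    have hspan : LinearMap.range
        (((x : GL ((Fin m ⊕ Fin m)) F) : Matrix ((Fin m ⊕ Fin m)) ((Fin m ⊕ Fin m)) F) - 1).mulVecLin
          = Submodule.span F (Set.range ![u, v]) := by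
      apply le_antisymm
      · rintro _ ⟨w, rfl⟩
        rw [Matrix.mulVecLin_apply, hxN]
        apply Submodule.sub_mem
        · apply Submodule.smul_mem
          exact Submodule.subset_span ⟨1, rfl⟩
        · apply Submodule.smul_mem
          exact Submodule.subset_span ⟨0, rfl⟩
      · rw [Submodule.span_le]
        rintro _ ⟨j, rfl⟩
        fin_cases j
        · refine ⟨-Pi.single (Sum.inr (i1)) 1, ?_⟩
          rw [Matrix.mulVecLin_apply, hxN]
          simp [Pi.single_apply, hi01, hi01.symm]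
        · refine ⟨Pi.single (Sum.inr (i0)) 1, ?_⟩
          rw [Matrix.mulVecLin_apply, hxN]
          simp [Pi.single_apply, hi01, hi01.symm]
    rw [hR, hspan, finrank_span_eq_card hli]
    rfl

example (hOdd : StOddMem.{u}) : StSiegelP.{u} := siegelP hOdd

end Cfsg.Agent.H98.Tqp
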